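import Cfsg.Agent.H8.Avg2
import Cfsg.Agent.H7.Perf
/-! Brauer's bounds for `k(B)` for abelian defect groups with two or three generators
(`card_le_of_gen_two`, `card_le_of_gen_three`), `FB.of_cyclic`. -/
open H5 H7 Cfsg Finset
open scoped ComplexConjugate ComplexOrder
namespace H8
universe u
variable {M : Ideal AlgInt} {p : ℕ} [hp : Fact p.Prime] [PM p M]

theorem one_le_form {H : Type*} [Group H] [Fintype H] {b : Set (IrrCharacter H)} {β : H → ℂ}
    (hβ : IsGeneralizedCharacter H β) (Q : ℤ)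
    (e : (p : ℂ) ^ blockDefect p b * ctr p 1 b β β = Q) : Q = 0 ∨ ((1 : ℕ) : ℤ) ≤ Q := by
  have h2 := int_nonneg_of_sum (J := {0}) (x := fun _ : ℕ => (Q : ℂ)) (fun _ _ => by
    rw [← e, ← Nat.cast_pow]
    exact (tp_natCast _).mul (tp_ctr hβ)) one_pos (T := Q) (by simp)
  omega

theorem FB.of_cyclic {G : Type*} [Group G] [Fintype G] {B : Set (IrrCharacter G)}
    (hB : IsPBlock M B) {D : Subgroup G} (hD : IsDefectGroup p M B D) (hc : IsCyclic D) :
    FB p B := by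
  by_cases h0 : D = ⊥
  · exact FB.of_defect_le_one hB (((IsDefectGroup.eq_bot_iff hB hD).1 h0).le.trans zero_le_one)
  letI := Fintype.ofFinite D
  obtain ⟨m⟩ := nonempty_mp hB hD
  obtain ⟨a, ζ, δ, α, s, -⟩ := m.exists_sf hc h0
  haveI := s.nt
  exact FB.of_exc (isSat_of_isPBlock hB) (IsDefectGroup.card hB hD) s.fam s.exc s.sgn s.card

variable {X : Type*} [Group X] {G : Type u} [Group G] [Finite G] {B : Set (IrrCharacter G)}
  {φ : X →* G}

theorem exists_major_quot (hB : IsPBlock M B) (hD : IsDefectGroup p M B φ.range)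
    (hab : ∀ x y, φ x * φ y = φ y * φ x) (a : X) :
    ∃ (L : Type u) (_ : Group L) (_ : Fintype L) (ψ : X →* L) (c : Set (IrrCharacter L)),
      IsPBlock M c ∧ IsDefectGroup p M c ψ.range ∧ ψ a = 1 ∧ (∀ x y, ψ x * ψ y = ψ y * ψ x) ∧
      φ.ker ≤ ψ.ker ∧
      p ^ blockDefect p B = orderOf (φ a) * p ^ blockDefect p c ∧
      (FB p c → Nat.card B ≤ p ^ blockDefect p B) ∧
      Nat.card B ≤ p ^ blockDefect p B * Nat.card c := by
  classical
  letI := Fintype.ofFinite G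
  obtain ⟨b, hs, hd, hb⟩ := exists_major hB hD ⟨a, rfl⟩ (v := φ a) (by
    rintro _ ⟨x, rfl⟩; exact hab x a)
  obtain ⟨L, _, _, π, h1, h2, h3, h4⟩ := exists_quot_central hs.central hs.pe
  letI := Fintype.ofFinite L
  obtain ⟨g1, g2, g3⟩ := dominated h1 h3 (fun y _ => h4 y) hs.ind.1
  let φ' : X →* c1 (φ a) := φ.codRestrict _ fun x =>
    Subgroup.mem_centralizer_singleton_iff.2 (hab x a)
  have h0 := fun χ (hχ : χ ∈ fs B) => hs.major_self_ne_zero hd (mem_fs.1 hχ)
  refine ⟨L, inferInstance, inferInstance, π.comp φ', _, g1, ?_, ?_, fun x y => ?_,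
    fun x hx => ?_, ?_, fun hf => ?_, ?_⟩
  · convert g2 _ hb
    rw [MonoidHom.range_comp]
    congr 1
    ext x
    exact ⟨fun ⟨y, e⟩ => ⟨y, congrArg Subtype.val e⟩, fun ⟨y, e⟩ => ⟨y, Subtype.ext e⟩⟩
  · exact h2.ge (Subgroup.mem_zpowers _)
  · simp only [MonoidHom.comp_apply, ← map_mul π]
    exact congrArg π (Subtype.ext (hab x y))
  · rw [MonoidHom.mem_ker, MonoidHom.comp_apply, show φ' x = 1 from Subtype.ext hx, map_one]
  · rw [← hd, g3, h2, Nat.card_zpowers, ← Subgroup.orderOf_coe]; rfl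
  · rw [← card_fs, ← hd]
    exact hs.card_le_of_FB (FB.of_quot h1 h3 (fun y _ => h4 y) hs.ind.1 hf) (Subset.refl _) h0
  · have := hs.brauer_crit (m := 1) (fun β hβ => one_le_form hβ) (Subset.refl _) h0
    rw [mul_one, card_fs, hd, blockRank_quot h1 h3 (fun y _ => h4 y)
      (isSat_of_isPBlock hs.ind.1)] at this
    exact this.trans (Nat.mul_le_mul_left _ (blockRank_le_card (isSat_of_isPBlock g1)))

omit [Finite G] in
theorem gen_step {L : Type*} [Group L] {ψ : X →* L} (h : φ.ker ≤ ψ.ker) {a : X} (ha : ψ a = 1)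
    {S : Set X} (hS : Subgroup.closure (insert a S) ⊔ φ.ker = ⊤) :
    Subgroup.closure S ⊔ ψ.ker = ⊤ :=
  eq_top_iff.2 (hS.ge.trans (sup_le ((Subgroup.closure_le _).2 (Set.insert_subset
    (Subgroup.mem_sup_right ha) fun _ hx => Subgroup.mem_sup_left (Subgroup.subset_closure hx)))
    (h.trans le_sup_right)))

theorem card_le_of_gen_two (hB : IsPBlock M B) (hD : IsDefectGroup p M B φ.range)
    (hab : ∀ x y, φ x * φ y = φ y * φ x) {a b : X} (h : Subgroup.closure {a, b} ⊔ φ.ker = ⊤) :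
    Nat.card B ≤ p ^ blockDefect p B := by
  obtain ⟨L, _, _, ψ, c, h1, h2, h3, -, h4, -, h5, -⟩ := exists_major_quot hB hD hab a
  refine h5 (FB.of_cyclic h1 h2 ?_)
  rw [MonoidHom.range_eq_map, ← gen_step h4 h3 h, Subgroup.map_sup, (Subgroup.map_eq_bot_iff _).2 le_rfl,
    sup_bot_eq, ← Subgroup.zpowers_eq_closure, MonoidHom.map_zpowers]
  infer_instance

theorem card_le_of_gen_three (hB : IsPBlock M B) (hD : IsDefectGroup p M B φ.range)
    (hab : ∀ x y, φ x * φ y = φ y * φ x) {a b c : X}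
    (h : Subgroup.closure {a, b, c} ⊔ φ.ker = ⊤) (h0 : p ^ blockDefect p B ≤ orderOf (φ a) ^ 3) :
    Nat.card B ^ 3 ≤ p ^ (5 * blockDefect p B) := by
  obtain ⟨L, _, _, ψ, c, h1, h2, h3, h6, h4, h7, -, h5⟩ := exists_major_quot hB hD hab a
  have h8 := h5.trans (Nat.mul_le_mul_left _ (card_le_of_gen_two h1 h2 h6 (gen_step h4 h3 h)))
  refine (Nat.pow_le_pow_left h8 3).trans (Nat.le_of_mul_le_mul_right ?_
    (pow_pos hp.out.pos (blockDefect p B)))
  calc _ ≤ (p ^ blockDefect p B * p ^ blockDefect p c) ^ 3 * orderOf (φ a) ^ 3 :=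
        Nat.mul_le_mul_left _ h0
    _ = (p ^ blockDefect p B * (orderOf (φ a) * p ^ blockDefect p c)) ^ 3 := by ring
    _ = _ := by rw [← h7]; ring

end H8
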