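import Cfsg.Agent.H8.Jordan
import Cfsg.Agent.H5.Central

/-! Blichfeldt's 60 degree lemma: `H8.Bl60.conj_stab` (if all eigenvalues of `a` are within
distance `< 1` of the unit `c`, the `c`-eigenspace of `a` is stable under all conjugates of `a`),
`H8.Bl60.mem_center_of_few` (if `z` has at most `k` distinct eigenvalues in the irreducible
character `χ`, `6 ^ (k - 1) < p` and the powers `z ^ d`, `0 < d < p`, have normal closure `G`, then
some such power lies in `Z(χ)`). -/

namespace H8.Bl60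

open H5 Cfsg Module H8.Jordan
open scoped ComplexConjugate InnerProductSpace

section
variable {G : Type*} [Group G] {E : Type*} [NormedAddCommGroup E] [InnerProductSpace ℂ E]
  [FiniteDimensional ℂ E] {ρ : Representation ℂ G E}
  (hρ : ∀ g v w, ⟪ρ g v, ρ g w⟫_ℂ = ⟪v, w⟫_ℂ)
include hρ

theorem norm_rho (g : G) (v : E) : ‖ρ g v‖ = ‖v‖ := by
  rw [@norm_eq_sqrt_re_inner ℂ, @norm_eq_sqrt_re_inner ℂ _ _ _ _ v, hρ]

theorem conj_stab [Finite G] [CompleteSpace E] (a : G) (c : ℂ) (hc : ‖c‖ = 1)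
    (ha : ‖U ρ a - algebraMap ℂ _ c‖ < 1) (y : G) (w : E) (hw : ρ a w = c • w) :
    ρ a (ρ (y⁻¹ * a * y) w) = c • ρ (y⁻¹ * a * y) w := by
  set T := U ρ a - algebraMap ℂ (E →L[ℂ] E) c with hT
  have hTv : ∀ v, T v = ρ a v - c • v := fun v => rfl
  let W : Submodule ℂ E := LinearMap.ker (T : E →ₗ[ℂ] E)
  have hW : ∀ v, v ∈ W ↔ ρ a v = c • v := fun v => by
    rw [LinearMap.mem_ker, ← sub_eq_zero (a := ρ a v)]; rfl
  let π : E →L[ℂ] E := W.starProjection
  have hπW : ∀ v, π v ∈ W := fun v => W.starProjection_apply_mem v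
  have hπ : ∀ v ∈ W, π v = v := fun v hv => Submodule.starProjection_eq_self_iff.2 hv
  let δ : G → ℝ := fun x => ‖(1 - π) * U ρ x * π‖
  have hδ0 : ∀ x, δ x = 0 ↔ ∀ v ∈ W, ρ x v ∈ W := by
    intro x
    rw [norm_eq_zero]
    constructor
    · intro h v hv
      have := congrArg (fun f : E →L[ℂ] E => f v) h
      simp only [mul_apply_eq_comp, sub_apply,
        one_apply_eq_self, zero_apply, hπ v hv, U_apply] at this
      rw [sub_eq_zero.1 this]
      exact hπW _
    · intro h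
      ext v
      simp only [mul_apply_eq_comp, sub_apply,
        one_apply_eq_self, zero_apply, U_apply]
      rw [hπ _ (h _ (hπW v)), sub_self]
  have hconj : ∀ x : G, U ρ (x⁻¹ * a * x) - algebraMap ℂ _ c = U ρ x⁻¹ * T * U ρ x := by
    intro x
    rw [hT, mul_sub, sub_mul, ← Algebra.commutes, mul_assoc (algebraMap ℂ _ c), ← map_mul,
      ← map_mul, ← map_mul, inv_mul_cancel, map_one, mul_one]
  have hU1 : ∀ x : G, ‖U ρ x‖ ≤ 1 := fun x =>
    ContinuousLinearMap.opNorm_le_bound _ zero_le_one fun v => by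
      rw [U_apply, norm_rho hρ, one_mul]
  have h1π : ‖(1 - π : E →L[ℂ] E)‖ ≤ 1 := by
    have : (1 - π : E →L[ℂ] E) = Wᗮ.starProjection := by
      rw [Submodule.starProjection_orthogonal']
    rw [this]
    exact Submodule.starProjection_norm_le _
  have hA : ∀ x, δ (x⁻¹ * a * x) ≤ ‖T‖ * δ x := by
    intro x
    have e : (1 - π) * U ρ (x⁻¹ * a * x) * π =
        (1 - π) * U ρ x⁻¹ * (T * ((1 - π) * U ρ x * π)) := by
      rw [eq_add_of_sub_eq (hconj x)]
      ext v
      simp only [mul_apply_eq_comp, sub_apply,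
        one_apply_eq_self, add_apply, map_add, map_sub,
        Algebra.algebraMap_eq_smul_one, smul_apply, map_smul,
        hπ _ (hπW v), LinearMap.mem_ker.1 (hπW (U ρ x (π v)))]
      have := LinearMap.mem_ker.1 (hπW (U ρ x (π v)))
      simp only [ContinuousLinearMap.coe_coe] at this
      simp [this]
    simp only [δ]
    rw [e]
    refine (norm_mul_le _ _).trans ?_
    have h1 : ‖(1 - π) * U ρ x⁻¹‖ ≤ 1 :=
      (norm_mul_le _ _).trans (mul_le_one₀ h1π (norm_nonneg _) (hU1 _))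
    refine (mul_le_mul_of_nonneg_right h1 (norm_nonneg _)).trans ?_
    rw [one_mul]
    exact norm_mul_le _ _
  have hcc : conj c * c = 1 := by
    rw [Complex.conj_mul', hc]; simp
  have hperp : ∀ v, ∀ u ∈ W, ⟪T v, u⟫_ℂ = 0 := by
    intro v u hu
    rw [hW] at hu
    have h1 : ⟪ρ a v, c • u⟫_ℂ = ⟪v, u⟫_ℂ := by rw [← hu, hρ]
    rw [inner_smul_right] at h1
    rw [hTv, inner_sub_left, inner_smul_left, ← h1, ← mul_assoc, hcc, one_mul, sub_self]
  have hB : ∀ x, δ ((x⁻¹ * a * x)⁻¹ * a * (x⁻¹ * a * x)) = 0 → δ (x⁻¹ * a * x) = 0 := by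
    intro x h
    rw [hδ0] at h ⊢
    set g := x⁻¹ * a * x with hg
    intro v hv
    set v1 := ρ (g⁻¹ * a * g) v - c • v with hv1
    have h1 : v1 ∈ W := W.sub_mem (h v hv) (W.smul_mem _ hv)
    have h2 : ρ g v1 = T (ρ g v) := by
      rw [hv1, hTv, map_sub, map_smul, ← Module.End.mul_apply, ← map_mul, ← Module.End.mul_apply,
        ← map_mul]
      congr 3; group
    have h3 : ‖ρ g v1 - c • v1‖ ≤ ‖T‖ * ‖v1‖ := by
      have e : ρ g v1 - c • v1 = (U ρ g - algebraMap ℂ (E →L[ℂ] E) c) v1 := rfl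
      rw [e, hg, hconj]
      simp only [mul_apply_eq_comp, U_apply]
      rw [norm_rho hρ]
      refine (T.le_opNorm _).trans ?_
      rw [norm_rho hρ]
    have h4 : ⟪ρ g v1 - c • v1, c • v1⟫_ℂ = -(‖v1‖ ^ 2 : ℝ) := by
      rw [inner_sub_left, h2, hperp _ _ (W.smul_mem _ h1), inner_smul_left, inner_smul_right,
        ← mul_assoc, hcc, one_mul, inner_self_eq_norm_sq_to_K]
      simp
    have h5 := norm_inner_le_norm (𝕜 := ℂ) (ρ g v1 - c • v1) (c • v1)
    rw [h4, norm_neg, Complex.norm_real, Real.norm_of_nonneg (sq_nonneg _), norm_smul, hc,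
      one_mul] at h5
    have h6 : ‖v1‖ = 0 := by
      by_contra h0
      have hpos : 0 < ‖v1‖ := lt_of_le_of_ne (norm_nonneg _) (Ne.symm h0)
      have := mul_pos hpos hpos
      nlinarith [mul_le_mul_of_nonneg_right h3 hpos.le]
    rw [norm_eq_zero.1 h6, map_zero] at h2
    exact LinearMap.mem_ker.2 h2.symm
  have hC : ∀ x, δ (x⁻¹ * a * x) = 0 := by
    by_contra hne
    push Not at hne
    obtain ⟨x, hx, hmin⟩ := Set.exists_min_image {x | δ (x⁻¹ * a * x) ≠ 0}
      (fun x => δ (x⁻¹ * a * x)) (Set.toFinite _) hne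
    by_cases h : δ ((x⁻¹ * a * x)⁻¹ * a * (x⁻¹ * a * x)) = 0
    · exact hx (hB x h)
    · have h1 := hmin _ h
      have h2 := hA (x⁻¹ * a * x)
      have hpos : 0 < δ (x⁻¹ * a * x) := lt_of_le_of_ne (norm_nonneg _) (Ne.symm hx)
      nlinarith
  exact (hW _).1 ((hδ0 _).1 (hC y) w ((hW _).2 hw))

end

theorem norm_sub_lt6 {z w : ℂ} (hz : ‖z‖ = 1) (hw : ‖w‖ = 1)
    (h : ⌈3 * z.arg / Real.pi⌉ = ⌈3 * w.arg / Real.pi⌉) : ‖z⁻¹ * w - 1‖ < 1 := by
  have hpi := Real.pi_pos
  have h1 : |3 * w.arg / Real.pi - 3 * z.arg / Real.pi| < 1 := by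
    have a1 := Int.le_ceil (3 * z.arg / Real.pi)
    have a2 := Int.ceil_lt_add_one (3 * z.arg / Real.pi)
    have a3 := Int.le_ceil (3 * w.arg / Real.pi)
    have a4 := Int.ceil_lt_add_one (3 * w.arg / Real.pi)
    rw [h] at a1 a2
    rw [abs_lt]; constructor <;> linarith
  have h2 : |w.arg - z.arg| < Real.pi / 3 := by
    rw [← sub_div, ← mul_sub, abs_div, abs_mul, abs_of_pos hpi, div_lt_one hpi] at h1
    norm_num at h1
    linarith
  have h3 : 1 / 2 < Real.cos (w.arg - z.arg) := by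
    rw [← Real.cos_pi_div_three, ← Real.cos_abs (w.arg - z.arg)]
    exact Real.cos_lt_cos_of_nonneg_of_le_pi (abs_nonneg _) (by linarith) h2
  have h4 : z⁻¹ * w = Complex.exp ((w.arg - z.arg : ℝ) * Complex.I) := by
    conv_lhs => rw [← Complex.norm_mul_exp_arg_mul_I z, ← Complex.norm_mul_exp_arg_mul_I w, hz, hw]
    rw [Complex.ofReal_one, one_mul, one_mul, ← Complex.exp_neg, ← Complex.exp_add]
    congr 1; push_cast; ring
  rw [h4, Complex.exp_mul_I, ← Complex.ofReal_cos, ← Complex.ofReal_sin]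
  set t := w.arg - z.arg
  have h5 : ‖(Real.cos t : ℂ) + Real.sin t * Complex.I - 1‖ ^ 2 < 1 ^ 2 := by
    rw [Complex.sq_norm, Complex.normSq_apply]
    simp only [Complex.sub_re, Complex.add_re, Complex.ofReal_re, Complex.mul_re, Complex.I_re,
      mul_zero, Complex.ofReal_im, Complex.I_im, mul_one, sub_self, add_zero, Complex.sub_im,
      Complex.add_im, Complex.mul_im, zero_add, sub_zero, Complex.one_re, Complex.one_im]
    have e1 := Real.sin_sq_add_cos_sq t
    nlinarith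
  exact lt_of_pow_lt_pow_left₀ 2 zero_le_one h5

theorem ceil_mem6 (z : ℂ) : ⌈3 * z.arg / Real.pi⌉ ∈ Finset.Icc (-2 : ℤ) 3 := by
  have hpi := Real.pi_pos
  have h1 := Complex.neg_pi_lt_arg z
  have h2 := Complex.arg_le_pi z
  rw [Finset.mem_Icc]
  constructor
  · have : (-3 : ℤ) < ⌈3 * z.arg / Real.pi⌉ := by
      rw [Int.lt_ceil, lt_div_iff₀ hpi]; push_cast; linarith
    omega
  · rw [Int.ceil_le, div_le_iff₀ hpi]; push_cast; linarith

/-- pigeonhole: a power with all values within 60 degrees of `1` -/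
theorem exists_pow_close (s : Finset ℂ) (hs : ∀ z ∈ s, ‖z‖ = 1) {p : ℕ} (hp : 6 ^ s.card < p) :
    ∃ d, 0 < d ∧ d < p ∧ ∀ z ∈ s, ‖z ^ d - 1‖ < 1 := by
  classical
  let f : Fin p → s → Finset.Icc (-2 : ℤ) 3 := fun j z => ⟨_, ceil_mem6 ((z : ℂ) ^ (j : ℕ))⟩
  have key : ∀ i j : Fin p, i < j → f i = f j →
      ∃ d, 0 < d ∧ d < p ∧ ∀ z ∈ s, ‖z ^ d - 1‖ < 1 := by
    intro i j hij h
    have hij' : (i : ℕ) < j := hij
    refine ⟨j - i, by omega, by omega, fun z hz => ?_⟩
    have h1 := norm_sub_lt6 (z := z ^ (i : ℕ)) (w := z ^ (j : ℕ)) (by simp [hs z hz])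
      (by simp [hs z hz]) (congrArg Subtype.val (congrFun h ⟨z, hz⟩))
    have h0 : z ≠ 0 := fun e => by simpa [e] using hs z hz
    rwa [mul_comm, ← pow_sub₀ _ h0 hij'.le] at h1
  obtain ⟨i, j, hij, h⟩ := Fintype.exists_ne_map_eq_of_card_lt f (by simpa using hp)
  rcases lt_or_gt_of_ne hij with h1 | h1
  · exact key i j h1 h
  · exact key j i h1 h.symm

open Classical in
theorem mem_center_of_few {G : Type*} [Group G] [Finite G] {χ : G → ℂ} (hχ : IsIrrCharacter G χ)
    {z : G} {p : ℕ} (hn : ∀ d, 0 < d → d < p → Subgroup.normalClosure {z ^ d} = ⊤)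
    (k : ℕ) (hs : ∀ (n : ℕ) (ε : Fin n → ℂ), (∀ i, ε i ^ orderOf z = 1) →
      (∀ j : ℕ, χ (z ^ j) = ∑ i, ε i ^ j) → (Finset.univ.image ε).card ≤ k)
    (hp : 6 ^ (k - 1) < p) :
    ∃ d, 0 < d ∧ d < p ∧ z ^ d ∈ charCenter χ := by
  obtain ⟨n, σ, rfl, hσ⟩ := exists_unitary_of_isCharacter hχ.isCharacter
  haveI : σ.IsIrreducible := by
    letI := Fintype.ofFinite G
    exact isIrreducible_of_isIrrCharacter σ hχ
  obtain ⟨b, ε, h1, h2, h3⟩ := exists_eigenbasis_rep σ z
  have hε := hs _ ε h1 h3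
  have hn1 : ∀ i, ‖ε i‖ = 1 := fun i => norm_eq_one_of_pow_eq_one (orderOf_pos z) (h1 i)
  have hpos : 0 < finrank ℂ (EuclideanSpace ℂ (Fin n)) := by
    rw [← charDegree_character σ]; exact hχ.charDegree_pos
  let i0 : Fin (finrank ℂ (EuclideanSpace ℂ (Fin n))) := ⟨0, hpos⟩
  have h0 : ε i0 ≠ 0 := fun e => by simpa [e] using hn1 i0
  let t : Finset ℂ := ((Finset.univ.image ε).erase (ε i0)).image fun w => w / ε i0
  have ht : t.card ≤ k - 1 := by
    refine Finset.card_image_le.trans ?_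
    rw [Finset.card_erase_of_mem (Finset.mem_image_of_mem _ (Finset.mem_univ _))]
    exact Nat.sub_le_sub_right (by convert hε) _
  obtain ⟨d, hd0, hdp, hd⟩ := exists_pow_close t (fun w hw => by
    obtain ⟨w', hw', rfl⟩ := Finset.mem_image.1 hw
    obtain ⟨i, -, rfl⟩ := Finset.mem_image.1 (Finset.mem_of_mem_erase hw')
    simp [hn1]) (lt_of_le_of_lt (Nat.pow_le_pow_right (by norm_num) ht) hp)
  have hclose : ∀ i, ‖ε i ^ d - ε i0 ^ d‖ < 1 := by
    intro i
    by_cases e : ε i = ε i0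
    · simp [e]
    · have := hd _ (Finset.mem_image_of_mem _ (Finset.mem_erase.2
        ⟨e, Finset.mem_image_of_mem _ (Finset.mem_univ i)⟩))
      have e2 : ε i ^ d - ε i0 ^ d = ((ε i / ε i0) ^ d - 1) * ε i0 ^ d := by
        rw [div_pow]; field_simp
      rw [e2, norm_mul, norm_pow, hn1, one_pow, mul_one]
      exact this
  have hb : ∀ (k : ℕ) i, σ (z ^ k) (b i) = ε i ^ k • b i := by
    intro k i
    induction k with
    | zero => simp
    | succ k ih => rw [pow_succ, map_mul, Module.End.mul_apply, h2, map_smul, ih, smul_smul,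
        pow_succ']
  have hT := norm_lt_of_eigenvalues hσ (z ^ d) (ε i0 ^ d) 1 one_pos (fun μ hμ => by
    obtain ⟨v, hv⟩ := hμ.exists_hasEigenvector
    obtain ⟨i, hi⟩ : ∃ i, b.repr v i ≠ 0 := by
      by_contra h
      push Not at h
      exact hv.2 (b.repr.injective (by ext i; simp [h i]))
    have e := hv.apply_eq_smul
    have e2 : b.repr (σ (z ^ d) v) i = ε i ^ d * b.repr v i := by
      conv_lhs => rw [← b.sum_repr v]
      simp only [map_sum, map_smul, hb, Basis.repr_self, Finsupp.finsetSum_apply,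
        Finsupp.smul_apply, Finsupp.single_apply, smul_eq_mul, mul_ite, mul_one, mul_zero,
        Finset.sum_ite_eq', Finset.mem_univ, if_true]
      ring
    rw [e, map_smul, Finsupp.smul_apply, smul_eq_mul] at e2
    rw [mul_right_cancel₀ hi e2]
    exact hclose i)
  let S : Subgroup G :=
    { carrier := {x | ∀ w, σ (z ^ d) w = ε i0 ^ d • w → σ (z ^ d) (σ x w) = ε i0 ^ d • σ x w}
      one_mem' := fun w hw => by simpa using hw
      mul_mem' := fun {x y} hx hy w hw => by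
        rw [map_mul, Module.End.mul_apply]; exact hx _ (hy w hw)
      inv_mem' := fun {x} hx w hw => by
        have : ∀ k : ℕ, σ (z ^ d) (σ (x ^ k) w) = ε i0 ^ d • σ (x ^ k) w := by
          intro k
          induction k with
          | zero => simpa using hw
          | succ k ih => rw [pow_succ', map_mul, Module.End.mul_apply]; exact hx _ ih
        have e : x⁻¹ = x ^ (orderOf x - 1) := by
          rw [inv_eq_iff_mul_eq_one, ← pow_succ', Nat.sub_add_cancel (orderOf_pos x),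
            pow_orderOf_eq_one]
        rw [e]; exact this _ }
  have hS : S = ⊤ := by
    rw [eq_top_iff, ← hn d hd0 hdp, Subgroup.normalClosure, Subgroup.closure_le]
    intro x hx
    obtain ⟨a, ha, hc⟩ := Group.mem_conjugatesOfSet_iff.1 hx
    rw [Set.mem_singleton_iff.1 ha] at hc
    obtain ⟨y, rfl⟩ := isConj_iff.1 hc
    intro w hw
    have := conj_stab hσ (z ^ d) (ε i0 ^ d) (by simp [hn1]) hT y⁻¹ w hw
    rwa [inv_inv] at this
  let W : Subrepresentation σ :=
    ⟨LinearMap.ker (σ (z ^ d) - ε i0 ^ d • LinearMap.id), fun x w hw => by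
      rw [LinearMap.mem_ker, LinearMap.sub_apply, sub_eq_zero] at hw ⊢
      exact (hS ▸ Subgroup.mem_top x : x ∈ S) w hw⟩
  refine ⟨d, hd0, hdp, (mem_charCenter_character σ _).2 ⟨ε i0 ^ d, ?_⟩⟩
  rcases eq_bot_or_eq_top W with h | h
  · have h1 : b i0 ∈ W.toSubmodule := by
      change b i0 ∈ LinearMap.ker _
      rw [LinearMap.mem_ker, LinearMap.sub_apply, hb]; simp
    rw [h] at h1
    exact absurd h1 (b.ne_zero i0)
  · ext1 v
    have h1 : v ∈ W.toSubmodule := by rw [h]; trivial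
    exact sub_eq_zero.1 (LinearMap.mem_ker.1 h1)

end H8.Bl60
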