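import Cfsg.Agent.H8.Cd3
import Cfsg.Agent.H8.CyclicTop
import Mathlib.GroupTheory.FiniteAbelian.Duality

/-! Groups with character degrees `1` and `p` (Isaacs 12.11): `cdp_struct`; `mul_irr_of_vanish`,
`exists_small_relIndex`. -/

open H5 H6 Cfsg
open scoped ComplexConjugate commutatorElement

namespace H8
variable {G : Type*} [Group G] [Finite G] {χ ψ : G → ℂ}

theorem mul_irr_of_vanish (hχ : IsIrrCharacter G χ) (h : ∀ g ∉ charCenter χ, χ g = 0)
    (hψ : IsCharacter G ψ) (hr : IsIrrCharacter (charCenter χ) fun a => ψ a) :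
    IsIrrCharacter G (χ * ψ) := by
  classical
  letI := Fintype.ofFinite G
  refine (hχ.isCharacter.mul hψ).isIrr_of_classInner_self ?_
  have h1 := hr.sum_norm_sq
  rw [classInner_self, ← Finset.sum_subset (Finset.subset_univ (Finset.univ.filter (· ∈ charCenter χ)))
    (fun g _ hg => by rw [Pi.mul_apply, h g (by simpa using hg)]; simp),
    Finset.sum_congr rfl (g := fun g => (charDegree χ : ℝ) ^ 2 * ‖ψ g‖ ^ 2) (fun g hg => by
      rw [Pi.mul_apply, norm_mul, mul_pow, hχ.mem_charCenter.1 (Finset.mem_filter.1 hg).2,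
        hχ.isCharacter.norm_apply_one]),
    ← Finset.mul_sum, Finset.sum_subtype (p := (· ∈ charCenter χ)) _ (by simp), h1, ← Nat.cast_pow,
    deg_sq_of_vanish hχ h, ← Nat.cast_mul, Subgroup.index_mul_card, inv_mul_cancel₀ (by simp)]
  simp

open scoped IsMulCommutative in
theorem exists_small_relIndex {A : Subgroup G} [hA : A.Normal] (hc : IsMulCommutative A)
    (h : ∀ lam : A →* ℂˣ, ¬ inertia (fun a => (lam a : ℂ)) ≤ A) :
    ∃ g ∉ A, (Subgroup.centralizer {g}).relIndex A < A.index := by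
  classical
  by_contra! e
  haveI := Fintype.ofFinite (G ⧸ A)
  haveI : NeZero (Monoid.exponent A : ℂ) := ⟨by simpa using Monoid.exponent_ne_zero_of_finite⟩
  let φ : G → (A →* A) := fun g => (MulAut.conjNormal g).toMonoidHom / MonoidHom.id A
  have h1 : ∀ g ∉ A, Nat.card (MonoidHom.domRestrictHom (φ g).range ℂˣ).ker * A.index ≤ Nat.card A :=
    fun g hg => by
      rw [CommGroup.card_domRestrictHom_ker, ← Subgroup.index_eq_card, ← (φ g).range.index_mul_card,
        ← Subgroup.index_ker]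
      refine Nat.mul_le_mul_left _ ((e g hg).trans_eq (congrArg Subgroup.index ?_))
      ext a
      simp [φ, Subgroup.mem_subgroupOf, Subgroup.mem_centralizer_iff, div_eq_one, Subtype.ext_iff,
        mul_inv_eq_iff_eq_mul]
  haveI : Finite (A →* ℂˣ) := Nat.finite_of_card_ne_zero (by
    rw [CommGroup.card_monoidHom_of_hasEnoughRootsOfUnity]; exact Nat.card_pos.ne')
  haveI := Fintype.ofFinite (A →* ℂˣ)
  have h2 : (Finset.univ : Finset (A →* ℂˣ)) ⊆ (Finset.univ.erase (1 : G ⧸ A)).biUnion fun q =>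
      Finset.univ.filter (· ∈ (MonoidHom.domRestrictHom (φ q.out).range ℂˣ).ker) := fun lam _ => by
    obtain ⟨g, hg, hg'⟩ := SetLike.not_le_iff_exists.1 (h lam)
    refine Finset.mem_biUnion.2 ⟨g, by simpa using hg', Finset.mem_filter.2 ⟨Finset.mem_univ _, ?_⟩⟩
    obtain ⟨a, ha⟩ := QuotientGroup.mk_out_eq_mul A g
    have h3 := mem_inertia'.1 (ha ▸ mul_mem hg (le_inertia (isIrrCharacter_hom lam).isClassFunction a.2))
    ext ⟨_, b, rfl⟩
    exact congrArg Units.val ((map_div lam _ b).trans (div_eq_one.2 (Units.val_injective (h3 b))))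
  have h3 := Nat.mul_le_mul_right A.index ((Finset.card_le_card h2).trans Finset.card_biUnion_le)
  rw [Finset.sum_mul, Finset.card_univ, ← Nat.card_eq_fintype_card,
    CommGroup.card_monoidHom_of_hasEnoughRootsOfUnity] at h3
  have h4 := h3.trans (Finset.sum_le_card_nsmul _ _ (Nat.card A) fun q hq => by
    rw [← Nat.subtype_card _ (p := (· ∈ (MonoidHom.domRestrictHom (φ q.out).range ℂˣ).ker)) (by simp)]
    exact h1 _ fun e => (Finset.mem_erase.1 hq).1 (q.out_eq.symm.trans ((QuotientGroup.eq_one_iff _).2 e)))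
  rw [Finset.card_erase_of_mem (Finset.mem_univ _), Finset.card_univ, ← Nat.card_eq_fintype_card,
    ← Subgroup.index_eq_card, smul_eq_mul, mul_comm] at h4
  have := Nat.le_of_mul_le_mul_right h4 Nat.card_pos
  have := A.index_ne_zero_of_finite
  omega

theorem index_eq_of_lt_of_sq {p : ℕ} (hp : p.Prime) {A B : Subgroup G} (hA : A.index = p ^ 2)
    (h : A ≤ B) (h1 : ¬ B ≤ A) (h2 : B ≠ ⊤) : B.index = p := by
  obtain ⟨k, hk, e⟩ := (Nat.dvd_prime_pow hp).1 (hA ▸ Subgroup.index_dvd_of_le h)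
  have h3 := Subgroup.index_strictAnti (lt_of_le_not_ge h h1)
  rw [e, hA, Nat.pow_lt_pow_iff_right hp.one_lt] at h3
  have : k ≠ 0 := fun e0 => h2 (Subgroup.index_eq_one.1 (by rw [e, e0, pow_zero]))
  rw [e, show k = 1 by omega, pow_one]

/-- Isaacs 12.11. -/
theorem cdp_struct {p : ℕ} (hp : p.Prime) (h : Cd3 G p p) (h0 : commutator G ≠ ⊥) :
    (∃ A : Subgroup G, A.Normal ∧ IsMulCommutative A ∧ A.index = p) ∨
      (Subgroup.center G).index = p ^ 3 := by
  classical
  haveI := Fintype.ofFinite G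
  rw [or_iff_not_imp_left]
  intro hno
  obtain ⟨A, h1, h2, h3, -⟩ | ⟨q, e, hq, h1, P, -, h2, -⟩ := cd2_struct h h0
  · exact absurd ⟨A, h1, h2, h3⟩ hno
  obtain rfl : q = p := (hp.pow_eq_iff.1 h1.symm).1
  haveI := Fact.mk hp
  obtain ⟨n, hn⟩ := (nilMod_pResidual (G := G) q).mono h2
  have hN : NilMod (⊥ : Subgroup G) := ⟨n + 1, by
    rw [Subgroup.lowerCentralSeries_succ, le_bot_iff, Subgroup.commutator_eq_bot_iff_le_centralizer]
    exact hn.trans (Subgroup.center_le_centralizer _)⟩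
  obtain ⟨χ, e1, e2, e3⟩ : ∃ χ, IsIrrCharacter G χ ∧ ⁅commutator G, ⊤⁆ ≤ charKer χ ∧
      ¬ commutator G ≤ charKer χ := by
    by_contra! e2; exact h0 (le_bot_iff.1 (hN.le_of ((le_of_forall_ker e2).trans le_sup_right)))
  have hm : ∀ ψ, IsIrrCharacter G ψ → charDegree ψ ≠ 1 → charDegree ψ = q := fun ψ hψ e => by
    have := h ψ hψ; omega
  have h3 : commutator G ≤ charCenter χ := fun x hx => e1.mem_charCenter_iff_commutator.2 fun y =>
    e2 (Subgroup.commutator_mem_commutator hx (Subgroup.mem_top y))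
  have h4 := deg_sq_of_comm e1 h3
  have e4 := hm χ e1 ((not_le_ker_iff e1).1 e3)
  have h5 : ∀ ψ, IsIrrCharacter G ψ → charDegree ψ ≠ q ^ 2 := fun ψ hψ e => by
    have := hp.one_lt
    rcases h ψ hψ with e' | e' | e' <;> nlinarith
  haveI := e1.isCharacter.normal_charCenter
  have h6 : ⁅charCenter χ, charCenter χ⁆ = ⊥ := eq_bot_of_forall_ker fun ψ hψ => by
    obtain ⟨θ, hθ, e5⟩ := exists_irr_under (N := charCenter χ) hψ
    refine le_ker_of_constituent (Subgroup.commutator_le_left _ _) hψ hθ.isCharacter e5 (le_trans ?_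
      (not_not.1 (mt (not_le_ker_iff hθ).1 fun e6 => ?_)))
    · rw [← Subgroup.map_subtype_commutator, Subgroup.subgroupOf,
        Subgroup.comap_map_eq_self_of_injective (Subgroup.subtype_injective _)]
    obtain ⟨c, -, e7⟩ := deg_dvd_of_under hψ hθ e5
    have e8 := hm ψ hψ fun e => e6 (Nat.eq_one_of_mul_eq_one_left (e7 ▸ e))
    have e9 : charDegree θ = q := ((Nat.dvd_prime hp).1 (e8 ▸ e7 ▸ Dvd.intro_left _ rfl)).resolve_left e6
    refine h5 _ (mul_irr_of_vanish e1 (fun _ => vanish_of_comm e1 h3) hψ.isCharacter ?_) (by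
      rw [deg_mul e1.isCharacter hψ.isCharacter, e4, e8, sq])
    rw [eq_of_constituent_of_apply_one (hψ.isCharacter.restrict _) hθ e5 (by
      simp [← hψ.coe_charDegree, ← hθ.coe_charDegree, e8, e9])]
    exact hθ
  rw [e4] at h4
  have h7 := e1.center_le_charCenter
  generalize charCenter χ = A at *
  have hc : IsMulCommutative A := Subgroup.commutator_self_eq_bot_iff.1 h6
  have h8 : ∀ lam : A →* ℂˣ, ¬ inertia (fun a => (lam a : ℂ)) ≤ A := fun lam e =>
    h5 _ (isIrr_ind_of_inertia_le (isIrrCharacter_hom lam) e) (by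
      rw [deg_ind (isCharacter_hom lam), charDegree_of_eq (n := 1) (by simp), mul_one, h4])
  obtain ⟨x, hx, h9⟩ := exists_small_relIndex hc h8
  have h10 : ¬ A ≤ Subgroup.centralizer {x} := fun e => by
    have e5 : IsMulCommutative ↥(Subgroup.zpowers x ⊔ A) := by
      have f1 : Subgroup.zpowers x ≤ Subgroup.centralizer (A : Set G) :=
        Subgroup.zpowers_le.2 fun a ha => Subgroup.mem_centralizer_singleton_iff.1 (e ha)
      rw [← Subgroup.le_centralizer_iff_isMulCommutative, sup_le_iff, Subgroup.le_centralizer_iff,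
        Subgroup.le_centralizer_iff (H := A), sup_le_iff, sup_le_iff]
      exact ⟨⟨(Subgroup.zpowers x).le_centralizer, Subgroup.le_centralizer_iff.1 f1⟩, f1, A.le_centralizer⟩
    refine hno ⟨_, Subgroup.Normal.of_commutator_le G (h3.trans le_sup_right), e5,
      index_eq_of_lt_of_sq hp h4.symm le_sup_right
        (fun e6 => hx (e6 (Subgroup.mem_sup_left (Subgroup.mem_zpowers x)))) fun e6 => h0 ?_⟩
    rw [e6] at e5
    exact Subgroup.commutator_self_eq_bot_iff.2 e5
  have h11 : Subgroup.centralizer {x} ⊓ A = Subgroup.center G := by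
    refine le_antisymm (fun c hc' => Subgroup.mem_center_iff.2 fun y => by_contra fun e => ?_)
      (le_inf (Subgroup.center_le_centralizer _) h7)
    obtain ⟨a, ha, ha'⟩ := SetLike.not_le_iff_exists.1 h10
    have e0 : commutator A ≤ ⊥ := (Subgroup.commutator_self_eq_bot_iff.2 inferInstance).le
    obtain ⟨l1, -, e5⟩ := exists_lin_ne_one e0 (g := MulAut.conjNormal x ⟨a, ha⟩ * (⟨a, ha⟩ : A)⁻¹) (by
      simpa [Subtype.ext_iff, mul_inv_eq_iff_eq_mul, Subgroup.mem_centralizer_iff] using ha')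
    obtain ⟨l2, -, e6⟩ := exists_lin_ne_one e0 (g := MulAut.conjNormal y ⟨c, hc'.2⟩ * (⟨c, hc'.2⟩ : A)⁻¹) (by
      simpa [Subtype.ext_iff, mul_inv_eq_iff_eq_mul] using e)
    obtain ⟨lam, e7, e8⟩ : ∃ lam : A →* ℂˣ, lam (MulAut.conjNormal x ⟨a, ha⟩ * (⟨a, ha⟩ : A)⁻¹) ≠ 1 ∧
        lam (MulAut.conjNormal y ⟨c, hc'.2⟩ * (⟨c, hc'.2⟩ : A)⁻¹) ≠ 1 := by
      by_contra! e7
      have e8 := e7 (l1 * l2) (by
        rw [MonoidHom.mul_apply, not_not.1 (mt (e7 l2) e6), mul_one]; exact e5)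
      rw [MonoidHom.mul_apply, e7 l1 e5, one_mul] at e8
      exact e6 e8
    rw [map_mul, map_inv, Ne, mul_inv_eq_one] at e7 e8
    have e9 : x ∉ inertia fun a => (lam a : ℂ) := fun e => e7 (Units.val_injective (mem_inertia'.1 e _))
    have e10 := le_inertia (isIrrCharacter_hom lam).isClassFunction
    haveI := Subgroup.Normal.of_commutator_le G (h3.trans e10)
    have e11 := zpowers_sup_eq_top_of_index_prime hp (index_eq_of_lt_of_sq hp h4.symm e10 (h8 lam)
      fun e => e9 (e ▸ Subgroup.mem_top x)) e9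
    rw [sup_comm] at e11
    obtain ⟨t, ht, z, hz, rfl⟩ := Subgroup.mem_sup_of_normal_left.1 (e11.ge (Subgroup.mem_top y))
    have e12 : z * c = c * z := Subgroup.mem_centralizer_singleton_iff.1 ((Subgroup.zpowers_le.2
      (Subgroup.mem_centralizer_singleton_iff.2 (Subgroup.mem_centralizer_singleton_iff.1 hc'.1).symm)) hz)
    refine e8 (Units.val_injective (Eq.trans ?_ (mem_inertia'.1 ht ⟨c, hc'.2⟩)))
    congr 2
    ext
    simp [mul_assoc, ← mul_assoc z, e12]
  obtain ⟨j, hj⟩ := H3.exists_index_pResidual (p := q) (G := G)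
  rw [← Subgroup.inf_relIndex_right, h11, ← h4] at h9
  have h12 := Subgroup.relIndex_mul_index h7
  obtain ⟨k, -, hk⟩ := (Nat.dvd_prime_pow hp).1 ((Dvd.intro _ h12).trans
    (hj ▸ Subgroup.index_dvd_of_le h2))
  have h13 : k ≠ 0 := fun e => h10 ((Subgroup.relIndex_eq_one.1 (by rw [hk, e, pow_zero])).trans
    (Subgroup.center_le_centralizer _))
  rw [hk, Nat.pow_lt_pow_iff_right hp.one_lt] at h9
  rw [← h12, hk, ← h4, show k = 1 by omega]
  ring

end H8
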