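import Cfsg.Agent.H8.Contr
import Cfsg.Agent.H7.Misc2
import Cfsg.Agent.H1.Basic
/-! Normal chains of `p`-subgroups: the sign-reversing involution on chains normalized by a
`p`-element (`sum_chain_eq_zero`) and the local formula for `k(b_σ) - l(b_σ)` (`card_mul_sub_rank`). -/
open H5 H7 Cfsg Finset
open scoped ComplexConjugate Pointwise
namespace H8
namespace Chain
variable {G : Type*} [Group G] {p : ℕ}

/-- normal chains (possibly empty) -/
structure Valid (p : ℕ) (s : Finset (Subgroup G)) : Prop where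
  tot : ∀ Q ∈ s, ∀ R ∈ s, Q ≤ R ∨ R ≤ Q
  pg : ∀ Q ∈ s, Q ≠ ⊥ ∧ IsPGroup p Q
  nm : ∀ Q ∈ s, ∀ R ∈ s, R ≤ Subgroup.normalizer (Q : Set G)

def stab (s : Finset (Subgroup G)) : Subgroup G := ⨅ Q ∈ s, Subgroup.normalizer (Q : Set G)

theorem mem_stab {s : Finset (Subgroup G)} {x : G} :
    x ∈ stab s ↔ ∀ Q ∈ s, x ∈ Subgroup.normalizer (Q : Set G) := by
  simp [stab, Subgroup.mem_iInf]

theorem Valid.mono {s t : Finset (Subgroup G)} (h : Valid p s) (ht : t ⊆ s) : Valid p t :=
  ⟨fun Q hQ R hR => h.tot Q (ht hQ) R (ht hR), fun Q hQ => h.pg Q (ht hQ),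
    fun Q hQ R hR => h.nm Q (ht hQ) R (ht hR)⟩

theorem exists_top {s : Finset (Subgroup G)} (h : ∀ Q ∈ s, ∀ R ∈ s, Q ≤ R ∨ R ≤ Q)
    (hs : s.Nonempty) : ∃ T ∈ s, ∀ Q ∈ s, Q ≤ T := by
  obtain ⟨T, hT⟩ := s.exists_maximal hs
  exact ⟨T, hT.1, fun Q hQ => (h Q hQ T hT.1).elim id (hT.2 hQ)⟩

theorem Valid.sup_pg {s : Finset (Subgroup G)} (h : Valid p s) : IsPGroup p (s.sup id : Subgroup G) := by
  rcases s.eq_empty_or_nonempty with rfl | hs
  · exact IsPGroup.of_bot
  · obtain ⟨T, hT, h1⟩ := exists_top h.tot hs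
    have : s.sup id = T := le_antisymm (Finset.sup_le h1) (le_sup (f := id) hT)
    rw [this]
    exact (h.pg T hT).2

theorem stab_le_nm_sup {s t : Finset (Subgroup G)} (ht : t ⊆ s) :
    stab s ≤ Subgroup.normalizer ((t.sup id : Subgroup G) : Set G) := by
  classical
  induction t using Finset.induction_on with
  | empty => rw [sup_empty, Subgroup.normalizer_eq_top]; exact le_top
  | insert Q t _ ih =>
    rw [sup_insert]
    exact H1.le_normalizer_sup (fun x hx => mem_stab.1 hx Q (ht (mem_insert_self _ _)))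
      (ih ((subset_insert _ _).trans ht))

theorem Valid.sup_le_stab {s : Finset (Subgroup G)} (h : Valid p s) : s.sup id ≤ stab s :=
  Finset.sup_le fun R hR _ hx => mem_stab.2 fun Q hQ => h.nm Q hQ R hR hx

variable (u : G)
def tT (s : Finset (Subgroup G)) : Subgroup G := s.sup id ⊔ Subgroup.zpowers u
open Classical in
noncomputable def tL (s : Finset (Subgroup G)) : Subgroup G := (s.filter (u ∉ ·)).sup id
def tU (T : Subgroup G) : Subgroup G := Subgroup.closure {y | ∃ t ∈ T, y = t * u * t⁻¹}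
noncomputable def tW (s : Finset (Subgroup G)) : Subgroup G := tL u s ⊔ tU u (tT u s)

variable {u} {s : Finset (Subgroup G)}

theorem mem_tU (T : Subgroup G) : u ∈ tU u T :=
  Subgroup.subset_closure ⟨1, T.one_mem, by simp⟩

theorem mem_tW : u ∈ tW u s := Subgroup.mem_sup_right (mem_tU _)

theorem tU_le {T Q : Subgroup G} (h : T ≤ Subgroup.normalizer (Q : Set G)) (hu : u ∈ Q) :
    tU u T ≤ Q := by
  rw [tU, Subgroup.closure_le]
  rintro _ ⟨t, ht, rfl⟩
  exact H1.conj_mem_of_mem_normalizer (h ht) hu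

theorem mem_tT : u ∈ tT u s := Subgroup.mem_sup_right (Subgroup.mem_zpowers u)

theorem tL_le : tL u s ≤ s.sup id := by
  classical
  exact Finset.sup_mono (by convert filter_subset _ s)

theorem tW_le : tW u s ≤ tT u s :=
  sup_le (tL_le.trans le_sup_left) (tU_le Subgroup.le_normalizer mem_tT)

theorem Valid.tT_le (h : Valid p s) (hu : u ∈ stab s) : tT u s ≤ stab s :=
  sup_le h.sup_le_stab (Subgroup.zpowers_le.2 hu)

theorem Valid.tT_pg [Fact p.Prime] (h : Valid p s) (hu : u ∈ stab s) (hp : IsPE p u) :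
    IsPGroup p (tT u s) := by
  rw [tT, sup_comm]
  exact hp.isPGroup_zpowers.to_sup_of_normal_right' h.sup_pg
    ((Subgroup.zpowers_le.2 hu).trans (stab_le_nm_sup subset_rfl))

theorem mem_nm_tU [Finite G] {T : Subgroup G} {x : G}
    (h : ∀ t ∈ T, ∃ t' ∈ T, x * (t * u * t⁻¹) * x⁻¹ = t' * u * t'⁻¹) :
    x ∈ Subgroup.normalizer (tU u T : Set G) := by
  refine H1.mem_normalizer_of_conj_mem fun y hy => ?_
  refine Subgroup.closure_induction (p := fun y _ => x * y * x⁻¹ ∈ tU u T) ?_ ?_ ?_ ?_ hy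
  · rintro _ ⟨t, ht, rfl⟩
    obtain ⟨t', h1, h2⟩ := h t ht
    exact Subgroup.subset_closure ⟨t', h1, h2⟩
  · simp
  · intro a b _ _ ha hb
    have := mul_mem ha hb
    convert this using 1; group
  · intro a _ ha
    have := inv_mem ha
    convert this using 1; group

theorem stab_le_nm_tL : stab s ≤ Subgroup.normalizer (tL u s : Set G) := by
  classical
  exact stab_le_nm_sup (by convert filter_subset _ s)

theorem Valid.tT_le_nm [Finite G] (h : Valid p s) (hu : u ∈ stab s) :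
    tT u s ≤ Subgroup.normalizer (tW u s : Set G) :=
  H1.le_normalizer_sup ((h.tT_le hu).trans stab_le_nm_tL) fun x hx =>
    mem_nm_tU fun t ht => ⟨x * t, mul_mem hx ht, by group⟩

theorem inf_le_nm [Finite G] :
    stab s ⊓ Subgroup.centralizer {u} ≤ Subgroup.normalizer (tW u s : Set G) := by
  refine H1.le_normalizer_sup (inf_le_left.trans stab_le_nm_tL) fun x hx => ?_
  have hc := Subgroup.mem_centralizer_singleton_iff.1 hx.2
  have h1 : x ∈ Subgroup.normalizer (tT u s : Set G) := by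
    refine H1.le_normalizer_sup (inf_le_left.trans (stab_le_nm_sup subset_rfl))
      (inf_le_right.trans ?_) hx
    rw [← centralizer_zpowers]; exact centralizer_le_normalizer' _
  refine mem_nm_tU fun t ht => ⟨x * t * x⁻¹, H1.conj_mem_of_mem_normalizer h1 ht, ?_⟩
  have : u = x⁻¹ * u * x := by rw [mul_assoc, ← hc]; group
  conv_lhs => rw [this]
  group

theorem Valid.tW_le_of_mem (h : Valid p s) (hu : u ∈ stab s) {Q : Subgroup G} (hQ : Q ∈ s)
    (h1 : u ∈ Q) : tW u s ≤ Q := by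
  classical
  refine sup_le (Finset.sup_le fun R hR => ?_)
    (tU_le ((h.tT_le hu).trans fun x hx => mem_stab.1 hx Q hQ) h1)
  rw [mem_filter] at hR
  exact (h.tot R hR.1 Q hQ).resolve_right fun h2 => hR.2 (h2 h1)

theorem le_tL {Q : Subgroup G} (hQ : Q ∈ s) (h1 : u ∉ Q) : Q ≤ tL u s := by
  classical
  exact le_sup (f := id) (by simp only [mem_filter]; exact ⟨hQ, h1⟩)

theorem Valid.insert [Finite G] [Fact p.Prime] [DecidableEq (Subgroup G)] (h : Valid p s)
    (hu : u ∈ stab s) (hp : IsPE p u) (h1 : u ≠ 1) : Valid p (insert (tW u s) s) := by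
  have key : ∀ Q ∈ s, Q ≤ tW u s ∨ tW u s ≤ Q := fun Q hQ => by
    by_cases h2 : u ∈ Q
    · exact Or.inr (h.tW_le_of_mem hu hQ h2)
    · exact Or.inl ((le_tL hQ h2).trans le_sup_left)
  have hT : ∀ Q ∈ Insert.insert (tW u s) s, Q ≤ tT u s := fun Q hQ => by
    rcases mem_insert.1 hQ with rfl | hQ
    · exact tW_le
    · exact (le_sup (f := id) hQ : Q ≤ s.sup id).trans le_sup_left
  refine ⟨fun Q hQ R hR => ?_, fun Q hQ => ?_, fun Q hQ R hR => (hT R hR).trans ?_⟩
  · rcases mem_insert.1 hQ with rfl | hQ <;> rcases mem_insert.1 hR with rfl | hR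
    · exact Or.inl le_rfl
    · exact (key R hR).symm
    · exact key Q hQ
    · exact h.tot Q hQ R hR
  · rcases mem_insert.1 hQ with rfl | hQ
    · exact ⟨fun h2 => h1 (Subgroup.mem_bot.1 (h2 ▸ mem_tW)), (h.tT_pg hu hp).to_le tW_le⟩
    · exact h.pg Q hQ
  · rcases mem_insert.1 hQ with rfl | hQ
    · exact h.tT_le_nm hu
    · exact (h.tT_le hu).trans fun x hx => mem_stab.1 hx Q hQ

theorem stab_insert [DecidableEq (Subgroup G)] (W : Subgroup G) :
    stab (insert W s) = Subgroup.normalizer (W : Set G) ⊓ stab s := by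
  ext x; simp [mem_stab]

theorem tL_insert [DecidableEq (Subgroup G)] {W : Subgroup G} (h : u ∈ W) :
    tL u (insert W s) = tL u s := by
  classical
  unfold tL
  congr 1
  ext Q
  simp only [mem_filter, mem_insert]
  exact ⟨fun ⟨h1, h2⟩ => ⟨h1.resolve_left (fun e => h2 (e ▸ h)), h2⟩, fun ⟨h1, h2⟩ => ⟨Or.inr h1, h2⟩⟩

theorem tW_insert [DecidableEq (Subgroup G)] : tW u (insert (tW u s) s) = tW u s := by
  have : tT u (insert (tW u s) s) = tT u s := by
    rw [tT, sup_insert, id, sup_assoc]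
    exact sup_eq_right.2 tW_le
  rw [tW, this, tL_insert mem_tW]; rfl

theorem eq_of_sup_tU [Finite G] [Fact p.Prime] {L W : Subgroup G} (hW : IsPGroup p W) (hu : u ∈ W)
    (h : L ⊔ tU u W = W) : L ⊔ Subgroup.zpowers u = W := by
  have hle : L ⊔ Subgroup.zpowers u ≤ W := sup_le (h ▸ le_sup_left) (Subgroup.zpowers_le.2 hu)
  by_contra hne
  haveI := hW.isNilpotent
  obtain ⟨M, hM, h1⟩ := (eq_top_or_exists_le_coatom ((L ⊔ Subgroup.zpowers u).subgroupOf W)).resolve_left
    fun e => hne (le_antisymm hle (Subgroup.subgroupOf_eq_top.1 e))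
  haveI : M.Normal := Subgroup.NormalizerCondition.normal_of_coatom M
    Group.normalizerCondition_of_isNilpotent hM
  apply hM.1
  rw [eq_top_iff]
  intro x _
  have h2 : W ≤ M.map W.subtype := by
    conv_lhs => rw [← h]
    refine sup_le (fun y hy => ⟨⟨y, hle (Subgroup.mem_sup_left hy)⟩,
      h1 (Subgroup.mem_sup_left hy : y ∈ L ⊔ _), rfl⟩) ?_
    rw [tU, Subgroup.closure_le]
    rintro _ ⟨t, ht, rfl⟩
    exact ⟨⟨t, ht⟩ * ⟨u, hu⟩ * ⟨t, ht⟩⁻¹, Subgroup.Normal.conj_mem inferInstance _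
      (h1 (Subgroup.mem_sup_right (Subgroup.mem_zpowers u) : u ∈ L ⊔ _)) _, rfl⟩
  obtain ⟨y, hy, e⟩ := h2 x.2
  rwa [← Subtype.ext e]

theorem Valid.tW_erase [Finite G] [Fact p.Prime] [DecidableEq (Subgroup G)] (h : Valid p s)
    (hu : u ∈ stab s) (hW : tW u s ∈ s) : tW u (s.erase (tW u s)) = tW u s := by
  have e : s = Insert.insert (tW u s) (s.erase (tW u s)) := (insert_erase hW).symm
  have hL : tL u (s.erase (tW u s)) = tL u s := by
    conv_rhs => rw [e]
    rw [tL_insert mem_tW]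
  have : tT u (s.erase (tW u s)) = tT u s := by
    refine le_antisymm (sup_le_sup_right (Finset.sup_mono (erase_subset _ _)) _) ?_
    have h1 : tW u s ≤ tT u (s.erase (tW u s)) := by
      by_cases h2 : ∃ Q ∈ s.erase (tW u s), u ∈ Q
      · obtain ⟨Q, hQ, h2⟩ := h2
        exact (h.tW_le_of_mem hu (mem_of_mem_erase hQ) h2).trans
          ((le_sup (f := id) hQ : Q ≤ _).trans le_sup_left)
      · push Not at h2
        have h3 : tT u s = tW u s := by
          refine le_antisymm (sup_le (Finset.sup_le fun Q hQ => ?_)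
            (Subgroup.zpowers_le.2 mem_tW)) tW_le
          by_cases h4 : Q = tW u s
          · exact h4.le
          · exact (le_tL hQ (h2 Q (mem_erase.2 ⟨h4, hQ⟩))).trans le_sup_left
        have h4 := eq_of_sup_tU (L := tL u s) (h.pg _ hW).2 mem_tW (by
          conv_lhs => rw [← h3]
          rfl)
        refine h4.ge.trans (sup_le (hL.ge.trans (tL_le.trans le_sup_left)) le_sup_right)
    refine sup_le ?_ le_sup_right
    conv_lhs => rw [e, sup_insert]
    exact sup_le h1 le_sup_left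
  rw [tW, this, hL]; rfl

open Classical in
theorem sum_chain_eq_zero [Finite G] [Fact p.Prime] (hp : IsPE p u) (h1 : u ≠ 1)
    (S : Finset (Finset (Subgroup G))) (hS : ∀ s, s ∈ S ↔ Valid p s)
    (f : Subgroup G → ℂ) (hf : ∀ C, u ∉ C → f C = 0) :
    ∑ s ∈ S, (-1) ^ s.card * f (stab s ⊓ Subgroup.centralizer {u}) = 0 := by
  rw [← sum_filter_add_sum_filter_not S (fun s => u ∈ stab s), sum_eq_zero (s := S.filter fun s => ¬ u ∈ stab s)
    (fun s hs => by rw [hf _ fun h => (mem_filter.1 hs).2 (Subgroup.mem_inf.1 h).1, mul_zero]), add_zero]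
  have hins : ∀ s : Finset (Subgroup G), stab (insert (tW u s) s) ⊓ Subgroup.centralizer {u} =
      stab s ⊓ Subgroup.centralizer {u} := fun s => by
    rw [stab_insert, inf_assoc]; exact inf_eq_right.2 inf_le_nm
  refine sum_involution (fun s _ => if tW u s ∈ s then s.erase (tW u s) else insert (tW u s) s)
    (fun s hs => ?_) (fun s hs _ => ?_) (fun s hs => ?_) (fun s hs => ?_)
  · obtain ⟨h2, hu⟩ := mem_filter.1 hs
    have h := (hS s).1 h2
    split_ifs with hW
    · have e := hins (s.erase (tW u s))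
      rw [h.tW_erase hu hW, insert_erase hW] at e
      rw [e, ← card_erase_add_one hW, pow_succ]; ring
    · rw [hins, card_insert_of_notMem hW, pow_succ]; ring
  · split_ifs with hW
    · exact fun e => notMem_erase (tW u s) s (by rw [e]; exact hW)
    · exact fun e => hW (by have := mem_insert_self (tW u s) s; rwa [e] at this)
  · obtain ⟨h2, hu⟩ := mem_filter.1 hs
    have h := (hS s).1 h2
    rw [mem_filter, hS]
    split_ifs with hW
    · exact ⟨h.mono (erase_subset _ _), mem_stab.2 fun Q hQ => mem_stab.1 hu Q (mem_of_mem_erase hQ)⟩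
    · exact ⟨h.insert hu hp h1, by rw [stab_insert]; exact ⟨h.tT_le_nm hu mem_tT, hu⟩⟩
  · obtain ⟨h2, hu⟩ := mem_filter.1 hs
    have h := (hS s).1 h2
    by_cases hW : tW u s ∈ s
    · simp only [if_pos hW, h.tW_erase hu hW, if_neg (notMem_erase _ s), insert_erase hW]
    · simp only [if_neg hW, tW_insert, if_pos (mem_insert_self _ s), erase_insert hW]

end Chain

variable {G H : Type*} [Group G] [Finite G] [Group H] {M : Ideal AlgInt} {p : ℕ}
  [hp : Fact p.Prime] [PM p M]

variable (M) in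
open Classical in
noncomputable def locMu (b : Set (IrrCharacter G)) (g : G) (C : Subgroup G) : ℂ :=
  if h : g ∈ C then mu (indSet M C.subtype b) ⟨g, h⟩ ⟨g, h⟩ else 0

theorem mu_indSet_eq_locMu [Finite H] {ψ : H →* G} (hψ : Function.Injective ψ)
    (hI : ∀ ξ : IrrCharacter H, ∃ χ : IrrCharacter G, Ind M ψ (ξ : H → ℂ) (χ : G → ℂ))
    {b : Set (IrrCharacter G)} (hb : IsSat M b) (h : H) :
    mu (indSet M ψ b) h h = locMu M b (ψ h) (ψ.range ⊓ Subgroup.centralizer {pp p (ψ h)}) := by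
  set C := ψ.range ⊓ Subgroup.centralizer {pp p (ψ h)} with hC
  have hm : ψ h ∈ C := ⟨⟨h, rfl⟩, mem_centralizer_pp_self _⟩
  let φ : C →* H := (MonoidHom.ofInjective hψ).symm.toMonoidHom.comp (Subgroup.inclusion inf_le_left)
  have hφ : ∀ c : C, ψ (φ c) = c := fun c => MonoidHom.apply_ofInjective_symm hψ _
  have hi : Function.Injective φ := fun a b e => Subtype.ext (by rw [← hφ, e, hφ])
  have e1 : φ ⟨ψ h, hm⟩ = h := hψ (hφ _)
  have e2 : Subgroup.centralizer ({φ (pp p ⟨ψ h, hm⟩)} : Set H) = φ.range := by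
    rw [← pp_map, e1]
    ext x
    rw [Subgroup.mem_centralizer_singleton_iff]
    constructor
    · intro hx
      refine ⟨⟨ψ x, ⟨x, rfl⟩, Subgroup.mem_centralizer_singleton_iff.2 ?_⟩, hψ (hφ _)⟩
      rw [pp_map, ← map_mul, hx, map_mul]
    · rintro ⟨c, rfl⟩
      apply hψ
      rw [map_mul, map_mul, hφ, ← pp_map]
      exact Subgroup.mem_centralizer_singleton_iff.1 c.2.2
  have L := locSet_of_range hi ((isPE_pp (p := p) _).map φ) e2
  have e3 : indSet M φ (indSet M ψ b) = indSet M C.subtype b := by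
    ext ξ
    obtain ⟨η, h1⟩ := L.exists_ind M ξ.2
    obtain ⟨χ, h2⟩ := hI η
    have h3 := h1.trans h2
    rw [show ψ.comp φ = C.subtype from MonoidHom.ext hφ] at h3
    rw [h1.mem_indSet_iff isSat_indSet, h2.mem_indSet_iff hb, h3.mem_indSet_iff hb]
  have := mu_eq_mu_indSet (p := p) hi (isSat_indSet (M := M) (φ := ψ) (A := b)) e2 (h := ⟨ψ h, hm⟩)
    (h' := ⟨ψ h, hm⟩) rfl rfl rfl (L.indSet_compl isSat_indSet).symm
  rw [e1, e3] at this
  rw [this, locMu, dif_pos hm]

open Classical in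
theorem card_mul_sub_rank [Fintype G] [Finite H] {ψ : H →* G} (hψ : Function.Injective ψ)
    (hI : ∀ ξ : IrrCharacter H, ∃ χ : IrrCharacter G, Ind M ψ (ξ : H → ℂ) (χ : G → ℂ))
    {b : Set (IrrCharacter G)} (hb : IsSat M b) :
    (Nat.card H : ℂ) * (Nat.card (indSet M ψ b) - blockRank p (indSet M ψ b)) =
      ∑ g, if p ∣ orderOf g then locMu M b g (ψ.range ⊓ Subgroup.centralizer {pp p g}) else 0 := by
  letI := Fintype.ofFinite H
  rw [mul_sub, ← sum_mu_self, card_mul_blockRank isSat_indSet, ← sum_sub_distrib]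
  symm
  rw [← sum_subset (subset_univ (univ.map ⟨ψ, hψ⟩)), sum_map]
  · refine sum_congr rfl fun h _ => ?_
    simp only [Function.Embedding.coeFn_mk, orderOf_injective ψ hψ]
    split_ifs
    · rw [sub_zero, mu_indSet_eq_locMu (p := p) hψ hI hb]
    · rw [sub_self]
  · intro g _ hg
    rw [locMu, dif_neg, ite_self]
    rintro ⟨⟨h, rfl⟩, -⟩
    exact hg (mem_map.2 ⟨h, mem_univ _, rfl⟩)

end H8
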