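import Mathlib
import Cfsg.Agent.H1.Basic
/-! Jordan's original argument with "fans", in abstract form: `H8.Fan.JH`, `H8.Fan.JH.main`
(a group whose non-central centralizers are almost abelian is almost abelian). -/
open Subgroup Finset
open scoped Pointwise
namespace H8.Fan

/-- The bound in the Landau-type lemma. -/
def lb : ℕ → ℕ → ℕ
  | 0, a => a
  | k + 1, a => max a (lb k ((k + 1) * a * a))

theorem le_lb (k a : ℕ) : a ≤ lb k a := by cases k <;> simp [lb]

theorem landau {ι : Type*} (q : ι → ℕ) {γ : ℕ} (hγ : 0 < γ) (k : ℕ) : ∀ (a a' : ℕ) (b : ℤ)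
    (s : Finset ι), s.card ≤ k → 0 < a' → a' ≤ a → (∀ i ∈ s, 0 < q i ∧ q i < γ) →
    (1 / γ + b / a' : ℚ) = ∑ i ∈ s, (1 / q i : ℚ) → γ ≤ lb k a := by
  classical
  have hγ' : (0 : ℚ) < γ := by exact_mod_cast hγ
  have neg : ∀ (a a' : ℕ) (b : ℤ) (s : Finset ι), 0 < a' → a' ≤ a → (∀ i ∈ s, 0 < q i ∧ q i < γ) →
      (1 / γ + b / a' : ℚ) = ∑ i ∈ s, (1 / q i : ℚ) → b ≤ 0 → γ ≤ a := by
    intro a a' b s h1 h2 h3 h4 h5
    have ha : (0 : ℚ) < a' := by exact_mod_cast h1
    have h6 : (0 : ℚ) ≤ ∑ i ∈ s, (1 / q i : ℚ) := sum_nonneg fun _ _ => by positivity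
    rcases h5.lt_or_eq with h5 | rfl
    · have h7 : (b : ℚ) ≤ -1 := by exact_mod_cast (show b ≤ -1 by omega)
      have h8 : (b : ℚ) / a' ≤ -1 / a' := by gcongr
      have h9 : (1 : ℚ) / a' ≤ 1 / γ := by rw [neg_div] at h8; linarith
      rw [one_div_le_one_div ha hγ'] at h9
      exact le_trans (by exact_mod_cast h9) h2
    · exfalso
      rcases s.eq_empty_or_nonempty with rfl | ⟨i, hi⟩
      · simp at h4; omega
      · have h7 := single_le_sum (f := fun i => (1 / q i : ℚ)) (fun _ _ => by positivity) hi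
        have h8 : (1 : ℚ) / γ < 1 / q i := one_div_lt_one_div_of_lt
          (by exact_mod_cast (h3 i hi).1) (by exact_mod_cast (h3 i hi).2)
        simp only [Int.cast_zero, zero_div, add_zero] at h4
        linarith
  induction k with
  | zero =>
    intro a a' b s h0 h1 h2 h3 h4
    refine neg a a' b s h1 h2 h3 h4 ?_
    rw [card_eq_zero.1 (Nat.le_zero.1 h0), sum_empty] at h4
    by_contra h5
    have : (0 : ℚ) < b := by exact_mod_cast (show 0 < b by omega)
    have : (0 : ℚ) < 1 / γ + b / a' := by positivity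
    linarith
  | succ k ih =>
    intro a a' b s h0 h1 h2 h3 h4
    by_cases h5 : b ≤ 0
    · exact (neg a a' b s h1 h2 h3 h4 h5).trans (le_lb _ _)
    have ha : (0 : ℚ) < a' := by exact_mod_cast h1
    have hb : (1 : ℚ) ≤ b := by exact_mod_cast (show 1 ≤ b by omega)
    obtain ⟨i, hi, h6⟩ : ∃ i ∈ s, q i ≤ (k + 1) * a' := by
      by_contra hn
      push Not at hn
      have h7 : ∑ i ∈ s, (1 / q i : ℚ) ≤ s.card • (1 / ((k + 1) * a') : ℚ) :=
        sum_le_card_nsmul _ _ _ fun i hi => one_div_le_one_div_of_le (by positivity)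
          (by exact_mod_cast (hn i hi).le)
      have h8 : (s.card : ℚ) ≤ k + 1 := by exact_mod_cast h0
      have h9 : s.card • (1 / ((k + 1) * a') : ℚ) ≤ 1 / a' := by
        rw [nsmul_eq_mul]
        calc _ ≤ (k + 1 : ℚ) * (1 / ((k + 1) * a')) := by gcongr
          _ = _ := by field_simp
      have h10 : (1 : ℚ) / a' ≤ b / a' := by gcongr
      have h11 : (0 : ℚ) < 1 / γ := by positivity
      linarith
    have hq : (0 : ℚ) < q i := by exact_mod_cast (h3 i hi).1
    refine (ih ((k + 1) * a * a) (q i * a') (b * q i - a') (s.erase i)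
      (by rw [card_erase_of_mem hi]; omega) (Nat.mul_pos (h3 i hi).1 h1)
      (Nat.mul_le_mul (h6.trans (Nat.mul_le_mul_left _ h2)) h2)
      (fun j hj => h3 j (mem_of_mem_erase hj)) ?_).trans (le_max_right _ _)
    rw [← add_sum_erase _ _ hi] at h4
    rw [← sub_eq_iff_eq_add'.2 h4]
    push_cast
    field_simp
    ring

theorem exists_reps {G Ω : Type*} [Group G] [Finite G] [MulAction G Ω] (P : Finset Ω) :
    (∀ g : G, ∀ Y ∈ P, g • Y ∈ P) → ∃ R ⊆ P, ∀ f : Ω → ℕ, (∀ (g : G) Y, f (g • Y) = f Y) →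
      ∑ Y ∈ P, f Y = ∑ Y ∈ R, (MulAction.stabilizer G Y).index * f Y := by
  classical
  induction P using Finset.strongInduction with
  | H P ih =>
  intro hP
  rcases P.eq_empty_or_nonempty with rfl | ⟨Y, hY⟩
  · exact ⟨∅, subset_rfl, fun _ _ => by simp⟩
  obtain ⟨R, h1, h2⟩ := ih (P.filter (· ∉ MulAction.orbit G Y))
    (filter_ssubset.2 ⟨Y, hY, by simp⟩) (fun g Z hZ => by
      rw [mem_filter] at hZ ⊢
      refine ⟨hP g Z hZ.1, fun ⟨h, e⟩ => hZ.2 ⟨g⁻¹ * h, ?_⟩⟩
      simp only at e ⊢
      rw [mul_smul, e, inv_smul_smul])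
  have hYR : Y ∉ R := fun h => (mem_filter.1 (h1 h)).2 (MulAction.mem_orbit_self Y)
  refine ⟨insert Y R, insert_subset hY (h1.trans (filter_subset _ _)), fun f hf => ?_⟩
  rw [sum_insert hYR, ← h2 f hf, ← sum_filter_add_sum_filter_not P (· ∈ MulAction.orbit G Y)]
  congr 1
  rw [sum_congr rfl (g := fun _ => f Y) (by
    intro Z hZ
    obtain ⟨g, rfl⟩ := (mem_filter.1 hZ).2
    exact hf g Y), sum_const, smul_eq_mul, MulAction.index_stabilizer, ← Set.ncard_coe_finset]
  congr 2
  ext Z
  simp only [coe_filter, Set.mem_ofPred_eq, and_iff_right_iff_imp]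
  rintro ⟨g, rfl⟩
  exact hP g Y hY

variable {G : Type*} [Group G] {c d L : ℕ}

/-- A fan: an abelian subgroup with the same centralizer as its subgroups of small index. -/
def IsFan (c : ℕ) (F : Subgroup G) : Prop :=
  F ≤ centralizer F ∧ ∀ E ≤ F, E.relIndex F ≤ c → centralizer (E : Set G) ≤ centralizer F

theorem IsFan.conj {F : Subgroup G} (h : IsFan c F) (x : G) : IsFan c (MulAut.conj x • F) := by
  refine ⟨by rw [H1.centralizer_conj_smul]; exact H1.conj_smul_mono x h.1, fun E h1 h2 => ?_⟩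
  obtain ⟨D, rfl⟩ : ∃ D, E = MulAut.conj x • D := ⟨_, (H1.conj_smul_conj_inv_smul x E).symm⟩
  rw [H1.centralizer_conj_smul, H1.centralizer_conj_smul]
  refine H1.conj_smul_mono x (h.2 _ ?_ ?_)
  · rw [← H1.conj_inv_smul_conj_smul x F, ← H1.conj_inv_smul_conj_smul x D]
    exact H1.conj_smul_mono _ h1
  · rwa [H1.conj_smul_eq_map, H1.conj_smul_eq_map,
      relIndex_map_map_of_injective _ _ (MulAut.conj x).injective] at h2

theorem IsFan.le_of_index [Finite G] {F H A : Subgroup G} (h : IsFan c F) (hF : F ≤ H)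
    (hA : A.relIndex H ≤ c) : centralizer ((A ⊓ F : Subgroup G) : Set G) ≤ centralizer F :=
  h.2 _ inf_le_right (by
    rw [inf_relIndex_right]
    exact (relIndex_le_of_le_right hF (H1.relIndex_ne_zero _ _)).trans hA)

theorem IsFan.sup [Finite G] {F E : Subgroup G} (h : IsFan c F) (h' : IsFan c E)
    (hc : F ≤ centralizer E) : IsFan c (F ⊔ E) := by
  have key : ∀ X : Subgroup G, X ≤ centralizer F → X ≤ centralizer E →
      X ≤ centralizer ((F ⊔ E : Subgroup G) : Set G) := fun X h1 h2 =>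
    le_centralizer_iff.1 (sup_le (le_centralizer_iff.1 h1) (le_centralizer_iff.1 h2))
  refine ⟨sup_le (key _ h.1 hc) (key _ (le_centralizer_iff.1 hc) h'.1), fun D _ h2 => key _
    ((centralizer_le (SetLike.coe_mono inf_le_left)).trans (h.le_of_index le_sup_left h2))
    ((centralizer_le (SetLike.coe_mono inf_le_left)).trans (h'.le_of_index le_sup_right h2))⟩

/-- The largest fan centralizing `g`. -/
def IsTop (c : ℕ) (g : G) (F : Subgroup G) : Prop :=
  F ≤ centralizer {g} ∧ IsFan c F ∧ ∀ E, E ≤ centralizer {g} → IsFan c E → E ≤ F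

theorem centralizer_conj (x g : G) :
    centralizer {x * g * x⁻¹} = MulAut.conj x • centralizer ({g} : Set G) := by
  ext y
  rw [H1.mem_conj_smul, mem_centralizer_singleton_iff, mem_centralizer_singleton_iff]
  constructor
  · intro h
    calc _ = x⁻¹ * (y * (x * g * x⁻¹)) * x := by group
      _ = _ := by rw [h]; group
  · intro h
    calc _ = x * (x⁻¹ * y * x * g) * x⁻¹ := by group
      _ = _ := by rw [h]; group

theorem IsTop.conj {g : G} {F : Subgroup G} (h : IsTop c g F) (x : G) :
    IsTop c (x * g * x⁻¹) (MulAut.conj x • F) := by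
  refine ⟨centralizer_conj x g ▸ H1.conj_smul_mono x h.1, h.2.1.conj x, fun E h1 h2 => ?_⟩
  rw [← H1.conj_smul_conj_inv_smul x E]
  refine H1.conj_smul_mono x (h.2.2 _ ?_ (h2.conj _))
  rw [← H1.conj_inv_smul_conj_smul x (centralizer {g}), ← centralizer_conj]
  exact H1.conj_smul_mono _ h1

theorem IsTop.unique {g : G} {F E : Subgroup G} (h : IsTop c g F) (h' : IsTop c g E) : F = E :=
  le_antisymm (h'.2.2 _ h.1 h.2.1) (h.2.2 _ h'.1 h'.2.1)

theorem IsTop.center_le {g : G} {F : Subgroup G} (h : IsTop c g F) : center G ≤ F :=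
  h.2.2 _ (center_le_centralizer _) ⟨center_le_centralizer _, fun _ _ _ =>
    le_centralizer_iff.1 (center_le_centralizer _)⟩

theorem IsTop.of_mem {g x : G} {F E : Subgroup G} (h : IsTop c g F) (h' : IsTop c x E)
    (hx : g⁻¹ * x ∈ F) : E = F := by
  have h1 : F ≤ E := h'.2.2 _ (fun y hy => by
    have e1 := mem_centralizer_singleton_iff.1 (h.1 hy)
    have e2 := h.2.1.1 hy _ hx
    rw [mem_centralizer_singleton_iff]
    calc y * x = y * g * (g⁻¹ * x) := by group
      _ = _ := by rw [e1, mul_assoc, ← e2]; group) h.2.1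
  refine le_antisymm (h.2.2 _ (fun y hy => ?_) h'.2.1) h1
  have e1 := mem_centralizer_singleton_iff.1 (h'.1 hy)
  have e2 := h'.2.1.1 hy _ (h1 (inv_mem hx))
  rw [mem_centralizer_singleton_iff]
  calc y * g = y * x * (g⁻¹ * x)⁻¹ := by group
    _ = _ := by rw [e1, mul_assoc, ← e2]; group

variable (G) in
/-- The hypotheses of Jordan's argument. -/
structure JH (c d L : ℕ) : Prop where
  cen : ∀ g ∉ center G, ∃ A ≤ centralizer {g}, A ≤ centralizer A ∧ A.relIndex (centralizer {g}) ≤ c
  conj : ∀ A : Subgroup G, A ≤ centralizer A → ∀ g, Nat.card {a : G // a ∈ A ∧ IsConj g a} ≤ d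
  rk : ∃ r : Subgroup G → ℕ, (∀ T, r T ≤ L) ∧
    ∀ S T : Subgroup G, S ≤ T → ¬ centralizer (S : Set G) ≤ centralizer T → r T < r S

variable [Finite G]

theorem JH.exists_fan (h : JH G c d L) (hc : 0 < c) {A : Subgroup G} (hA : A ≤ centralizer A) :
    ∃ F ≤ A, IsFan c F ∧ F.relIndex A ≤ c ^ L := by
  obtain ⟨r, h1, h2⟩ := h.rk
  have key : ∀ j, ∀ A : Subgroup G, A ≤ centralizer A → L ≤ r A + j →
      ∃ F ≤ A, IsFan c F ∧ F.relIndex A ≤ c ^ j := by
    intro j
    induction j with
    | zero =>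
      intro A hA hj
      refine ⟨A, le_rfl, ⟨hA, fun E h3 _ => ?_⟩, by simp⟩
      by_contra h4
      have := h2 _ _ h3 h4
      have := h1 E
      omega
    | succ j ih =>
      intro A hA hj
      by_cases hF : IsFan c A
      · exact ⟨A, le_rfl, hF, by rw [relIndex_self]; exact Nat.one_le_pow _ _ hc⟩
      simp only [IsFan, hA, true_and, not_forall] at hF
      obtain ⟨E, h3, h4, h5⟩ := hF
      have := h2 _ _ h3 h5
      obtain ⟨F, h6, h7, h8⟩ := ih E (h3.trans (hA.trans (centralizer_le (SetLike.coe_mono h3))))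
        (by omega)
      refine ⟨F, h6.trans h3, h7, ?_⟩
      rw [← relIndex_mul_relIndex F E A h6 h3, pow_succ]
      exact Nat.mul_le_mul h8 h4
  exact key L A hA (by omega)

theorem JH.exists_top (h : JH G c d L) {g : G} (hg : g ∉ center G) :
    ∃ F, IsTop c g F ∧ F.relIndex (centralizer {g}) ≤ c ^ L * c := by
  obtain ⟨A, h1, h2, h3⟩ := h.cen g hg
  obtain ⟨E, h4, h5, h6⟩ := h.exists_fan (lt_of_lt_of_le
    (Nat.pos_of_ne_zero (H1.relIndex_ne_zero _ _)) h3) h2
  obtain ⟨F, ⟨h7, h8⟩, hmax⟩ := (Set.toFinite {F : Subgroup G | F ≤ centralizer {g} ∧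
    IsFan c F}).exists_maximal ⟨E, h4.trans h1, h5⟩
  have top : IsTop c g F := by
    refine ⟨h7, h8, fun D e1 e2 => le_sup_right.trans (hmax (y := F ⊔ D) ⟨sup_le h7 e1, h8.sup e2 ?_⟩
      le_sup_left)⟩
    refine le_trans ?_ (e2.le_of_index e1 h3)
    refine le_trans (le_centralizer_iff.1 ?_) (centralizer_le (SetLike.coe_mono inf_le_left))
    exact (h2.trans (centralizer_le (SetLike.coe_mono inf_le_left))).trans (h8.le_of_index h7 h3)
  refine ⟨F, top, (relIndex_le_of_le_left (top.2.2 E (h4.trans h1) h5)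
    (H1.relIndex_ne_zero _ _)).trans ?_⟩
  rw [← relIndex_mul_relIndex E A _ h4 h1]
  exact Nat.mul_le_mul h6 h3

/-- Subsets of `G` with the conjugation action. -/
def Cj (G : Type*) := Set G

instance instMulActionCj : MulAction G (Cj G) where
  smul h X := {x | h⁻¹ * x * h ∈ (show Set G from X)}
  one_smul X := by refine Set.ext fun x => ?_; change 1⁻¹ * x * 1 ∈ (show Set G from X) ↔ _; simp
  mul_smul a b X := by
    refine Set.ext fun x => ?_
    change (a * b)⁻¹ * x * (a * b) ∈ (show Set G from X) ↔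
      b⁻¹ * (a⁻¹ * x * a) * b ∈ (show Set G from X)
    simp [mul_assoc]

/-- The non-central part of the coset `gF`. -/
def part (g : G) (F : Subgroup G) : Cj G := {x | x ∉ center G ∧ g⁻¹ * x ∈ F}

omit [Finite G] in
theorem conj_mem_center {h x : G} : h⁻¹ * x * h ∈ center G ↔ x ∈ center G :=
  ⟨fun e => by simpa [mul_assoc] using (inferInstance : (center G).Normal).conj_mem _ e h,
    fun e => by simpa using (inferInstance : (center G).Normal).conj_mem _ e h⁻¹⟩

omit [Finite G] in
theorem smul_part (h g : G) (F : Subgroup G) :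
    h • part g F = part (h * g * h⁻¹) (MulAut.conj h • F) := by
  refine Set.ext fun x => ?_
  change (h⁻¹ * x * h ∉ center G ∧ g⁻¹ * (h⁻¹ * x * h) ∈ F) ↔
    (x ∉ center G ∧ (h * g * h⁻¹)⁻¹ * x ∈ MulAut.conj h • F)
  rw [conj_mem_center, H1.mem_conj_smul]
  simp [mul_assoc]

omit [Finite G] in
theorem part_eq {g x : G} {F : Subgroup G} (hx : g⁻¹ * x ∈ F) : part x F = part g F := by
  refine Set.ext fun y => ?_
  change (y ∉ center G ∧ x⁻¹ * y ∈ F) ↔ (y ∉ center G ∧ g⁻¹ * y ∈ F)
  refine and_congr_right fun _ => ?_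
  rw [← F.mul_mem_cancel_left hx]; simp [mul_assoc]

theorem card_part {g : G} {F : Subgroup G} (hZ : center G ≤ F) [Decidable (g ∈ F)] :
    Set.ncard (show Set G from part g F) + (if g ∈ F then Nat.card (center G) else 0) =
      Nat.card F := by
  have h1 : Set.ncard {x | g⁻¹ * x ∈ F} = Nat.card F := by
    rw [← Nat.card_coe_set_eq]
    exact Nat.card_congr (Equiv.subtypeEquiv (Equiv.mulLeft g⁻¹) fun _ => Iff.rfl)
  rw [← h1]
  split_ifs with e
  · rw [show Nat.card (center G) = Set.ncard (center G : Set G) from rfl,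
      ← Set.ncard_union_eq (Set.disjoint_left.2 fun x hx hx' => hx.1 hx')]
    congr 1
    ext x
    constructor
    · rintro (h | h)
      exacts [h.2, mul_mem (inv_mem e) (hZ h)]
    · intro h
      by_cases h2 : x ∈ center G
      exacts [Or.inr h2, Or.inl ⟨h2, h⟩]
  · rw [add_zero]
    congr 1
    ext x
    refine ⟨fun h => h.2, fun h => ⟨fun h2 => e ?_, h⟩⟩
    simpa using mul_mem (hZ h2) (inv_mem h)

theorem JH.stab (h : JH G c d L) {g : G} (hg : g ∉ center G) {F : Subgroup G} (hF : IsTop c g F)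
    (hi : F.relIndex (centralizer {g}) ≤ c ^ L * c) : F ≤ MulAction.stabilizer G (part g F) ∧
      F.relIndex (MulAction.stabilizer G (part g F)) ≤ c ^ L * c * d := by
  have h1 : F ≤ MulAction.stabilizer G (part g F) := fun x hx => by
    rw [MulAction.mem_stabilizer_iff, smul_part, mem_centralizer_singleton_iff.1 (hF.1 hx),
      mul_inv_cancel_right, H1.conj_smul_eq_iff.2 (le_normalizer hx)]
  refine ⟨h1, ?_⟩
  set S := MulAction.stabilizer G (part g F)
  rw [← inf_eq_left.2 hF.1, ← relIndex_inf_mul_relIndex]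
  refine Nat.mul_le_mul ((relIndex_le_of_le_right inf_le_left (H1.relIndex_ne_zero _ _)).trans hi) ?_
  have hc : F ⊔ zpowers g ≤ centralizer ((F ⊔ zpowers g : Subgroup G) : Set G) := by
    have e1 : F ≤ centralizer (zpowers g : Set G) := le_centralizer_iff.1 (zpowers_le.2
      fun x hx => mem_centralizer_singleton_iff.1 (hF.1 hx))
    refine sup_le (le_centralizer_iff.1 (sup_le hF.2.1.1 (le_centralizer_iff.1 e1)))
      (le_centralizer_iff.1 (sup_le e1 (le_centralizer_iff_isMulCommutative.2 inferInstance)))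
  refine le_trans ?_ (h.conj _ hc g)
  have hm : ∀ y ∈ S, y * g * y⁻¹ ∈ F ⊔ zpowers g := by
    intro y hy
    have e1 : y * g * y⁻¹ ∈ (show Set G from y • part g F) :=
      show _ ∉ center G ∧ _ ∈ F by simpa [mul_assoc] using hg
    rw [show y • part g F = part g F from hy] at e1
    simpa using mul_mem (mem_sup_right (S := F) (mem_zpowers g)) (mem_sup_left e1.2)
  refine Nat.card_le_card_of_injective (α := S ⧸ (centralizer {g}).subgroupOf S)
    (fun q => ⟨_, hm _ q.out.2, isConj_iff.2 ⟨_, rfl⟩⟩) fun q r e => ?_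
  have e1 : (q.out : G) * g * (q.out : G)⁻¹ = r.out * g * (r.out : G)⁻¹ := congrArg Subtype.val e
  rw [← q.out_eq, ← r.out_eq]
  refine QuotientGroup.eq.2 (mem_centralizer_singleton_iff.2 ?_)
  calc _ = (q.out : G)⁻¹ * (r.out * g * (r.out : G)⁻¹) * r.out := by simp [mul_assoc]
    _ = _ := by rw [← e1]; simp [mul_assoc]

theorem JH.main (h : JH G c d L) : ∃ A : Subgroup G, A ≤ centralizer A ∧
    A.index ≤ max (c ^ L * c * d) (lb (2 * (c ^ L * c * d)) (c ^ L * c * d).factorial) := by
  classical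
  letI := Fintype.ofFinite G
  set e := c ^ L * c * d with he
  have hex : ∀ g, ∃ F, g ∉ center G → IsTop c g F ∧ F.relIndex (centralizer {g}) ≤ c ^ L * c :=
    fun g => by
      by_cases hg : g ∈ center G
      · exact ⟨⊥, fun h => (h hg).elim⟩
      · exact (h.exists_top hg).imp fun _ h _ => h
  choose T hT using hex
  set s := univ.filter (· ∉ center G) with hs
  have ms : ∀ x, x ∈ s ↔ x ∉ center G := by simp [hs]
  obtain ⟨R, hR1, hR2⟩ := exists_reps (G := G) (s.image fun g => part g (T g)) (by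
    intro x Y hY
    obtain ⟨g, hg, rfl⟩ := mem_image.1 hY
    have h1 : x * g * x⁻¹ ∉ center G := by
      rw [← conj_mem_center (h := x)]; simpa [mul_assoc] using (ms g).1 hg
    exact mem_image.2 ⟨_, (ms _).2 h1, by
      rw [smul_part, (hT _ h1).1.unique ((hT g ((ms g).1 hg)).1.conj x)]⟩)
  have h1 := hR2 (fun Y => Set.ncard (show Set G from Y)) (fun g Y => by
    rw [← Nat.card_coe_set_eq, ← Nat.card_coe_set_eq]
    exact Nat.card_congr (Equiv.subtypeEquiv (MulAut.conj g⁻¹).toEquiv fun _ => by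
      simp; rfl))
  have h2 : s.card = ∑ Y ∈ s.image fun g => part g (T g), Set.ncard (show Set G from Y) := by
    rw [card_eq_sum_card_image (fun g => part g (T g))]
    refine sum_congr rfl fun Y hY => ?_
    obtain ⟨g, hg, rfl⟩ := mem_image.1 hY
    rw [← Set.ncard_coe_finset]
    congr 1
    ext x
    simp only [coe_filter, ms, Set.mem_ofPred_eq]
    constructor
    · rintro ⟨e1, e2⟩
      rw [← e2]; exact ⟨e1, by simp⟩
    · rintro ⟨e1, e2⟩
      exact ⟨e1, by rw [(hT g ((ms g).1 hg)).1.of_mem (hT x e1).1 e2, part_eq e2]⟩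
  have h3 : s.card + Nat.card (center G) = Nat.card G := by
    rw [add_comm, Nat.subtype_card (univ.filter (· ∈ center G)) (by simp),
      card_filter_add_card_filter_not, card_univ, Nat.card_eq_fintype_card]
  have h4 : ∀ Y, ∃ g, Y ∈ R → g ∉ center G ∧ Y = part g (T g) := fun Y => by
    by_cases hY : Y ∈ R
    · obtain ⟨g, hg, e⟩ := mem_image.1 (hR1 hY)
      exact ⟨g, fun _ => ⟨(ms g).1 hg, e.symm⟩⟩
    · exact ⟨1, fun h => (hY h).elim⟩
  choose g hg using h4
  have hst : ∀ Y ∈ R, T (g Y) ≤ MulAction.stabilizer G Y ∧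
      (T (g Y)).relIndex (MulAction.stabilizer G Y) ≤ e := fun Y hY => by
    have := h.stab (hg Y hY).1 (hT _ (hg Y hY).1).1 (hT _ (hg Y hY).1).2
    rwa [← (hg Y hY).2] at this
  have hZ : ∀ Y ∈ R, center G ≤ T (g Y) := fun Y hY => (hT _ (hg Y hY).1).1.center_le
  have hcp : ∀ Y ∈ R, Set.ncard (show Set G from Y) +
      (if g Y ∈ T (g Y) then Nat.card (center G) else 0) = Nat.card (T (g Y)) := fun Y hY => by
    have := card_part (g := g Y) (hZ Y hY)
    rwa [← (hg Y hY).2] at this
  have hcs : ∀ Y ∈ R, (MulAction.stabilizer G Y).index * (Nat.card (T (g Y)) *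
      (T (g Y)).relIndex (MulAction.stabilizer G Y)) = Nat.card G := fun Y hY => by
    rw [H1.card_mul_relIndex (hst Y hY).1, index_mul_card]
  by_cases hcase : ∃ Y ∈ R, MulAction.stabilizer G Y = ⊤
  · obtain ⟨Y, hY, e1⟩ := hcase
    refine ⟨T (g Y), (hT _ (hg Y hY).1).1.2.1.1, le_max_of_le_left ?_⟩
    rw [← relIndex_top_right, ← e1]; exact (hst Y hY).2
  push Not at hcase
  refine ⟨center G, center_le_centralizer _, le_max_of_le_right ?_⟩
  have hcard : R.card ≤ 2 * e := by
    have h5 : R.card • Nat.card G ≤ ∑ Y ∈ R, 2 * e * ((MulAction.stabilizer G Y).index *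
        Set.ncard (show Set G from Y)) := card_nsmul_le_sum _ _ _ fun Y hY => by
      have e1 : Nat.card (T (g Y)) ≤ 2 * Set.ncard (show Set G from Y) := by
        have e2 := hcp Y hY
        split_ifs at e2 with e3
        · have e4 := H1.card_mul_relIndex (hZ Y hY)
          have e5 : (center G).relIndex (T (g Y)) ≠ 1 := fun e =>
            (hg Y hY).1 (relIndex_eq_one.1 e e3)
          have e6 := H1.relIndex_ne_zero (center G) (T (g Y))
          have : Nat.card (center G) * 2 ≤ Nat.card (T (g Y)) := by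
            rw [← e4]; exact Nat.mul_le_mul_left _ (by omega)
          omega
        · omega
      rw [← hcs Y hY]
      calc _ ≤ (MulAction.stabilizer G Y).index * (2 * Set.ncard (show Set G from Y) * e) := by
            gcongr; exact (hst Y hY).2
        _ = _ := by ring
    rw [← mul_sum, ← h1, ← h2, smul_eq_mul] at h5
    exact Nat.le_of_mul_le_mul_right (h5.trans (Nat.mul_le_mul_left _ (by omega))) Nat.card_pos
  have hG : (0 : ℚ) < Nat.card G := by exact_mod_cast Nat.card_pos
  have hZ0 : (0 : ℚ) < Nat.card (center G) := by exact_mod_cast Nat.card_pos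
  refine landau (fun Y => (center G).relIndex (MulAction.stabilizer G Y))
    (Nat.pos_of_ne_zero FiniteIndex.index_ne_zero) _ _ e.factorial
    ((∑ Y ∈ R, e.factorial / (T (g Y)).relIndex (MulAction.stabilizer G Y) : ℕ) - e.factorial)
    (R.filter fun Y => g Y ∈ T (g Y)) ((card_filter_le _ _).trans hcard) (Nat.factorial_pos _) le_rfl
    (fun Y hY => ⟨Nat.pos_of_ne_zero (H1.relIndex_ne_zero _ _), ?_⟩) ?_
  · have hY' := (mem_filter.1 hY).1
    rw [← relIndex_mul_index ((hZ Y hY').trans (hst Y hY').1)]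
    exact lt_mul_of_one_lt_right (Nat.pos_of_ne_zero (H1.relIndex_ne_zero _ _))
      (one_lt_index_of_ne_top (hcase Y hY'))
  · have h5 : ∀ Y ∈ R, ((MulAction.stabilizer G Y).index * Set.ncard (show Set G from Y) : ℚ) =
        Nat.card G * ((e.factorial / (T (g Y)).relIndex (MulAction.stabilizer G Y) : ℕ) /
          e.factorial - if g Y ∈ T (g Y) then
            (1 / (center G).relIndex (MulAction.stabilizer G Y) : ℚ) else 0) := by
      intro Y hY
      have e0 := H1.relIndex_ne_zero (T (g Y)) (MulAction.stabilizer G Y)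
      have e0' := H1.relIndex_ne_zero (center G) (MulAction.stabilizer G Y)
      have e1 : (Set.ncard (show Set G from Y) + (if g Y ∈ T (g Y) then Nat.card (center G) else 0)
        : ℚ) = Nat.card (T (g Y)) := by exact_mod_cast hcp Y hY
      have e2 : ((MulAction.stabilizer G Y).index * (Nat.card (T (g Y)) *
        (T (g Y)).relIndex (MulAction.stabilizer G Y)) : ℚ) = Nat.card G := by
        exact_mod_cast hcs Y hY
      have e3 : ((MulAction.stabilizer G Y).index * (Nat.card (center G) *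
          (center G).relIndex (MulAction.stabilizer G Y)) : ℚ) = Nat.card G := by
        have := H1.card_mul_relIndex ((hZ Y hY).trans (hst Y hY).1)
        rw [← (MulAction.stabilizer G Y).index_mul_card, ← this]; push_cast; rfl
      rw [Nat.cast_div (Nat.dvd_factorial (Nat.pos_of_ne_zero e0) (hst Y hY).2)
        (by exact_mod_cast e0), eq_sub_of_add_eq e1]
      have e4 : (e.factorial : ℚ) ≠ 0 := by exact_mod_cast Nat.factorial_ne_zero e
      split_ifs
      · rw [mul_sub, mul_sub]
        congr 1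
        · rw [← e2]; field_simp
        · rw [← e3]; field_simp
      · rw [← e2]; field_simp; ring
    have h6 : (s.card : ℚ) = ∑ Y ∈ R, ((MulAction.stabilizer G Y).index *
        Set.ncard (show Set G from Y) : ℚ) := by rw [h2, h1]; push_cast; rfl
    rw [sum_congr rfl h5, ← mul_sum, sum_sub_distrib, ← sum_filter, ← sum_div] at h6
    have h7 : (s.card + Nat.card (center G) : ℚ) = Nat.card G := by exact_mod_cast h3
    have h8 : (Nat.card (center G) * (center G).index : ℚ) = Nat.card G := by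
      exact_mod_cast (center G).card_mul_index
    have h9 : ((center G).index : ℚ) ≠ 0 := by exact_mod_cast FiniteIndex.index_ne_zero
    have e4 : (e.factorial : ℚ) ≠ 0 := by exact_mod_cast Nat.factorial_ne_zero e
    apply mul_left_cancel₀ hG.ne'
    rw [Int.cast_sub, Int.cast_natCast, Int.cast_natCast, Nat.cast_sum, sub_div, div_self e4]
    have h10 : (Nat.card G : ℚ) * (1 / (center G).index) = Nat.card (center G) := by
      rw [← h8]; field_simp
    rw [mul_add, h10]
    linear_combination h7 - h6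
end H8.Fan
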