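import Cfsg.Agent.H8.Fan
import Cfsg.Agent.H8.PDeg
/-! The Brauer–Feit analogue of Jordan's theorem in characteristic `p`: `H8.Fan.bf`. -/
open Subgroup Finset Module
open scoped Pointwise commutatorElement
namespace H8.Fan
universe u v

theorem exists_weights {K : Type v} [Field K] [IsAlgClosed K] {A : Type u} [Group A]
    (hA : ∀ a b : A, a * b = b * a) (n : ℕ) : ∀ (V : Type v) [AddCommGroup V] [Module K V]
    [FiniteDimensional K V], finrank K V ≤ n → ∀ ρ : Representation K A V,
    ∃ τ : Fin n → A → K, (∀ i a, Nontrivial V → End.HasEigenvalue (ρ a) (τ i a)) ∧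
      ∀ a b, (∀ i, τ i a = τ i b) → (ρ a - ρ b) ^ n = 0 := by
  induction n with
  | zero =>
    intro V _ _ _ h ρ
    haveI : Subsingleton V := finrank_zero_iff.1 (Nat.le_zero.1 h)
    exact ⟨fun i => i.elim0, fun i => i.elim0, fun _ _ _ => Subsingleton.elim _ _⟩
  | succ n ih =>
    intro V _ _ _ h ρ
    rcases subsingleton_or_nontrivial V with h0 | h0
    · exact ⟨fun _ _ => 0, fun _ _ h => (not_nontrivial V h).elim, fun _ _ _ => Subsingleton.elim _ _⟩
    obtain ⟨W, ⟨hW0, hW⟩, hmin⟩ := WellFounded.has_min (wellFounded_lt (α := Submodule K V))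
      {W | W ≠ ⊥ ∧ ∀ a, W ≤ W.comap (ρ a)} ⟨⊤, top_ne_bot, fun _ => by simp⟩
    have hs : ∀ a, ∃ μ : K, ∀ w ∈ W, ρ a w = μ • w := by
      intro a
      haveI : Nontrivial W := Submodule.nontrivial_iff_ne_bot.2 hW0
      obtain ⟨μ, hμ⟩ := End.exists_eigenvalue (ρ.subrepresentation W hW a)
      obtain ⟨w, hw⟩ := hμ.exists_hasEigenvector
      refine ⟨μ, ?_⟩
      by_contra hn
      refine hmin (W ⊓ End.eigenspace (ρ a) μ) ⟨fun e => hw.2 ?_, fun b x hx => ⟨hW b hx.1, ?_⟩⟩
        (lt_of_le_of_ne inf_le_left fun e => hn fun w hw => End.mem_eigenspace_iff.1 (e.ge hw).2)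
      · have : (w : V) ∈ W ⊓ End.eigenspace (ρ a) μ :=
          ⟨w.2, End.mem_eigenspace_iff.2 (congrArg Subtype.val hw.apply_eq_smul)⟩
        rw [e] at this
        exact Subtype.ext this
      · refine End.mem_eigenspace_iff.2 ?_
        rw [← End.mul_apply, ← map_mul, hA, map_mul, End.mul_apply,
          End.mem_eigenspace_iff.1 hx.2, map_smul]
    choose μ hμ using hs
    have hμ' : ∀ a, End.HasEigenvalue (ρ a) (μ a) := fun a =>
      ne_bot_of_le_ne_bot hW0 fun w hw => End.mem_eigenspace_iff.2 (hμ a w hw)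
    obtain ⟨τ, h1, h2⟩ := ih (V ⧸ W) (by
      have := W.finrank_quotient_add_finrank
      have := Submodule.one_le_finrank_iff.2 hW0
      omega) (ρ.quotient W hW)
    classical
    refine ⟨Fin.cons μ fun i a => if Nontrivial (V ⧸ W) then τ i a else μ a, fun i a _ => ?_,
      fun a b e => ?_⟩
    · refine Fin.cases (hμ' a) (fun i => ?_) i
      simp only [Fin.cons_succ]
      split_ifs with hq
      · by_contra hn
        have e1 : Function.Injective (ρ a - τ i a • (1 : End K V) : End K V) := by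
          rw [← LinearMap.ker_eq_bot, ← End.eigenspace_def]; exact not_not.1 hn
        have e2 : Function.Surjective
            (ρ.quotient W hW a - τ i a • (1 : End K (V ⧸ W)) : End K (V ⧸ W)) := by
          intro y
          obtain ⟨y, rfl⟩ := W.mkQ_surjective y
          obtain ⟨x, rfl⟩ := LinearMap.injective_iff_surjective.1 e1 y
          exact ⟨W.mkQ x, by simp⟩
        refine End.hasEigenvalue_iff.1 (h1 i a hq) ?_
        rw [End.eigenspace_def, LinearMap.ker_eq_bot]
        exact LinearMap.injective_iff_surjective.2 e2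
      · exact hμ' a
    · have e0 : μ a = μ b := e 0
      have e1 : (ρ.quotient W hW a - ρ.quotient W hW b) ^ n = 0 := by
        by_cases hq : Nontrivial (V ⧸ W)
        · exact h2 a b fun i => by simpa [hq] using e i.succ
        · rw [not_nontrivial_iff_subsingleton] at hq
          exact Subsingleton.elim _ _
      ext x
      have e2 : ∀ k : ℕ, W.mkQ (((ρ a - ρ b) ^ k) x) =
          ((ρ.quotient W hW a - ρ.quotient W hW b) ^ k) (W.mkQ x) := by
        intro k
        induction k with
        | zero => rfl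
        | succ k ih => rw [pow_succ', pow_succ', End.mul_apply, End.mul_apply, ← ih]; simp
      have e3 := e2 n
      rw [e1, LinearMap.zero_apply, Submodule.mkQ_apply, Submodule.Quotient.mk_eq_zero] at e3
      rw [pow_succ', End.mul_apply, LinearMap.sub_apply, hμ a _ e3, hμ b _ e3, e0, sub_self,
        LinearMap.zero_apply]

variable {p m : ℕ} [hp : Fact p.Prime]

theorem card_le_of_pgroup {G : Type*} [Group G] [Finite G] (h : ¬ p ^ (m + 1) ∣ Nat.card G)
    {Q : Type*} [Group Q] [Finite Q] (hQ : IsPGroup p Q) (hd : Nat.card Q ∣ Nat.card G) :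
    Nat.card Q ∣ p ^ m := by
  obtain ⟨k, hk⟩ := IsPGroup.iff_card.1 hQ
  rw [hk] at hd ⊢
  refine pow_dvd_pow p ?_
  by_contra hn
  exact h ((pow_dvd_pow p (by omega)).trans hd)

section lin
variable {K : Type v} [Field K] [CharP K p] {V : Type v} [AddCommGroup V]
  [Module K V] [FiniteDimensional K V] {G : Type u} [Group G] [Finite G]
  {ρ : Representation K G V}

omit [FiniteDimensional K V] [Finite G] in
theorem pow_eq_one_of_nil (hρ : Function.Injective ρ) {x : G} {n : ℕ} (h : (ρ x - 1) ^ n = 0) :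
    x ^ p ^ n = 1 := by
  rcases subsingleton_or_nontrivial V with h0 | h0
  · exact hρ (Subsingleton.elim _ _)
  haveI : CharP (End K V) p := charP_of_injective_algebraMap (algebraMap K _).injective p
  have := sub_pow_char_pow_of_commute p (n := n) (Commute.one_right (ρ x))
  rw [pow_eq_zero_of_le (Nat.lt_pow_self hp.out.one_lt).le h, one_pow, eq_comm, sub_eq_zero] at this
  exact hρ (by rw [map_pow, this, map_one])

theorem conj_bound [IsAlgClosed K] (hρ : Function.Injective ρ) (h : ¬ p ^ (m + 1) ∣ Nat.card G)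
    {n : ℕ} (hn : finrank K V ≤ n) (A : Subgroup G) (hA : A ≤ centralizer A) (g : G) :
    Nat.card {a : G // a ∈ A ∧ IsConj g a} ≤ p ^ m * (n + 1) ^ n := by
  classical
  letI := Fintype.ofFinite G
  have hc : ∀ a b : A, a * b = b * a := fun a b => Subtype.ext (hA b.2 a a.2)
  obtain ⟨τ, h1, h2⟩ := exists_weights hc n V hn (ρ.comp A.subtype)
  rcases subsingleton_or_nontrivial V with h0 | h0
  · haveI : Subsingleton G := ⟨fun a b => hρ (Subsingleton.elim _ _)⟩
    exact Finite.card_le_one_iff_subsingleton.2 inferInstance |>.trans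
      (Nat.mul_pos (pow_pos hp.out.pos _) (by positivity))
  obtain ⟨P⟩ : Nonempty (Sylow p A) := inferInstance
  haveI : (P : Subgroup A).Normal := ⟨fun a ha b => by rwa [hc b, mul_inv_cancel_right]⟩
  haveI := Sylow.unique_of_normal P inferInstance
  have hP := Nat.le_of_dvd (pow_pos hp.out.pos _) (card_le_of_pgroup h P.isPGroup'
    ((card_subgroup_dvd_card _).trans (card_subgroup_dvd_card A)))
  have e0 : Nat.card {a : G // a ∈ A ∧ IsConj g a} = (univ.filter fun a : A => IsConj g a).card := by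
    rw [← Nat.subtype_card _ (p := fun a : A => IsConj g a) (by simp)]
    exact Nat.card_congr (Equiv.subtypeSubtypeEquivSubtypeInter _ _).symm
  rw [e0]
  refine (card_le_mul_card_image (f := fun a i => τ i a) _ (p ^ m) ?_).trans
    (Nat.mul_le_mul_left _ ?_)
  · intro t ht
    obtain ⟨b, -, rfl⟩ := mem_image.1 ht
    refine le_trans ?_ hP
    rw [Nat.subtype_card (univ.filter (· ∈ (P : Subgroup A))) (by simp)]
    refine card_le_card_of_injOn (fun a => a * b⁻¹) (fun a ha => ?_)
      (fun a _ a' _ e => mul_right_cancel e)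
    have e1 := h2 a b fun i => congrFun (mem_filter.1 ha).2 i
    have e2 : ((a * b⁻¹ : A) : G) ^ p ^ n = 1 := pow_eq_one_of_nil hρ (by
      have e3 : ρ (a * b⁻¹ : A) - 1 = (ρ a - ρ b) * ρ (b⁻¹ : A) := by
        rw [sub_mul, ← map_mul, ← map_mul]; simp
      have e4 : ∀ x y : A, Commute (ρ x) (ρ y) := fun x y => by
        rw [Commute, SemiconjBy, ← map_mul, ← map_mul, hA y.2 x x.2]
      rw [e3, ((e4 _ _).sub_left (e4 _ _)).mul_pow]
      exact mul_eq_zero_of_left e1 _)
    have e3 : IsPGroup p (zpowers (a * b⁻¹)) := IsPGroup.of_card (n := _) (by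
      rw [Nat.card_zpowers]
      exact ((Nat.dvd_prime_pow hp.out).1 (orderOf_dvd_of_pow_eq_one
        (Subtype.ext e2 : (a * b⁻¹) ^ p ^ n = 1))).choose_spec.2)
    obtain ⟨Q, hQ⟩ := e3.exists_le_sylow
    rw [Subsingleton.elim Q P] at hQ
    exact mem_coe.2 (mem_filter.2 ⟨mem_univ _, hQ (mem_zpowers _)⟩)
  · have hE : ((ρ g).charpoly.roots.toFinset).card ≤ n + 1 :=
      (Multiset.toFinset_card_le _).trans ((Polynomial.card_roots' _).trans (by
        rw [LinearMap.charpoly_natDegree]; omega))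
    refine le_trans (card_le_card (t := Fintype.piFinset fun _ => (ρ g).charpoly.roots.toFinset)
      fun t ht => ?_) (by
        rw [Fintype.card_piFinset, prod_const, card_univ, Fintype.card_fin]
        exact Nat.pow_le_pow_left hE n)
    obtain ⟨a, ha, rfl⟩ := mem_image.1 ht
    obtain ⟨x, hx⟩ := isConj_iff.1 (mem_filter.1 ha).2
    refine Fintype.mem_piFinset.2 fun i => ?_
    rw [Multiset.mem_toFinset, Polynomial.mem_roots (LinearMap.charpoly_monic _).ne_zero,
      ← End.hasEigenvalue_iff_isRoot_charpoly]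
    obtain ⟨w, hw⟩ := (h1 i a h0).exists_hasEigenvector
    have e1 : ρ a w = τ i a • w := hw.apply_eq_smul
    refine End.hasEigenvalue_of_hasEigenvector (x := ρ x⁻¹ w) ⟨End.mem_eigenspace_iff.2 ?_,
      fun e => hw.2 ?_⟩
    · rw [← map_smul, ← e1, ← hx, ← End.mul_apply, ← End.mul_apply, ← map_mul, ← map_mul]
      simp [mul_assoc]
    · simpa using congrArg (ρ x) e

omit [CharP K p] hp [Finite G] in
theorem rank_bound (hρ : Function.Injective ρ) {n : ℕ} (hn : finrank K V ≤ n) :
    ∃ r : Subgroup G → ℕ, (∀ T, r T ≤ n * n) ∧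
      ∀ S T : Subgroup G, S ≤ T → ¬ centralizer (S : Set G) ≤ centralizer T → r T < r S := by
  refine ⟨fun T => finrank K (Subalgebra.toSubmodule (Subalgebra.centralizer K (ρ '' T))),
    fun T => (Submodule.finrank_le _).trans (by
      rw [finrank_linearMap]; exact Nat.mul_le_mul hn hn), fun S T h1 h2 => ?_⟩
  obtain ⟨g, h3, h4⟩ := SetLike.not_le_iff_exists.1 h2
  refine Submodule.finrank_lt_finrank_of_lt (SetLike.lt_iff_le_and_exists.2
    ⟨Subalgebra.centralizer_le K _ _ (Set.image_mono h1), ρ g, ?_, fun e => h4 fun t ht => hρ ?_⟩)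
  · rintro _ ⟨s, hs, rfl⟩
    rw [← map_mul, ← map_mul, h3 s hs]
  · rw [map_mul, map_mul]; exact e _ ⟨t, ht, rfl⟩
end lin

variable (p m) in
/-- The inductive statement. -/
def BF (n c : ℕ) : Prop := ∀ (K : Type v) [Field K] [IsAlgClosed K] [CharP K p] (V : Type v)
  [AddCommGroup V] [Module K V] [FiniteDimensional K V], finrank K V ≤ n → ∀ (G : Type u) [Group G]
  [Finite G] (ρ : Representation K G V), Function.Injective ρ → ¬ p ^ (m + 1) ∣ Nat.card G →
  ∃ A : Subgroup G, A ≤ centralizer A ∧ A.index ≤ c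

section step
variable {n c : ℕ} {K : Type v} [Field K] [IsAlgClosed K] [CharP K p] {V : Type v} [AddCommGroup V]
  [Module K V] [FiniteDimensional K V] {G : Type u} [Group G] [Finite G]

omit hp in
theorem BF.ker (h : BF.{u, v} p m n c) (hn : finrank K V ≤ n) (ρ : Representation K G V)
    (hG : ¬ p ^ (m + 1) ∣ Nat.card G) :
    ∃ B : Subgroup G, B.index ≤ c ∧ ∀ x ∈ B, ∀ y ∈ B, ⁅x, y⁆ ∈ MonoidHom.ker ρ := by
  obtain ⟨A, h1, h2⟩ := h K V hn (G ⧸ MonoidHom.ker ρ) (QuotientGroup.lift _ ρ le_rfl)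
    (fun x y e => by
      obtain ⟨x, rfl⟩ := QuotientGroup.mk_surjective x
      obtain ⟨y, rfl⟩ := QuotientGroup.mk_surjective y
      refine QuotientGroup.eq.2 ?_
      have e' : ρ x = ρ y := e
      rw [MonoidHom.mem_ker, map_mul, ← e', ← map_mul, inv_mul_cancel, map_one])
    (fun e => hG (e.trans (card_quotient_dvd_card _)))
  refine ⟨A.comap (QuotientGroup.mk' _), by
    rwa [index_comap_of_surjective _ (QuotientGroup.mk'_surjective _)], fun x hx y hy => ?_⟩
  rw [← QuotientGroup.eq_one_iff, ← QuotientGroup.mk'_apply, map_commutatorElement,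
    commutatorElement_eq_one_iff_mul_comm]
  exact h1 hy _ hx

theorem BF.red (h : BF.{u, v} p m n c) (hn : finrank K V ≤ n + 1) (ρ : Representation K G V)
    (hρ : Function.Injective ρ) (hG : ¬ p ^ (m + 1) ∣ Nat.card G) {W : Submodule K V} (h0 : W ≠ ⊥)
    (h1 : W ≠ ⊤) (hW : ∀ g, W ≤ W.comap (ρ g)) :
    ∃ A : Subgroup G, A ≤ centralizer A ∧ A.index ≤ p ^ m * ((p ^ m).factorial * (c * c)) := by
  obtain ⟨B, b1, b2⟩ := h.ker (by have := Submodule.finrank_lt h1; omega)
    (ρ.subrepresentation W hW) hG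
  obtain ⟨D, d1, d2⟩ := h.ker (by
    have := W.finrank_quotient_add_finrank
    have := Submodule.one_le_finrank_iff.2 h0
    omega) (ρ.quotient W hW) hG
  set Q := MonoidHom.ker (ρ.subrepresentation W hW) ⊓ MonoidHom.ker (ρ.quotient W hW)
  have hQ : IsPGroup p Q := fun x => ⟨2, Subtype.ext (pow_eq_one_of_nil hρ (by
    ext y
    have e1 : ρ x y - y ∈ W := by
      rw [← Submodule.Quotient.eq]
      exact LinearMap.congr_fun (show ρ.quotient W hW x = 1 from x.2.2) (Submodule.Quotient.mk y)
    have e2 : ρ x (ρ x y - y) = ρ x y - y := congrArg Subtype.val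
      (LinearMap.congr_fun (show ρ.subrepresentation W hW x = 1 from x.2.1) ⟨_, e1⟩)
    rw [sq, End.mul_apply]
    simp only [LinearMap.sub_apply, End.one_apply, e2, sub_self, LinearMap.zero_apply]))⟩
  have hQc := card_le_of_pgroup hG hQ (card_subgroup_dvd_card Q)
  set C := centralizer (Q : Set G) ⊓ (B ⊓ D)
  have hC : C.index ≤ (p ^ m).factorial * (c * c) := by
    refine index_inf_le.trans (Nat.mul_le_mul ?_ (index_inf_le.trans (Nat.mul_le_mul b1 d1)))
    letI := Fintype.ofFinite Q
    classical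
    have e1 : ((MulAction.toPermHom (MulAut Q) Q).comp (MulAut.conjNormal (G := G) (H := Q))).ker ≤
        centralizer (Q : Set G) := fun g hg x hx => by
      have := congrArg Subtype.val (DFunLike.congr_fun hg ⟨x, hx⟩)
      simp only [MonoidHom.comp_apply, MulAction.toPermHom_apply, MulAction.toPerm_apply,
        MulAut.smul_def, MulAut.conjNormal_apply, Equiv.Perm.coe_one, id_eq] at this
      exact (mul_inv_eq_iff_eq_mul.1 this).symm
    refine (Nat.le_of_dvd (Nat.pos_of_ne_zero FiniteIndex.index_ne_zero)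
      (index_dvd_of_le e1)).trans ?_
    rw [index_ker]
    refine (Nat.le_of_dvd Nat.card_pos (card_subgroup_dvd_card _)).trans ?_
    rw [Nat.card_perm]
    exact Nat.factorial_le (Nat.le_of_dvd (pow_pos hp.out.pos _) hQc)
  have hZ : IsPGroup p (C ⧸ center C) := fun x => by
    obtain ⟨x, rfl⟩ := QuotientGroup.mk_surjective x
    refine ⟨m, ?_⟩
    rw [← QuotientGroup.mk_pow, QuotientGroup.eq_one_iff]
    refine pow_mem_center_of_comm (M := Q.subgroupOf C)
      (fun q hq => mem_center_iff.2 fun g => Subtype.ext (g.2.1 _ hq).symm) (fun q hq => ?_)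
      fun y => ⟨b2 _ x.2.2.1 _ y.2.2.1, d2 _ x.2.2.2 _ y.2.2.2⟩
    exact Subtype.ext (orderOf_dvd_iff_pow_eq_one.1 ((Subgroup.orderOf_dvd_natCard Q hq).trans hQc))
  refine ⟨(center C).map C.subtype, ?_, ?_⟩
  · rintro _ ⟨x, hx, rfl⟩ _ ⟨y, -, rfl⟩
    exact congrArg Subtype.val (mem_center_iff.1 hx y)
  · rw [index_map_subtype]
    exact Nat.mul_le_mul (Nat.le_of_dvd (pow_pos hp.out.pos _) (card_le_of_pgroup hG hZ
      ((card_quotient_dvd_card _).trans (card_subgroup_dvd_card C)))) hC
end step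

theorem bf (n : ℕ) : ∃ c, BF.{u, v} p m n c := by
  induction n with
  | zero =>
    refine ⟨1, fun K _ _ _ V _ _ _ hn G _ _ ρ hρ _ => ⟨⊤, fun x _ y _ => ?_, by simp⟩⟩
    haveI : Subsingleton V := finrank_zero_iff.1 (Nat.le_zero.1 hn)
    exact hρ (Subsingleton.elim _ _)
  | succ n ih =>
    obtain ⟨c, h⟩ := ih
    refine ⟨_, fun K _ _ _ V _ _ _ hn G _ _ ρ hρ hG => JH.main (c := p ^ m * ((p ^ m).factorial *
      (c * c))) ⟨fun g hg => ?_, conj_bound hρ hG hn, rank_bound hρ hn⟩⟩
    rcases subsingleton_or_nontrivial V with h0 | h0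
    · exact (hg (mem_center_iff.2 fun x => hρ (Subsingleton.elim _ _))).elim
    obtain ⟨μ, hμ⟩ := End.exists_eigenvalue (ρ g)
    obtain ⟨A, h1, h2⟩ := h.red hn (ρ.comp (centralizer {g}).subtype)
      (hρ.comp Subtype.val_injective) (fun e => hG (e.trans (card_subgroup_dvd_card _))) hμ
      (fun e => hg (mem_center_iff.2 fun x => hρ (by
        have : ∀ y, ρ g y = μ • y := fun y => End.mem_eigenspace_iff.1 (e.ge trivial)
        ext y
        simp [this]))) (fun x y hy => by
        refine End.mem_eigenspace_iff.2 ?_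
        change ρ g (ρ x y) = μ • ρ x y
        rw [← End.mul_apply, ← map_mul, ← mem_centralizer_singleton_iff.1 x.2, map_mul,
          End.mul_apply, End.mem_eigenspace_iff.1 hy, map_smul])
    refine ⟨A.map (Subgroup.subtype _), map_subtype_le _, ?_, by
      rwa [relIndex, ← comap_subtype, comap_map_eq_self_of_injective (subtype_injective _)]⟩
    rintro _ ⟨x, hx, rfl⟩ _ ⟨y, hy, rfl⟩
    exact congrArg Subtype.val (h1 hx y hy)
end H8.Fan
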