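import Cfsg.Agent.H10.LowDeg

/-! Faithful irreducible characters of degree `< p - 1` of a group with a Sylow subgroup of order
`p`: `small_shape` (restriction to `P`, and `C(P) = P Z(G)` in the case of degree `p - e`);
`four_zero` (vanishing Fourier coefficients). -/

open H5 H7 H10 Cfsg Subgroup
open scoped ComplexConjugate

namespace H8

variable {G : Type*} [Group G] {p : ℕ} [hp : Fact p.Prime]

omit hp in
theorem four_zero [Finite G] {χ : G → ℂ} (hχ : IsCharacter G χ) (P : Subgroup G) [Fintype P]
    (μ : P →* ℂˣ) (h : classInner (fun v : P => χ v) (fun v => μ v) = 0) (y : G) :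
    classInner (fun v : P => χ (v * y)) (fun v => μ v) = 0 := by
  classical
  obtain ⟨n, M, hM⟩ := hχ.exists_matrixHom
  let E : Matrix (Fin n) (Fin n) ℂ := (Nat.card P : ℂ)⁻¹ • ∑ v : P, conj (μ v : ℂ) • M v
  have hE : ∀ w : P, M w * E = (μ w : ℂ) • E := fun w => by
    simp only [E, mul_smul_comm, Finset.mul_sum, ← map_mul, Finset.smul_sum, smul_smul]
    rw [← Equiv.sum_comp (Equiv.mulLeft w) (fun v : P => ((μ w : ℂ) *
      ((Nat.card P : ℂ)⁻¹ * conj (μ v : ℂ))) • M v)]
    refine Finset.sum_congr rfl fun v _ => ?_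
    simp only [Equiv.coe_mulLeft, map_mul, Units.val_mul, Subgroup.coe_mul, conj_hom, mul_inv_rev]
    congr 1
    have : (μ w : ℂ) * μ w⁻¹ = 1 := by rw [← Units.val_mul, ← map_mul]; simp
    linear_combination (-(Nat.card P : ℂ)⁻¹ * μ v⁻¹) * this
  have hI : IsIdempotentElem E := by
    show E * E = E
    conv_lhs => enter [1]; simp only [E]
    rw [smul_mul_assoc, Finset.sum_mul]
    simp only [smul_mul_assoc, hE, smul_smul, conj_hom]
    have : ∀ v : P, (μ v⁻¹ : ℂ) * μ v = 1 := fun v => by rw [← Units.val_mul, ← map_mul]; simp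
    simp only [this, one_smul, Finset.sum_const, Finset.card_univ, ← Nat.card_eq_fintype_card]
    rw [← Nat.cast_smul_eq_nsmul ℂ, smul_smul, inv_mul_cancel₀ card_ne_zero_complex, one_smul]
  have htr : ∀ y : G, (E * M y).trace = classInner (fun v : P => χ (v * y)) (fun v => μ v) :=
    fun y => by
    simp only [E, smul_mul_assoc, Finset.sum_mul, Matrix.trace_smul, Matrix.trace_sum, ← map_mul,
      ← hM, smul_eq_mul, classInner, mul_comm]
  have h0 : E = 0 := by
    have h1 := htr 1
    simp only [map_one, mul_one, h] at h1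
    rw [trace_eq_rank hI, Nat.cast_eq_zero] at h1
    rw [Matrix.rank, Submodule.finrank_eq_zero, LinearMap.range_eq_bot] at h1
    exact Matrix.toLin'.injective (by rw [map_zero]; exact h1)
  rw [← htr, h0, zero_mul, Matrix.trace_zero]

theorem small_shape [Finite G] {P : Sylow p G} (hP : Nat.card (P : Subgroup G) = p)
    {χ : IrrCharacter G} (hd : charDegree (χ : G → ℂ) + 1 < p)
    (hf : ∀ g, (χ : G → ℂ) g = (χ : G → ℂ) 1 → g = 1) : ∃ l ≠ 1,
      (∃ m : ℕ, 0 < m ∧ ∀ v : (P : Subgroup G), (χ : G → ℂ) v =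
        m * osum (autN (P : Subgroup G)) l v) ∨
      (charDegree (χ : G → ℂ) + Nat.card (autN (P : Subgroup G)) = p ∧
        (∀ v : (P : Subgroup G), v ≠ 1 → (χ : G → ℂ) v = - osum (autN (P : Subgroup G)) l v) ∧
        ∀ y ∈ cC (P : Subgroup G), ¬ p ∣ orderOf y → y ∈ center G) := by
  classical
  obtain ⟨M, hM⟩ := exists_isPModular p
  haveI : PM p M := ⟨hM⟩
  have := Fintype.ofFinite G
  have := Fintype.ofFinite (H8.nN (P : Subgroup G))
  have h0 := χ.2.charDegree_pos
  have hB := isPBlock_blockOf (M := M) χ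
  obtain ⟨x₀, hx₀⟩ : ∃ x : (P : Subgroup G), x ≠ 1 := by
    have := Finite.one_lt_card_iff_nontrivial.1 (hp.out.one_lt.trans_eq hP.symm)
    exact exists_ne 1
  have hk : ¬ (P : Subgroup G) ≤ charKer (χ : G → ℂ) := fun h =>
    hx₀ (Subtype.ext (hf _ (apply_eq_of_mem_charKer (h x₀.2))))
  obtain ⟨f, hf'⟩ := exists_GB' P hP hB (by
    rw [blockDefect_eq_of_not_dvd (M := M) (mem_blockOf_self χ)
      (fun h => by have := Nat.le_of_dvd h0 h; omega), factorization_eq_one_of hp.out
      (hP ▸ card_subgroup_dvd_card _) (not_sq_dvd_of_card_sylow hP)]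
    exact one_pos)
  obtain ⟨D, -⟩ := exists_GB P hP hf'
  have hr := χ.2.isCharacter.restrict (P : Subgroup G)
  have fr := fr_autN hP
  have key : ∀ ψ : ↥(P : Subgroup G) → ℂ, (∀ v : (P : Subgroup G), v ≠ 1 → (χ : G → ℂ) v = ψ v) →
      ∀ m : (P : Subgroup G) →* ℂˣ, ∃ a : ℕ, classInner (fun v : (P : Subgroup G) => (χ : G → ℂ) v)
        (fun w => m w) = a ∧ (p * a : ℂ) = p * classInner ψ (fun w => m w) +
        (charDegree (χ : G → ℂ) - ψ 1) := fun ψ h m => by
    obtain ⟨a, ha⟩ := hr.exists_classInner_nat (isCharacter_hom m)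
    have := inner_off_one h m
    rw [ha, hP] at this
    exact ⟨a, ha, by simpa [χ.2.coe_charDegree] using this⟩
  have p0 : (p : ℂ) ≠ 0 := by exact_mod_cast hp.out.ne_zero
  by_cases hY : χ ∈ D.ζ '' {1}ᶜ
  · obtain ⟨l, hl, e⟩ := hY
    obtain ⟨m, hm, hm'⟩ := D.θ.2.exists_apply_one
    have h1 : ∀ v : (P : Subgroup G), v ≠ 1 → (χ : G → ℂ) v =
        (((D.δ : ℂ) * m) • osum (autN (P : Subgroup G)) l) v := fun v hv => by
      have := D.valP hl hv
      rw [e, hm'] at this
      exact this
    obtain ⟨a, ha, h2⟩ := key _ h1 1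
    obtain ⟨b, -, h3⟩ := key _ h1 l
    rw [classInner_smul_left, fr.inner_osum hl, Pi.smul_apply, osum_one] at h2 h3
    rw [if_neg fun e => e.ne_one hl rfl] at h2
    rw [if_pos (Orb.refl l)] at h3
    have h4 : (p * a : ℤ) = charDegree (χ : G → ℂ) - D.δ * m * Nat.card (autN (P : Subgroup G)) := by
      apply Int.cast_injective (α := ℂ); push_cast; rw [h2]; simp
    have h5 : (b : ℤ) = D.δ * m + a := by
      apply Int.cast_injective (α := ℂ); apply mul_left_cancel₀ p0; push_cast
      rw [h3, mul_add, h2]; simp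
    refine ⟨l, hl, ?_⟩
    rcases D.sign with h | h <;> rw [h] at h4 h5
    · have h6 : a = 0 := by
        by_contra h6
        nlinarith [show (1 : ℤ) ≤ a by omega, show (0 : ℤ) ≤ m * Nat.card (autN (P : Subgroup G)) by
          positivity, show (charDegree (χ : G → ℂ) : ℤ) < p by omega]
      refine Or.inl ⟨m, hm, fun v => ?_⟩
      rcases eq_or_ne v 1 with rfl | hv
      · rw [osum_one, OneMemClass.coe_one, ← χ.2.coe_charDegree]
        have : (charDegree (χ : G → ℂ) : ℤ) = m * Nat.card (autN (P : Subgroup G)) := by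
          rw [h6] at h4; push_cast at h4; linarith
        exact_mod_cast this
      · simp [h1 v hv, h]
    · right
      obtain ⟨t, ht⟩ : Nat.card (autN (P : Subgroup G)) ∣ p - 1 := by
        rw [card_autN]; exact relIndex_centralizer_dvd hP
      set w := Nat.card (autN (P : Subgroup G)) with hw
      set d := charDegree (χ : G → ℂ) with hdd
      have h4' : p * a = d + m * w := by zify; linarith
      have ht0 : 0 < t := Nat.pos_of_ne_zero (by rintro rfl; omega)
      have hwp : w + 1 ≤ p := by nlinarith [show p - 1 + 1 = p by omega]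
      have ham : a = m := by
        have : a < m + 1 := by
          by_contra hh
          nlinarith [Nat.mul_le_mul_left m hwp, Nat.mul_le_mul_left p (not_lt.1 hh)]
        omega
      subst ham
      simp only [MonoidHom.one_apply, Units.val_one] at ha
      have ht2 : 2 ≤ t := by
        by_contra hh
        have : t = 1 := by omega
        subst this
        have h13 : d = a := by
          have : p = w + 1 := by omega
          rw [this] at h4'; nlinarith
        refine hk fun x hx => ?_
        have h14 := congrFun ((H6.isCharacter_sub_smul hr isIrrCharacter_one).eq_zero_of_apply_one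
          (by simp [ha, ← χ.2.coe_charDegree, ← hdd, h13])) ⟨x, hx⟩
        rw [χ.2.mem_charKer, ← χ.2.coe_charDegree, ← hdd, h13]
        simpa [ha, sub_eq_zero] using h14
      have ha1 : a = 1 := by
        by_contra hh
        have h2a : 2 ≤ a := by omega
        have : 2 * w + 1 ≤ p := by nlinarith [show p - 1 + 1 = p by omega]
        nlinarith
      subst ha1
      refine ⟨by omega, fun v hv => by simp [h1 v hv, h], fun y hy hy' => ?_⟩
      let F : ↥(P : Subgroup G) → ℂ := fun v => (χ : G → ℂ) (v * y)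
      let H : ↥(P : Subgroup G) → ℂ := (Nat.card D.E : ℂ)⁻¹ • (Nat.card (cC (P : Subgroup G)) : ℂ)⁻¹ •
        ∑ n, ∑ τ : D.E, (D.δ * (D.θ : cC (P : Subgroup G) → ℂ) (kc _ n ⟨y, hy⟩)) •
          fun v => ((l.comp (τ.1 * D.κ n).toMonoidHom) v : ℂ)
      have hFH : ∀ v ≠ 1, F v = H v := fun v hv => by
        have := D.valY l hl v hv ⟨y, hy⟩ (by simpa using hy')
        rw [e] at this
        apply mul_left_cancel₀ (card_ne_zero_complex (G := D.E))
        refine this.trans ?_
        simp only [H, Pi.smul_apply, smul_eq_mul, Finset.sum_apply, osum]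
        rw [mul_inv_cancel_left₀ card_ne_zero_complex]
        congr 1
        refine Finset.sum_congr rfl fun n _ => ?_
        rw [Finset.mul_sum, Finset.sum_mul]
        refine Finset.sum_congr rfl fun τ _ => ?_
        simp; ring
      have hH : ∀ μ : (P : Subgroup G) →* ℂˣ, ¬ Orb (autN (P : Subgroup G)) l μ →
          classInner H (fun v => μ v) = 0 := fun μ hμ => by
        simp only [H, classInner_smul_left, classInner_sum_left, inner_hom]
        rw [Finset.sum_eq_zero fun n _ => Finset.sum_eq_zero fun τ _ => ?_]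
        · simp
        · rw [if_neg, mul_zero]
          rintro rfl
          exact hμ ⟨_, mul_mem (D.E_le τ.2) ⟨n, n.2, D.hκ n⟩, fun v => rfl⟩
      have hF1 : ∀ μ : (P : Subgroup G) →* ℂˣ, ¬ Orb (autN (P : Subgroup G)) l μ →
          classInner F (fun v => μ v) = classInner F (fun v => (1 : (P : Subgroup G) →* ℂˣ) v) :=
        fun μ hμ => by
        apply mul_left_cancel₀ (card_ne_zero_complex (G := (P : Subgroup G)))
        rw [inner_off_one hFH, inner_off_one hFH, hH μ hμ, hH 1 fun e => e.ne_one hl rfl]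
      have hF0 : ∀ μ : (P : Subgroup G) →* ℂˣ, Orb (autN (P : Subgroup G)) l μ →
          classInner F (fun v => μ v) = 0 := fun μ hμ => by
        refine four_zero χ.2.isCharacter _ μ ?_ y
        obtain ⟨b', hb', h7⟩ := key _ h1 μ
        rw [classInner_smul_left, fr.inner_osum hl, Pi.smul_apply, osum_one, if_pos hμ] at h7
        rw [hb']
        apply mul_left_cancel₀ p0
        rw [h7, h] at *
        push_cast at h2 ⊢
        linear_combination -h2
      set c := classInner F (fun v => (1 : (P : Subgroup G) →* ℂˣ) v) with hc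
      have h8 := fourier fr.comm F 1
      rw [Finset.sum_congr rfl (g := fun μ => c - if Orb (autN (P : Subgroup G)) l μ then c else 0)
        (fun μ _ => by
          split_ifs with hμ
          · simp [hF0 μ hμ]
          · simp [hF1 μ hμ]), Finset.sum_sub_distrib, fr.sum_Orb hl] at h8
      simp only [Finset.sum_const, Finset.card_univ, ← Nat.card_eq_fintype_card, card_hom fr.comm,
        hP, nsmul_eq_mul, ← hw, F, OneMemClass.coe_one, one_mul] at h8
      have h9 : ‖c‖ = 1 := by
        have hav := isCharacter_avg_restrict (P : Subgroup G) (cC (P : Subgroup G))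
          (cC_le_nN _) χ.2.isCharacter
        have e1 : avg (P : Subgroup G) (χ : G → ℂ) 1 = 1 := by
          simpa [avg, classInner] using ha
        have e2 : c = avg (P : Subgroup G) (χ : G → ℂ) y := by simp [hc, avg, classInner, F]
        obtain ⟨lam, hlam⟩ := hav.exists_hom_of_apply_one e1
        rw [e2, show avg (P : Subgroup G) (χ : G → ℂ) y = _ from congrFun hlam ⟨y, hy⟩]
        exact norm_eq_one_of_pow_eq_one Nat.card_pos (by
          rw [← Units.val_pow_eq_pow_val, ← map_pow, pow_card_eq_one', map_one, Units.val_one])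
      rw [← χ.2.charCenter_eq_center (eq_bot_iff.2 fun g hg => hf g (apply_eq_of_mem_charKer hg)),
        χ.2.mem_charCenter, h8, ← sub_mul, norm_mul, h9, mul_one, ← χ.2.coe_charDegree, ← hdd]
      congr 1
      have : (p : ℂ) = d + w := by exact_mod_cast (by omega : p = d + w)
      rw [this]; ring
  · obtain ⟨l, hl⟩ := exists_hom_ne_one hP
    have h1 : ∀ v : (P : Subgroup G), v ≠ 1 → (χ : G → ℂ) v =
        ((χ : G → ℂ) x₀ • fun w => ((1 : (P : Subgroup G) →* ℂˣ) w : ℂ)) v := fun v hv => by
      simpa using D.valPX ⟨mem_blockOf_self χ, hY⟩ hv hx₀ (y := 1) (by simpa using hp.out.ne_one)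
    obtain ⟨a, -, h2⟩ := key _ h1 1
    obtain ⟨b, -, h3⟩ := key _ h1 l
    rw [classInner_smul_left, inner_hom] at h2 h3
    rw [if_neg hl.symm] at h3
    simp only [if_true, Pi.smul_apply, MonoidHom.one_apply, Units.val_one, smul_eq_mul, mul_one,
      mul_zero, zero_add] at h2 h3
    have h4 : (a + (p - 1) * b : ℤ) = charDegree (χ : G → ℂ) := by
      apply Int.cast_injective (α := ℂ); apply mul_left_cancel₀ p0; push_cast
      linear_combination h2 + (p - 1) * h3
    have h5 : b = 0 := by
      by_contra h5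
      nlinarith [show (1 : ℤ) ≤ b by omega, show (charDegree (χ : G → ℂ) + 1 : ℤ) < p by omega,
        show (1 : ℤ) ≤ charDegree (χ : G → ℂ) by omega]
    refine (hk fun y hy => χ.2.mem_charKer.2 ?_).elim
    rcases eq_or_ne y 1 with rfl | hy1
    · rfl
    rw [h1 ⟨y, hy⟩ (by simpa), ← χ.2.coe_charDegree]
    rw [h5] at h3
    simp only [Pi.smul_apply, MonoidHom.one_apply, Units.val_one, smul_eq_mul]
    linear_combination h3

end H8
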