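import Cfsg.Agent.H8.Fe1

/-! Faithful irreducible characters of degree `p - 2`, Sylow subgroup of order `p`: `shape2`,
the quadratic relation `quad_rel` on `p`-regular elements of a perfect group and its consequences
for the centralizers of involutions (`FT.comm`). -/

open H5 H7 H10 Cfsg Subgroup
open scoped ComplexConjugate

namespace H8

variable {G : Type*} [Group G] [Finite G] {p : ℕ} [hp : Fact p.Prime]

theorem shape2 {P : Sylow p G} (hP : Nat.card (P : Subgroup G) = p) (h3 : 3 < p)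
    (hn : ¬ (P : Subgroup G).Normal) {χ : IrrCharacter G} (hd : charDegree (χ : G → ℂ) + 2 = p)
    (hf : ∀ g, (χ : G → ℂ) g = (χ : G → ℂ) 1 → g = 1) : ∃ l : (P : Subgroup G) →* ℂˣ, l ≠ 1 ∧
      (∀ v : (P : Subgroup G), v ≠ 1 → (χ : G → ℂ) v = - (l v + l v⁻¹)) ∧
      (∀ y ∈ cC (P : Subgroup G), ¬ p ∣ orderOf y → y ∈ center G) ∧
      (cC (P : Subgroup G)).relIndex (nN (P : Subgroup G)) = 2 ∧
      ∃ t ∈ nN (P : Subgroup G), ∀ v ∈ (P : Subgroup G), t * v * t⁻¹ = v⁻¹ := by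
  classical
  obtain ⟨l, hl, h⟩ := small_shape hP (by omega) hf
  have fr := fr_autN hP
  have hdv : Nat.card (autN (P : Subgroup G)) ∣ p - 1 := by
    rw [card_autN]; exact relIndex_centralizer_dvd hP
  rcases h with ⟨m, hm, h⟩ | ⟨h1, h2, h4⟩
  · exfalso
    have h1 := h 1
    rw [osum_one, OneMemClass.coe_one, ← χ.2.coe_charDegree] at h1
    have h2 : charDegree (χ : G → ℂ) = m * Nat.card (autN (P : Subgroup G)) := by exact_mod_cast h1
    have h5 : Nat.card (autN (P : Subgroup G)) ∣ 1 := by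
      have : p - 1 = charDegree (χ : G → ℂ) + 1 := by omega
      rw [this] at hdv
      exact (Nat.dvd_add_right (h2 ▸ Dvd.intro_left _ rfl)).1 hdv
    have h6 : autN (P : Subgroup G) = ⊥ := card_eq_one.1 (Nat.dvd_one.1 h5)
    refine hn ⟨fun x hx g => ?_⟩
    have : x ∈ center G := by
      rw [← χ.2.charCenter_eq_center (eq_bot_iff.2 fun g hg => hf g (apply_eq_of_mem_charKer hg)),
        χ.2.mem_charCenter, h ⟨x, hx⟩, show (χ : G → ℂ) 1 = _ from h 1, h6]
      have h2 : ∀ v, ‖(l v : ℂ)‖ = 1 := fun v => norm_eq_one_of_pow_eq_one Nat.card_pos (by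
        rw [← Units.val_pow_eq_pow_val, ← map_pow, pow_card_eq_one', map_one, Units.val_one])
      simp [osum, h2]
    rwa [mem_center_iff.1 this g, mul_inv_cancel_right]
  · have hw : Nat.card (autN (P : Subgroup G)) = 2 := by omega
    obtain ⟨σ, hσ1, hσ⟩ := (Nat.card_eq_two_iff' (1 : autN (P : Subgroup G))).1 hw
    have hσσ : σ * σ = 1 := by
      by_contra hh
      exact hσ1 (mul_left_cancel (a := σ) (by rw [hσ _ hh, mul_one]))
    have hinv : ∀ v, σ.1 v = v⁻¹ := fun v => by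
      by_contra hh
      refine hσ1 (Subtype.ext (fr.free σ.1 σ.2 (σ.1 v * v) (fun e => hh (eq_inv_of_mul_eq_one_left e)) ?_))
      rw [map_mul, ← MulAut.mul_apply, ← Subgroup.coe_mul, hσσ, fr.comm]
      rfl
    refine ⟨l, hl, fun v hv => ?_, h4, by rw [← card_autN, hw], ?_⟩
    · rw [h2 v hv, osum]
      have : (Finset.univ : Finset (autN (P : Subgroup G))) = {1, σ} := by
        ext τ
        simp only [Finset.mem_univ, Finset.mem_insert, Finset.mem_singleton, true_iff]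
        by_cases h : τ = 1
        · exact Or.inl h
        · exact Or.inr (hσ τ h)
      rw [this, Finset.sum_pair (Ne.symm hσ1), hinv]
      rfl
    · obtain ⟨t, ht, e⟩ := σ.2
      exact ⟨t, ht, fun v hv => by
        have := e ⟨v, hv⟩
        rw [hinv] at this
        exact this.symm⟩

omit hp [Finite G] in
theorem exists_k0 {n : ℕ} (hn : n ≠ 0) (hp : p.Prime) : ∃ k, k.Coprime n ∧
    (∀ m, m ∣ n → ¬ 2 ∣ m → ¬ p ∣ m → k ≡ 2 [MOD m]) ∧ (∀ j, 2 ^ j ∣ n → k ≡ 1 [MOD 2 ^ j]) ∧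
      k ≡ 1 [MOD p] := by
  let u := n / 2 ^ n.factorization 2 / p ^ (n / 2 ^ n.factorization 2).factorization p
  have h0 : n / 2 ^ n.factorization 2 ≠ 0 := (Nat.ordCompl_pos 2 hn).ne'
  have hu2 : (2 : ℕ).Coprime u := (Nat.coprime_ordCompl Nat.prime_two hn).coprime_dvd_right
    (Nat.ordCompl_dvd _ p)
  have hup : p.Coprime u := Nat.coprime_ordCompl hp h0
  have hc : ((2 * p) ^ (n + 1)).Coprime u := Nat.Coprime.pow_left _ (Nat.Coprime.mul_left hu2 hup)
  obtain ⟨k, h1, h2⟩ := Nat.chineseRemainder hc 1 2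
  have h3 : ∀ m, m ∣ n → ¬ 2 ∣ m → ¬ p ∣ m → m ∣ u := fun m hm a b =>
    Nat.dvd_ordCompl_of_dvd_not_dvd (Nat.dvd_ordCompl_of_dvd_not_dvd hm a) b
  have h4 : k ≡ 1 [MOD 2 * p] := h1.of_dvd (dvd_pow_self _ (by omega))
  refine ⟨k, Nat.coprime_of_dvd fun r hr hk hrn => ?_, fun m hm a b => h2.of_dvd (h3 m hm a b),
    fun j hj => h1.of_dvd ?_, h4.of_dvd (Dvd.intro_left _ rfl)⟩
  · by_cases h : r ∣ 2 * p
    · exact hr.one_lt.ne' (Nat.dvd_one.1 (((h4.of_dvd h).dvd_iff dvd_rfl).1 hk))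
    · have a : ¬ 2 ∣ r := fun e => h ((Nat.prime_dvd_prime_iff_eq Nat.prime_two hr).1 e ▸
        Dvd.intro _ rfl)
      have b : ¬ p ∣ r := fun e => h ((Nat.prime_dvd_prime_iff_eq hp hr).1 e ▸ Dvd.intro_left _ rfl)
      exact h ((((h2.of_dvd (h3 r hrn a b)).dvd_iff dvd_rfl).1 hk).mul_right p)
  · have : j ≤ n + 1 := by
      have := Nat.le_of_dvd (Nat.pos_of_ne_zero hn) hj
      have := Nat.lt_two_pow_self (n := j)
      omega
    rw [mul_pow]
    exact (pow_dvd_pow 2 this).mul_right _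

omit hp [Finite G] in
theorem pow_eq_of_modEq {g : G} {a b m : ℕ} (h : a ≡ b [MOD m]) (hg : orderOf g ∣ m) :
    g ^ a = g ^ b := pow_eq_pow_iff_modEq.2 (h.of_dvd hg)

/-- the situation of a perfect group -/
structure FT (P : Sylow p G) (χ : G → ℂ) (l : (P : Subgroup G) →* ℂˣ) : Prop where
  hP : Nat.card (P : Subgroup G) = p
  h5 : 5 < p
  irr : IsIrrCharacter G χ
  deg : charDegree χ + 2 = p
  faith : ∀ g, χ g = χ 1 → g = 1
  perf : commutator G = ⊤
  ne : l ≠ 1
  val : ∀ v : (P : Subgroup G), v ≠ 1 → χ v = - (l v + l v⁻¹)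
  cen : ∀ y ∈ cC (P : Subgroup G), ¬ p ∣ orderOf y → y ∈ center G

namespace FT

variable {P : Sylow p G} {χ : G → ℂ} {l : (P : Subgroup G) →* ℂˣ} (h : FT P χ l)
include h

theorem one : χ 1 = p - 2 := by
  rw [← h.irr.coe_charDegree, ← h.deg]; push_cast; ring

theorem cc : charCenter χ = center G :=
  h.irr.charCenter_eq_center (eq_bot_iff.2 fun g hg => h.faith g (apply_eq_of_mem_charKer hg))

theorem p2 : ¬ 2 ∣ p := fun e => by
  have := (Nat.prime_dvd_prime_iff_eq Nat.prime_two hp.out).1 e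
  have := h.h5
  omega

theorem scal {y : G} (hy : y ∈ center G) : ∃ c : ℂ, ∀ x, χ (y * x) = c * χ x := by
  obtain ⟨c, -, hc⟩ := mem_charCenter_def.1 (h.cc ▸ hy)
  exact ⟨c, hc⟩

theorem ord_cen {y : G} (hy : y ∈ center G) : orderOf y ∣ charDegree χ := by
  obtain ⟨c, hc⟩ := h.scal hy
  have h1 := H6.detChar_of_scalar h.irr.isCharacter h.irr.coe_charDegree.symm hc
  rw [detChar_eq_one_of_perfect h.perf] at h1
  have h2 : ∀ n : ℕ, χ (y ^ n) = c ^ n * χ 1 := fun n => by
    induction n with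
    | zero => simp
    | succ n ih => rw [pow_succ', hc, ih, pow_succ', mul_assoc]
  exact orderOf_dvd_of_pow_eq_one (h.faith _ (by rw [h2, ← h1, one_mul]))

theorem odd_cen {y : G} (hy : y ∈ center G) : ¬ 2 ∣ orderOf y := fun e => by
  have := e.trans (h.ord_cen hy)
  have := h.p2
  have := h.deg
  omega

theorem reg_cen {y : G} (hy : y ∈ center G) : ¬ p ∣ orderOf y := fun e => by
  have := Nat.le_of_dvd h.irr.charDegree_pos (e.trans (h.ord_cen hy))
  have := h.deg
  omega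

theorem quad_rel : ∃ k, (∀ g : G, ¬ 2 ∣ orderOf g → ¬ p ∣ orderOf g → g ^ k = g ^ 2) ∧
    (∀ (g : G) (j : ℕ), g ^ 2 ^ j = 1 → g ^ k = g) ∧
    ∀ g : G, ¬ p ∣ orderOf g → χ g ^ 2 - χ (g * g) = (p - 3) * χ (g ^ k) := by
  classical
  haveI := Fintype.ofFinite G
  have h5 := h.h5
  obtain ⟨k, hk, k2, k1, kp⟩ := exists_k0 (Nat.card_pos (α := G)).ne' hp.out
  have hk2 : ∀ g : G, ¬ 2 ∣ orderOf g → ¬ p ∣ orderOf g → g ^ k = g ^ 2 := fun g a b =>
    pow_eq_of_modEq (k2 _ (orderOf_dvd_natCard g) a b) dvd_rfl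
  refine ⟨k, hk2, fun g j hg => ?_, ?_⟩
  · obtain ⟨i, -, hi⟩ := (Nat.dvd_prime_pow Nat.prime_two).1 (orderOf_dvd_of_pow_eq_one hg)
    rw [pow_eq_of_modEq (k1 i (hi ▸ orderOf_dvd_natCard g)) hi.dvd, pow_one]
  have hex : ∀ j : ℕ, ∃ k', ¬ p ∣ j → (k'.Coprime (Nat.card G) ∧ k' ≡ j [MOD p] ∧
      k' ≡ 1 [MOD Nat.card G / p ^ (Nat.card G).factorization p]) := fun j => by
    by_cases hj : p ∣ j
    · exact ⟨0, fun e => absurd hj e⟩
    · obtain ⟨k', hk'⟩ := exists_pow_fix G (not_sq_dvd_of_card_sylow h.hP) hj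
      exact ⟨k', fun _ => hk'⟩
  choose κ hκ using hex
  have hI : ∀ j ∈ Finset.Ioo 0 p, ¬ p ∣ j := fun j hj e => by
    rw [Finset.mem_Ioo] at hj
    exact absurd (Nat.le_of_dvd hj.1 e) (by omega)
  have h2I : 2 ∈ Finset.Ioo 0 p := by rw [Finset.mem_Ioo]; omega
  let ζ : ℕ → G → ℂ := fun j g => χ ((g ^ κ j) ^ k)
  have hζ : ∀ j ∈ Finset.Ioo 0 p, IsIrrCharacter G (ζ j) := fun j hj =>
    (h.irr.pow_arg hk).pow_arg (hκ j (hI j hj)).1
  have hreg : ∀ j ∈ Finset.Ioo 0 p, ∀ g, ¬ p ∣ orderOf g → ζ j g = χ (g ^ k) := fun j hj g hg => by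
    simp only [ζ]
    rw [pow_eq_self_of_modEq (hκ j (hI j hj)).2.2 g hg]
  have hov : ∀ v : (P : Subgroup G), orderOf (v : G) ∣ p := fun v =>
    (Subgroup.orderOf_dvd_natCard _ v.2).trans h.hP.dvd
  have hvp : ∀ v : (P : Subgroup G), v ^ p = 1 := fun v =>
    Subtype.ext (orderOf_dvd_iff_pow_eq_one.1 (hov v))
  have hpow : ∀ v : (P : Subgroup G), v ≠ 1 → ∀ j, ¬ p ∣ j → v ^ j ≠ 1 := fun v hv j hj e => by
    have h1 := orderOf_dvd_of_pow_eq_one e
    rw [← Subgroup.orderOf_coe] at h1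
    rcases (Nat.dvd_prime hp.out).1 (hov v) with h2 | h2
    · exact hv (Subtype.ext (orderOf_eq_one_iff.1 h2))
    · exact hj (h2 ▸ h1)
  have hsing : ∀ j ∈ Finset.Ioo 0 p, ∀ v : (P : Subgroup G), v ≠ 1 → ∀ y ∈ center G, ∀ c : ℂ,
      (∀ x, χ (y * x) = c * χ x) → ζ j (v * y) = - c ^ 2 * (l v ^ j + l v⁻¹ ^ j) :=
    fun j hj v hv y hy c hc => by
    have cm : Commute (v : G) y := mem_center_iff.1 hy v
    have e1 : (((v : G) * y) ^ κ j) ^ k = y * (y * (v ^ j : (P : Subgroup G))) := by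
      rw [cm.mul_pow, (cm.pow_pow _ _).mul_pow,
        pow_eq_self_of_modEq (hκ j (hI j hj)).2.2 y (h.reg_cen hy), hk2 y (h.odd_cen hy) (h.reg_cen hy),
        ← pow_mul, pow_eq_of_modEq ((hκ j (hI j hj)).2.1.mul kp) (hov v), mul_one,
        (cm.pow_pow _ _).eq, sq, mul_assoc]
      rfl
    simp only [ζ]
    rw [e1, hc, hc, h.val _ (hpow v hv j (hI j hj)), ← inv_pow, map_pow, map_pow]
    push_cast; ring
  have hgeo : ∀ v : (P : Subgroup G), v ≠ 1 → ∑ j ∈ Finset.Ioo 0 p, (l v : ℂ) ^ j = -1 := fun v hv => by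
    have e0 : (l v : ℂ) ≠ 1 := fun e => h.ne (by
      ext w
      obtain ⟨i, rfl⟩ := mem_zpowers_of_prime_card h.hP hv (g' := w)
      have : l v = 1 := Units.ext e
      simp [this])
    have e1 : (l v : ℂ) ^ p = 1 := by
      rw [← Units.val_pow_eq_pow_val, ← map_pow, hvp, map_one, Units.val_one]
    have e2 := geom_sum_mul (l v : ℂ) p
    rw [e1, sub_self, mul_eq_zero, sub_eq_zero, or_iff_left e0, Finset.range_eq_Ico,
      ← Finset.Ioo_insert_left hp.out.pos, Finset.sum_insert (by simp), pow_zero] at e2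
    linear_combination e2
  let A : G → ℂ := fun g => (χ g ^ 2 - χ (g * g)) / 2
  have hA : IsCharacter G A := h.irr.isCharacter.altSq
  let Ψ : G → ℂ := A + A + (ζ 2 + ζ 2) - ∑ j ∈ Finset.Ioo 0 p, ζ j
  have hΨ : IsGeneralizedCharacter G Ψ :=
    ((hA.add hA).add ((hζ 2 h2I).isCharacter.add (hζ 2 h2I).isCharacter)).isGen.sub
      (IsCharacter.sum _ fun j hj => (hζ j hj).isCharacter).isGen
  have hΨs : ∀ g, p ∣ orderOf g → Ψ g = 0 := fun g hg => by
    obtain ⟨v, hv, y, hy, e⟩ := exists_conj_sing h.hP hg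
    rw [hΨ.isClassFunction.eq_of_isConj e]
    have hy' := h.cen y y.2 (by simpa using hy)
    obtain ⟨c, hc⟩ := h.scal hy'
    have cm : Commute (v : G) y := mem_center_iff.1 hy' v
    have e1 : (v : G) * y * (v * y) = y * (y * (v ^ 2 : (P : Subgroup G))) := by
      rw [← sq, cm.mul_pow, (cm.pow_pow _ _).eq, sq (y : G), mul_assoc]; rfl
    simp only [Ψ, A, Pi.sub_apply, Pi.add_apply, Finset.sum_apply]
    rw [Finset.sum_congr rfl fun j hj => hsing j hj v hv y hy' c hc, hsing 2 h2I v hv y hy' c hc,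
      ← Finset.mul_sum, Finset.sum_add_distrib, hgeo v hv, hgeo v⁻¹ (inv_ne_one.2 hv), e1, hc, hc,
      cm.eq, hc, h.val v hv, h.val _ (hpow v hv 2 (hI 2 h2I)), ← inv_pow, map_pow, map_pow]
    have : (l v : ℂ) * l v⁻¹ = 1 := by rw [← Units.val_mul, ← map_mul]; simp
    push_cast
    linear_combination (2 * c ^ 2) * this
  have hΨr : ∀ g, ¬ p ∣ orderOf g → Ψ g = χ g ^ 2 - χ (g * g) - (p - 3) * χ (g ^ k) := fun g hg => by
    simp only [Ψ, A, Pi.sub_apply, Pi.add_apply, Finset.sum_apply]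
    rw [Finset.sum_congr rfl fun j hj => hreg j hj g hg, hreg 2 h2I g hg, Finset.sum_const,
      Nat.card_Ioo, nsmul_eq_mul, Nat.sub_zero, Nat.cast_sub (by omega)]
    push_cast; ring
  have hcnt : ((Finset.Ioo 0 p).filter fun i => ζ i = ζ 2).card ≤ 2 := by
    obtain ⟨x, hx⟩ : ∃ x : (P : Subgroup G), x ≠ 1 := by
      have := Finite.one_lt_card_iff_nontrivial.1 (hp.out.one_lt.trans_eq h.hP.symm)
      exact exists_ne 1
    refine le_trans (Finset.card_le_card (t := {2, p - 2}) fun i hi => ?_) Finset.card_le_two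
    obtain ⟨hi, e⟩ := Finset.mem_filter.1 hi
    have e1 := congrFun e (x * 1)
    rw [hsing i hi x hx 1 (one_mem _) 1 (by simp), hsing 2 h2I x hx 1 (one_mem _) 1 (by simp)] at e1
    have e0 : l x ≠ 1 := fun e => h.ne (by
      ext w
      obtain ⟨i, rfl⟩ := mem_zpowers_of_prime_card h.hP hx (g' := w)
      simp [e])
    have ho : orderOf (l x) = p := orderOf_eq_prime (by
      rw [← map_pow, hvp, map_one]) e0
    have e2 : (l x : ℂ) * l x⁻¹ = 1 := by rw [← Units.val_mul, ← map_mul]; simp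
    have e3 : ((l x : ℂ) ^ i - l x ^ 2) * (l x ^ (i + 2) - 1) = 0 := by
      have a1 : (l x : ℂ) ^ i * l x⁻¹ ^ i = 1 := by rw [← mul_pow, e2, one_pow]
      have a2 : (l x : ℂ) ^ 2 * l x⁻¹ ^ 2 = 1 := by rw [← mul_pow, e2, one_pow]
      rw [pow_add]
      linear_combination (-(l x : ℂ) ^ i * l x ^ 2) * e1 - (l x : ℂ) ^ 2 * a1 + (l x : ℂ) ^ i * a2
    rw [Finset.mem_Ioo] at hi
    rw [Finset.mem_insert, Finset.mem_singleton]
    rcases mul_eq_zero.1 e3 with e4 | e4
    · left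
      have : l x ^ i = l x ^ 2 := Units.ext (by push_cast; exact sub_eq_zero.1 e4)
      exact pow_injOn_Iio_orderOf (by rw [ho]; exact hi.2) (by rw [ho]; simp; omega) this
    · right
      have : l x ^ (i + 2) = 1 := Units.ext (by push_cast; exact sub_eq_zero.1 e4)
      obtain ⟨c, hc⟩ := ho ▸ orderOf_dvd_of_pow_eq_one this
      have : c = 1 := by
        rcases c with _ | _ | c
        · omega
        · rfl
        · nlinarith
      subst this
      omega
  have h2n : 0 ≤ (classInner Ψ (ζ 2)).re := by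
    obtain ⟨a, ha⟩ := hA.exists_classInner_nat (hζ 2 h2I).isCharacter
    simp only [Ψ, classInner_sub_left, classInner_add_left, classInner_sum_left, ha,
      (hζ 2 h2I).classInner_self]
    rw [Finset.sum_congr rfl fun j hj => (hζ j hj).classInner_eq (hζ 2 h2I), Finset.sum_boole]
    have : (((Finset.Ioo 0 p).filter fun i => ζ i = ζ 2).card : ℝ) ≤ 2 := by exact_mod_cast hcnt
    simp only [Complex.sub_re, Complex.add_re, Complex.natCast_re, Complex.one_re]
    have : (0 : ℝ) ≤ a := by positivity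
    linarith
  have hch : IsCharacter G Ψ := hΨ.isCharacter_of_nonneg fun ψ hψ => by
    by_cases hj : ∃ j ∈ Finset.Ioo 0 p, ψ = ζ j
    · obtain ⟨j, hj, rfl⟩ := hj
      have : classInner Ψ (ζ j - ζ 2) = 0 := by
        rw [classInner, Finset.sum_eq_zero fun g _ => ?_, mul_zero]
        by_cases hg : p ∣ orderOf g
        · rw [hΨs g hg, zero_mul]
        · rw [Pi.sub_apply, hreg j hj g hg, hreg 2 h2I g hg, sub_self, map_zero, mul_zero]
      rw [classInner_sub_right, sub_eq_zero] at this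
      rwa [this]
    · obtain ⟨a, ha⟩ := hA.exists_classInner_nat hψ.isCharacter
      have h0 : ∀ j ∈ Finset.Ioo 0 p, classInner (ζ j) ψ = 0 := fun j hj' =>
        (hζ j hj').classInner_of_ne hψ fun e => hj ⟨j, hj', e.symm⟩
      simp only [Ψ, classInner_sub_left, classInner_add_left, classInner_sum_left, ha, h0 2 h2I]
      rw [Finset.sum_eq_zero h0]
      simp
  have h0 := hch.eq_zero_of_apply_one (by
    rw [hΨr 1 (by simpa using hp.out.ne_one), one_pow, mul_one, h.one]; ring)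
  intro g hg
  have := hΨr g hg
  rw [h0, Pi.zero_apply] at this
  linear_combination -this

omit h hp [Finite G] in
theorem iter_sq {g : G} (hg : ¬ 2 ∣ orderOf g) (f : G → ℝ)
    (hf : ∀ n : ℕ, f (g ^ 2 ^ (n + 1)) = f (g ^ 2 ^ n) ^ 2) (h0 : 0 ≤ f g) : f g = 0 ∨ f g = 1 := by
  have h1 : ∀ n : ℕ, f (g ^ 2 ^ n) = f g ^ 2 ^ n := fun n => by
    induction n with
    | zero => simp
    | succ n ih => rw [hf, ih, ← pow_mul, ← pow_succ]
  have h2 := h1 (orderOf g).totient
  rw [pow_eq_of_modEq (Nat.ModEq.pow_totient ((Nat.Prime.coprime_iff_not_dvd Nat.prime_two).2 hg))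
    dvd_rfl, pow_one] at h2
  have h3 : 0 < (orderOf g).totient := Nat.totient_pos.2 (Nat.pos_of_ne_zero fun e => hg (e ▸ dvd_zero 2))
  have h4 := Nat.one_lt_two_pow (n := (orderOf g).totient) h3.ne'
  obtain ⟨m, hm⟩ : ∃ m, 2 ^ (orderOf g).totient = m + 1 + 1 := ⟨_, (Nat.sub_add_cancel h4).symm⟩
  rw [hm, pow_succ] at h2
  by_cases h5 : f g = 0
  · exact Or.inl h5
  · exact Or.inr ((pow_eq_one_iff_of_nonneg h0 (Nat.succ_ne_zero m)).1
      (mul_right_cancel₀ h5 (by rw [← h2, one_mul])))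

theorem norm_one : ‖χ 1‖ = p - 2 := by
  rw [h.irr.isCharacter.norm_apply_one, ← h.deg]; push_cast; ring

theorem odd_zero {g : G} (a : ¬ 2 ∣ orderOf g) (b : ¬ p ∣ orderOf g) (c : g ∉ center G) :
    χ g = 0 := by
  obtain ⟨k, k2, -, hk⟩ := h.quad_rel
  have h5 : (5 : ℝ) < p := by exact_mod_cast h.h5
  have h0 : (0 : ℝ) < p - 2 := by linarith
  rcases iter_sq a (fun x => ‖χ x‖ / (p - 2)) (fun n => by
    have a' : ¬ 2 ∣ orderOf (g ^ 2 ^ n) := fun e => a (e.trans (orderOf_pow_dvd _))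
    have b' : ¬ p ∣ orderOf (g ^ 2 ^ n) := fun e => b (e.trans (orderOf_pow_dvd _))
    have e := hk _ b'
    rw [k2 _ a' b', ← sq, ← pow_mul, ← pow_succ] at e
    have e2 : χ (g ^ 2 ^ n) ^ 2 = ((p - 2 : ℝ) : ℂ) * χ (g ^ 2 ^ (n + 1)) := by
      push_cast; linear_combination e
    have e3 := congrArg norm e2
    rw [norm_pow, norm_mul, Complex.norm_real, Real.norm_of_nonneg h0.le] at e3
    rw [div_pow, e3]; field_simp) (by positivity) with e | e
  · simpa [h0.ne'] using e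
  · exact absurd (h.cc ▸ h.irr.mem_charCenter.2 (by
      rw [h.norm_one]; exact (div_eq_one_iff_eq h0.ne').1 e)) c

theorem reg_two {g : G} {j : ℕ} (hg : g ^ 2 ^ j = 1) : ¬ p ∣ orderOf g := fun e =>
  h.p2 (((Nat.prime_dvd_prime_iff_eq hp.out Nat.prime_two).1
    (hp.out.dvd_of_dvd_pow (e.trans (orderOf_dvd_of_pow_eq_one hg)))) ▸ dvd_rfl)

theorem inv_val {t : G} (ht : t * t = 1) (h1 : t ≠ 1) : χ t = -1 := by
  obtain ⟨k, -, k1, hk⟩ := h.quad_rel
  have ht' : t ^ 2 ^ 1 = 1 := by rw [pow_one, sq, ht]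
  have e := hk t (h.reg_two ht')
  rw [k1 t 1 ht', ht, h.one] at e
  have : (χ t + 1) * (χ t - χ 1) = 0 := by rw [h.one]; linear_combination e
  rcases mul_eq_zero.1 this with e | e
  · linear_combination e
  · exact absurd (h.faith t (sub_eq_zero.1 e)) h1

theorem no_four {s : G} (hs : s ^ 4 = 1) : s * s = 1 := by
  by_contra hne
  obtain ⟨k, -, k1, hk⟩ := h.quad_rel
  have hs' : s ^ 2 ^ 2 = 1 := hs
  have e := hk s (h.reg_two hs')
  rw [k1 s 2 hs', h.inv_val (t := s * s) (by rw [← hs]; simp [pow_succ, mul_assoc]) hne] at e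
  have h5 : (5 : ℝ) < p := by exact_mod_cast h.h5
  have hre : conj (χ s) = χ s := by
    have e' := congrArg conj e
    simp only [map_sub, map_pow, map_mul, map_neg, map_one, map_natCast, map_ofNat] at e'
    have : (conj (χ s) - χ s) * (conj (χ s) + χ s - (p - 3)) = 0 := by linear_combination e' - e
    rcases mul_eq_zero.1 this with e1 | e1
    · exact sub_eq_zero.1 e1
    · exfalso
      have e2 : χ s * conj (χ s) = 1 := by linear_combination (χ s) * e1 - e
      rw [Complex.mul_conj, Complex.normSq_apply] at e2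
      have e3 := congrArg Complex.re e1
      have e4 : (χ s).re * (χ s).re + (χ s).im * (χ s).im = 1 := by exact_mod_cast e2
      simp at e3
      nlinarith [mul_self_nonneg (χ s).im]
  obtain ⟨n, hn⟩ := h.irr.isCharacter.exists_int_of_forall_pow (g := s) fun j hj => by
    have h2 : ¬ 2 ∣ j := fun e2 => by
      have h3 : 2 ∣ orderOf s := by
        obtain ⟨i, -, hi⟩ := (Nat.dvd_prime_pow Nat.prime_two).1 (orderOf_dvd_of_pow_eq_one hs')
        rcases i with _ | i
        · exact absurd (by rw [orderOf_eq_one_iff.1 hi, mul_one]) hne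
        · rw [hi]; exact dvd_pow_self 2 (by omega)
      exact absurd (Nat.eq_one_of_dvd_coprimes hj e2 h3) (by omega)
    have h4 : j % 4 = 1 ∨ j % 4 = 3 := by omega
    rw [pow_eq_pow_mod j hs]
    rcases h4 with h4 | h4 <;> rw [h4]
    · rw [pow_one]
    · rw [show s ^ 3 = s⁻¹ from eq_inv_of_mul_eq_one_left (by rw [← pow_succ, hs]),
        h.irr.apply_inv, hre]
  rw [hn] at e
  have e2 : n * (p - 3 - n) = 1 := by
    apply Int.cast_injective (α := ℂ); push_cast; linear_combination -e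
  have := h.h5
  rcases Int.eq_one_or_neg_one_of_mul_eq_one' e2 with ⟨a, b⟩ | ⟨a, b⟩ <;> omega

theorem two_elt {j : ℕ} {g : G} (hg : g ^ 2 ^ j = 1) : g * g = 1 := by
  induction j with
  | zero => rw [pow_zero, pow_one] at hg; rw [hg, mul_one]
  | succ j ih =>
    rcases j with _ | j
    · rw [← sq]; simpa using hg
    · apply ih
      have := h.no_four (s := g ^ 2 ^ j) (by rw [← pow_mul, ← hg]; congr 1; ring)
      rw [← this, ← pow_add]; congr 1; ring

theorem reg_of_comm {t g : G} (ht : t * t = 1) (h1 : t ≠ 1) (c : Commute t g) : ¬ p ∣ orderOf g := by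
  intro e
  obtain ⟨x, hx, hx1, c', hc'⟩ := exists_isConj_mem h.hP (y := g ^ (orderOf g / p))
    (orderOf_pow_orderOf_div (orderOf_pos g).ne' e)
  have h2 : (c' : G)⁻¹ * t * c' ∈ cC (P : Subgroup G) := by
    rw [cC, ← centralizer_eq_of_card_prime h.hP hx hx1, mem_centralizer_singleton_iff]
    have e1 : (c' : G) * x = g ^ (orderOf g / p) * c' := hc'
    have e2 := (c.pow_right (orderOf g / p)).eq
    calc _ = (c' : G)⁻¹ * t * (c' * x) := by group
      _ = (c' : G)⁻¹ * (g ^ (orderOf g / p) * c') * ((c' : G)⁻¹ * t * c') := by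
        rw [e1, mul_assoc, ← mul_assoc t, e2]; group
      _ = _ := by rw [← e1]; group
  have h3 : orderOf ((c' : G)⁻¹ * t * c') = 2 := orderOf_eq_prime (by
    rw [sq]; calc _ = (c' : G)⁻¹ * (t * t) * c' := by group
      _ = 1 := by rw [ht]; group) (fun e => h1 (by
        calc t = c' * ((c' : G)⁻¹ * t * c') * (c' : G)⁻¹ := by group
          _ = 1 := by rw [e]; group))
  exact h.odd_cen (h.cen _ h2 (by
    rw [h3]; exact fun e => h.p2 ((Nat.prime_dvd_prime_iff_eq hp.out Nat.prime_two).1 e ▸ dvd_rfl)))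
    h3.symm.dvd

theorem cen_of_comm {t g : G} (ht : t * t = 1) (h1 : t ≠ 1) (c : Commute t g)
    (hg : ¬ 2 ∣ orderOf g) : g ∈ center G := by
  classical
  haveI := Fintype.ofFinite G
  obtain ⟨k, k2, k1, hk⟩ := h.quad_rel
  have h5 : (5 : ℝ) < p := by exact_mod_cast h.h5
  let H := zpowers g
  have cH : ∀ a : H, Commute t a := fun ⟨_, ⟨i, rfl⟩⟩ => c.zpow_right i
  have oH : ∀ a : H, ¬ 2 ∣ orderOf (a : G) := fun a e =>
    hg (e.trans (orderOf_dvd_of_mem_zpowers a.2))
  have rH : ∀ a : H, ¬ p ∣ orderOf (a : G) := fun a => h.reg_of_comm ht h1 (cH a)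
  have sq_cen : ∀ (a : G) (n : ℕ), ¬ 2 ∣ orderOf a → a ^ 2 ^ n ∈ center G → a ∈ center G :=
    fun a n ha hc => by
    obtain ⟨m, hm⟩ := exists_pow_eq_self_of_coprime (x := a) (n := 2 ^ n)
      (Nat.Coprime.pow_left _ ((Nat.Prime.coprime_iff_not_dvd Nat.prime_two).2 ha))
    rw [← hm]; exact pow_mem hc m
  obtain ⟨n, M, hM⟩ := h.irr.isCharacter.exists_matrixHom
  have hch : ∀ ε : ℂ, ε * ε = 1 → IsCharacter H fun a => (χ a + ε * χ (t * a)) / 2 := fun ε hε => by
    have := isCharacter_trace_mul_idem (M.comp H.subtype) ((2 : ℂ)⁻¹ • (1 + ε • M t)) (by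
      simp only [smul_mul_assoc, mul_smul_comm, mul_add, add_mul, one_mul, mul_one, ← map_mul, ht,
        map_one, smul_add, smul_smul]
      match_scalars
      · linear_combination (1 / 4 : ℂ) * hε
      · ring) (fun a => by
      simp only [smul_mul_assoc, mul_smul_comm, mul_add, add_mul, one_mul, mul_one,
        MonoidHom.comp_apply, ← map_mul, Subgroup.coe_subtype, (cH a).eq])
    convert this using 2 with a
    simp only [mul_smul_comm, mul_add, mul_one, MonoidHom.comp_apply, ← map_mul,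
      Subgroup.coe_subtype, Matrix.trace_smul, Matrix.trace_add, ← hM, (cH a).eq, smul_eq_mul]
    ring
  have hp' := hch 1 (by simp)
  have hm' := hch (-1) (by simp)
  let φ : H → ℂ := fun a => χ (t * a)
  have hφ : IsGeneralizedCharacter H φ := by
    convert hp'.isGen.sub hm'.isGen using 1
    ext a; simp only [φ, Pi.sub_apply]; ring
  have hmul : ∀ z : H, (z : G) ∈ center G → ∀ a : H, ‖φ (a * z)‖ = ‖φ a‖ := fun z hz a => by
    obtain ⟨c, hc⟩ := h.scal hz
    have e1 : ‖c‖ = 1 := by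
      have e2 := h.irr.mem_charCenter.1 (h.cc ▸ hz)
      rw [← mul_one (z : G), hc, norm_mul] at e2
      exact mul_right_cancel₀ (norm_ne_zero_iff.2 h.irr.apply_one_ne_zero) (by rw [e2, one_mul])
    simp only [φ, Subgroup.coe_mul]
    rw [← mul_assoc, mem_center_iff.1 hz, hc, norm_mul, e1, one_mul]
  have φ1 : ‖φ 1‖ = 1 := by simp [φ, h.inv_val ht h1]
  let Z : Finset H := Finset.univ.filter fun a => (a : G) ∈ center G
  have hZ : ∀ a : H, a ∈ Z ↔ (a : G) ∈ center G := fun a => by simp [Z]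
  have hZ0 : (0 : ℝ) < Z.card := by exact_mod_cast Finset.card_pos.2 ⟨1, (hZ 1).2 (one_mem _)⟩
  have hφ0 : ∀ a : H, (a : G) ∉ center G → φ a = 0 := fun a ha => by
    by_contra hne
    have h0 : (0 : ℝ) < p - 3 := by linarith
    have hv : ‖φ a‖ = p - 3 := by
      rcases iter_sq (oH a) (fun x => ‖χ (t * x)‖ / (p - 3)) (fun n => by
        have ca : Commute t ((a : G) ^ 2 ^ n) := (cH a).pow_right _
        have a' : ¬ 2 ∣ orderOf ((a : G) ^ 2 ^ n) := fun e => oH a (e.trans (orderOf_pow_dvd _))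
        have b' : ¬ p ∣ orderOf ((a : G) ^ 2 ^ n) := h.reg_of_comm ht h1 ca
        have e := hk (t * (a : G) ^ 2 ^ n) (h.reg_of_comm ht h1 ((Commute.refl t).mul_right ca))
        rw [ca.mul_pow, k2 _ a' b', k1 t 1 (by rw [pow_one, sq, ht]), ← sq, ca.mul_pow, sq t, ht,
          one_mul, ← pow_mul, ← pow_succ, h.odd_zero (g := (a : G) ^ 2 ^ (n + 1))
            (fun e => oH a (e.trans (orderOf_pow_dvd _)))
            (fun e => rH a (e.trans (orderOf_pow_dvd _)))
            (fun e => ha (sq_cen _ _ (oH a) e)), sub_zero] at e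
        have e2 : χ (t * (a : G) ^ 2 ^ n) ^ 2 = ((p - 3 : ℝ) : ℂ) * χ (t * (a : G) ^ 2 ^ (n + 1)) := by
          push_cast; exact e
        have e3 := congrArg norm e2
        rw [norm_pow, norm_mul, Complex.norm_real, Real.norm_of_nonneg h0.le] at e3
        rw [div_pow, e3]; field_simp) (by positivity) with e | e
      · exact absurd (by simpa [h0.ne'] using e) hne
      · exact (div_eq_one_iff_eq h0.ne').1 e
    have hv' : ‖φ a⁻¹‖ = p - 3 := by
      rw [← hv]
      simp only [φ, Subgroup.coe_inv]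
      rw [show t * (a : G)⁻¹ = (t * a)⁻¹ by
        rw [(cH a).eq, mul_inv_rev, inv_eq_of_mul_eq_one_left ht], h.irr.apply_inv,
        Complex.norm_conj]
    obtain ⟨m, hm⟩ := hp'.exists_classInner_nat hm'
    have e1 : ∑ b : H, ‖φ b‖ ^ 2 ≤ ∑ b : H, ‖χ b‖ ^ 2 := by
      have e2 := card_mul_classInner (fun a : H => (χ a + 1 * χ (t * a)) / 2)
        (fun a : H => (χ a + -1 * χ (t * a)) / 2)
      rw [hm] at e2
      have e3 := congrArg Complex.re e2
      rw [Complex.re_sum, Finset.sum_congr rfl (g := fun b : H => (‖χ b‖ ^ 2 - ‖φ b‖ ^ 2) / 4)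
        (fun b _ => by
          simp only [φ, Complex.sq_norm, Complex.normSq_apply, map_div₀, map_ofNat]
          simp; ring), ← Finset.sum_div, Finset.sum_sub_distrib, ← Nat.cast_mul,
        Complex.natCast_re] at e3
      have : (0 : ℝ) ≤ (Nat.card H * m : ℕ) := by positivity
      linarith
    have e4 : ∑ b : H, ‖χ b‖ ^ 2 = Z.card * (p - 2) ^ 2 := by
      rw [← Finset.sum_subset (Finset.subset_univ Z) fun b _ hb => by
        rw [h.odd_zero (oH b) (rH b) (mt (hZ b).2 hb)]; simp,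
        Finset.sum_congr rfl (g := fun _ => ((p : ℝ) - 2) ^ 2) fun b hb => by
          rw [h.irr.mem_charCenter.1 (h.cc ▸ (hZ b).1 hb), h.norm_one],
        Finset.sum_const, nsmul_eq_mul]
    have e5 : Z.card * (p - 3) ^ 2 + Z.card * (p - 3) ^ 2 ≤ ∑ b : H, ‖φ b‖ ^ 2 := by
      have d1 : Disjoint (Z.image (a * ·)) (Z.image (a⁻¹ * ·)) := by
        rw [Finset.disjoint_left]
        intro b hb hb'
        obtain ⟨z, hz, rfl⟩ := Finset.mem_image.1 hb
        obtain ⟨z', hz', e⟩ := Finset.mem_image.1 hb'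
        refine ha (sq_cen _ 1 (oH a) ?_)
        have e' : (a : G)⁻¹ * z' = a * z := congrArg Subtype.val e
        have : (a : G) ^ 2 ^ 1 = z' * (z : G)⁻¹ := by
          calc _ = a * (a * z) * (z : G)⁻¹ := by rw [pow_one, sq]; group
            _ = _ := by rw [← e']; group
        rw [this]
        exact mul_mem ((hZ _).1 hz') (inv_mem ((hZ _).1 hz))
      refine le_trans (le_of_eq ?_) (Finset.sum_le_univ_sum_of_nonneg
        (s := Z.image (a * ·) ∪ Z.image (a⁻¹ * ·)) fun _ => by positivity)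
      rw [Finset.sum_union d1, Finset.sum_image fun _ _ _ _ e => mul_left_cancel e,
        Finset.sum_image fun _ _ _ _ e => mul_left_cancel e,
        Finset.sum_congr rfl fun z hz => by rw [hmul z ((hZ z).1 hz), hv],
        Finset.sum_congr rfl (s₁ := Z) (f := fun z => ‖φ (a⁻¹ * z)‖ ^ 2) fun z hz => by
          rw [hmul z ((hZ z).1 hz), hv']]
      simp
    have h6 : (7 : ℝ) ≤ p := by
      have := h.h5
      have := h.p2
      exact_mod_cast (by omega : 7 ≤ p)
    have : ((p : ℝ) - 2) ^ 2 < (p - 3) ^ 2 + (p - 3) ^ 2 := by nlinarith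
    nlinarith
  obtain ⟨m, hm⟩ := hφ.exists_classInner_self_nat
  have e1 : (Nat.card H : ℝ) * m = Z.card := by
    have e2 := classInner_self φ
    rw [hm, ← Finset.sum_subset (Finset.subset_univ Z) fun b _ hb => by
        rw [hφ0 b (mt (hZ b).2 hb)]; simp,
      Finset.sum_congr rfl (g := fun _ => (1 : ℝ)) fun b hb => by
        rw [← one_mul b, hmul b ((hZ b).1 hb), φ1, one_pow]] at e2
    have e3 : (m : ℝ) = (Nat.card H : ℝ)⁻¹ * ∑ _b ∈ Z, (1 : ℝ) := by exact_mod_cast e2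
    rw [e3, mul_inv_cancel_left₀ (by exact_mod_cast Nat.card_pos.ne')]
    simp
  have e4 : Nat.card H * m = Z.card := by exact_mod_cast e1
  have e5 : Z = Finset.univ := by
    apply Finset.eq_univ_of_card
    have a1 := Finset.card_le_univ Z
    have a2 : 0 < Z.card := by exact_mod_cast hZ0
    rw [← Nat.card_eq_fintype_card] at a1 ⊢
    rcases m with _ | m
    · omega
    · nlinarith
  exact (hZ ⟨g, mem_zpowers g⟩).1 (e5 ▸ Finset.mem_univ _)

theorem sq_mem {t g : G} (ht : t * t = 1) (h1 : t ≠ 1) (c : Commute t g) :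
    ∃ s, s * s = 1 ∧ Commute t s ∧ ∃ z ∈ center G, g = s * z := by
  have h0 := (orderOf_pos g).ne'
  obtain ⟨j, m, hm, e⟩ := Nat.exists_eq_two_pow_mul_odd h0
  have hc : Nat.Coprime (2 ^ j) m := Nat.Coprime.pow_left _ (Nat.coprime_two_left.2 hm)
  obtain ⟨a, a1, a2⟩ := Nat.chineseRemainder hc 1 0
  obtain ⟨b, b1, b2⟩ := Nat.chineseRemainder hc 0 1
  refine ⟨g ^ a, h.two_elt (j := j) ?_, c.pow_right a, g ^ b, h.cen_of_comm ht h1 (c.pow_right b) ?_, ?_⟩
  · rw [← pow_mul, ← orderOf_dvd_iff_pow_eq_one, e, mul_comm]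
    exact Nat.mul_dvd_mul_right ((Nat.modEq_zero_iff_dvd).1 a2) _
  · intro h2
    have : orderOf (g ^ b) ∣ m := by
      rw [orderOf_dvd_iff_pow_eq_one, ← pow_mul, ← orderOf_dvd_iff_pow_eq_one, e]
      exact Nat.mul_dvd_mul_right ((Nat.modEq_zero_iff_dvd).1 b1) _
    exact hm.not_two_dvd_nat (h2.trans this)
  · rw [← pow_add]
    conv_lhs => rw [← pow_one g]
    refine pow_eq_pow_iff_modEq.2 ?_
    rw [e]
    exact ((Nat.modEq_and_modEq_iff_modEq_mul hc).1 ⟨a1.add b1, a2.add b2⟩).symm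

theorem comm {t : G} (ht : orderOf t = 2) : IsMulCommutative (centralizer ({t} : Set G)) := by
  have t2 : t * t = 1 := by rw [← sq, ← ht, pow_orderOf_eq_one]
  have t1 : t ≠ 1 := by rintro rfl; simp at ht
  refine ⟨⟨fun a b => Subtype.ext ?_⟩⟩
  obtain ⟨s, s2, cs, z, hz, ea⟩ := h.sq_mem t2 t1 (mem_centralizer_singleton_iff.1 a.2).symm
  obtain ⟨r, r2, cr, w, hw, eb⟩ := h.sq_mem t2 t1 (mem_centralizer_singleton_iff.1 b.2).symm
  obtain ⟨u, u2, -, y, hy, e⟩ := h.sq_mem t2 t1 (cs.mul_right cr)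
  have e1 : s * r * (s * r) = y * y := by
    rw [e, mul_assoc, ← mul_assoc y, ← mem_center_iff.1 hy u, mul_assoc, ← mul_assoc, u2, one_mul]
  have e2 : (y * y) * (y * y) = 1 := by
    have hs : s⁻¹ = s := inv_eq_of_mul_eq_one_left s2
    have : s * (y * y) = y * y * s := mem_center_iff.1 (mul_mem hy hy) s
    have e3 : y * y = r * s * (r * s) := by
      calc y * y = s * (y * y) * s := by rw [this, mul_assoc, s2, mul_one]
        _ = (s * s) * (r * s * (r * s)) := by rw [← e1]; group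
        _ = _ := by rw [s2, one_mul]
    conv_lhs => enter [1]; rw [← e1]
    rw [e3]
    calc _ = s * (r * (s * (r * r) * s) * r) * s := by group
      _ = 1 := by rw [r2, mul_one, s2, mul_one, r2, mul_one, s2]
  have e4 : y * y = 1 := by
    by_contra hne
    exact h.odd_cen (mul_mem hy hy) (orderOf_eq_prime (by rw [sq, e2]) hne).symm.dvd
  have e5 : s * r = r * s := by
    rw [e4] at e1
    calc s * r = (r * r) * (s * r) * (s * s) := by rw [r2, s2]; group
      _ = r * (r * s * r * s) * s := by group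
      _ = r * (s * (s * r * (s * r)) * s) * s := by
        rw [show s * (s * r * (s * r)) * s = (s * s) * r * s * r * s by group, s2, one_mul]
      _ = _ := by rw [e1, mul_one, s2, mul_one]
  show (a : G) * b = b * a
  rw [ea, eb]
  calc s * z * (r * w) = s * r * (z * w) := by
        rw [mul_assoc, ← mul_assoc z, ← mem_center_iff.1 hz r]; group
    _ = r * s * (w * z) := by rw [e5, mem_center_iff.1 hz w]
    _ = _ := by rw [mul_assoc r w, ← mul_assoc w, ← mem_center_iff.1 hw s]; group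

end FT

end H8
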