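import Cfsg.Agent.H8.Sig
import Cfsg.Agent.H8.Gal

/-! The Galois action of `(ZMod |G|)ˣ` on `IrrCharacter G` (`H8.galAct`), congruence subgroups
`H8.cong`, integrality of orbit averages (`H8.isIntegral_orbit_avg`). -/

open H5 Cfsg
open scoped ComplexConjugate

namespace H8

section units
variable {m t : ℕ} [NeZero m]

omit [NeZero m] in
/-- units congruent to `1` modulo `t` -/
abbrev cong (ht : t ∣ m) : Subgroup (ZMod m)ˣ := (ZMod.unitsMap ht).ker

theorem mem_cong {ht : t ∣ m} {u : (ZMod m)ˣ} : u ∈ cong ht ↔ (u : ZMod m).val ≡ 1 [MOD t] := by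
  rw [MonoidHom.mem_ker, Units.ext_iff, ZMod.unitsMap_val, ← ZMod.natCast_eq_natCast_iff,
    ZMod.natCast_val]
  simp

theorem index_cong (ht : t ∣ m) : (cong ht).index = t.totient := by
  haveI : NeZero t := ⟨fun e => NeZero.ne m (by simpa [e] using ht)⟩
  rw [Subgroup.index_ker, MonoidHom.range_eq_top.2 (ZMod.unitsMap_surjective ht),
    Subgroup.card_top, Nat.card_eq_fintype_card, ZMod.card_units_eq_totient]

theorem pow_eq_pow_of_modEq' {M : Type*} [Monoid M] {ε : M} {a b t : ℕ} (h : ε ^ t = 1)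
    (e : a ≡ b [MOD t]) : ε ^ a = ε ^ b := by
  rw [← Nat.div_add_mod a t, ← Nat.div_add_mod b t, pow_add, pow_add, pow_mul, pow_mul, h,
    one_pow, one_pow, e]

theorem sum_cong_pow (ht : t ∣ m) (hrad : ∀ q : ℕ, q.Prime → q ∣ m → q ∣ t) [Fintype (cong ht)]
    {ε : ℂ} (hε : ε ^ m = 1) :
    ∑ u : cong ht, ε ^ ((u : (ZMod m)ˣ) : ZMod m).val =
      if ε ^ t = 1 then (Nat.card (cong ht) : ℂ) * ε else 0 := by
  split_ifs with h
  · rw [Finset.sum_congr rfl fun (u : cong ht) _ => (pow_eq_pow_of_modEq' h (mem_cong.1 u.2))]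
    simp
  · have hc : ∀ u : (ZMod m)ˣ, ((u : ZMod m).val + t).Coprime m := fun u =>
      Nat.coprime_of_dvd fun q hq h1 h2 => hq.one_lt.ne' (Nat.dvd_one.1
        (ZMod.val_coe_unit_coprime u ▸ Nat.dvd_gcd ((Nat.dvd_add_left (hrad q hq h2)).1 h1) h2))
    have hv : ∀ u : (ZMod m)ˣ, ((ZMod.unitOfCoprime _ (hc u) : (ZMod m)ˣ) : ZMod m).val ≡
        (u : ZMod m).val + t [MOD m] := fun u => by
      rw [ZMod.coe_unitOfCoprime, ZMod.val_natCast]; exact Nat.mod_modEq _ _
    let τ : cong ht → cong ht := fun u => ⟨ZMod.unitOfCoprime _ (hc u), mem_cong.2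
      (((hv u).of_dvd ht).trans (by simpa using mem_cong.1 u.2))⟩
    have hτ : Function.Injective τ := fun u v e => by
      have := congrArg (fun x : cong ht => ((x : (ZMod m)ˣ) : ZMod m)) e
      simp only [τ, ZMod.coe_unitOfCoprime, Nat.cast_add, ZMod.natCast_val, ZMod.cast_id', id_eq,
        add_left_inj] at this
      exact Subtype.ext (Units.ext this)
    have e := (Finite.injective_iff_bijective.1 hτ).sum_comp
      (fun u : cong ht => ε ^ ((u : (ZMod m)ˣ) : ZMod m).val)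
    have e2 : ∀ u : cong ht, ε ^ (((τ u : cong ht) : (ZMod m)ˣ) : ZMod m).val =
        ε ^ ((u : (ZMod m)ˣ) : ZMod m).val * ε ^ t := fun u => by
      rw [← pow_add]; exact pow_eq_pow_of_modEq' hε (hv u)
    simp only [e2, ← Finset.sum_mul] at e
    exact (mul_right_eq_self₀.1 e).resolve_left h

end units

variable {G : Type*} [Group G] [Finite G]

instance instNeZeroCardNat : NeZero (Nat.card G) := ⟨Nat.card_pos.ne'⟩

/-- the Galois action on irreducible characters -/
@[reducible] noncomputable def galAct (G : Type*) [Group G] [Finite G] :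
    MulAction (ZMod (Nat.card G))ˣ (IrrCharacter G) where
  smul u χ := ipw (ZMod.val_coe_unit_coprime u) χ
  one_smul χ := Subtype.ext (funext fun g => congrArg χ.1 (by
    rw [pow_eq_pow_of_modEq' (pow_card_eq_one' (x := g)) (b := 1), pow_one]
    rw [Units.val_one, ZMod.val_one_eq_one_mod]; exact Nat.mod_modEq _ _))
  mul_smul u v χ := Subtype.ext (funext fun g => congrArg χ.1 (by
    rw [← pow_mul]
    refine pow_eq_pow_of_modEq' (pow_card_eq_one' (x := g)) ?_
    rw [Units.val_mul, ZMod.val_mul]; exact Nat.mod_modEq _ _))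

attribute [local instance] galAct

theorem galAct_apply (u : (ZMod (Nat.card G))ˣ) (χ : IrrCharacter G) (g : G) :
    (u • χ).1 g = χ.1 (g ^ (u : ZMod (Nat.card G)).val) := rfl

theorem galAct_apply_of_mem {t : ℕ} {ht : t ∣ Nat.card G} {u : (ZMod (Nat.card G))ˣ}
    (hu : u ∈ cong ht) (χ : IrrCharacter G) {g : G} (hg : g ^ t = 1) : (u • χ).1 g = χ.1 g := by
  rw [galAct_apply, pow_eq_pow_of_modEq' hg (mem_cong.1 hu), pow_one]

theorem mem_orbit_cong_iff {t : ℕ} (ht : t ∣ Nat.card G) (χ ψ : IrrCharacter G) :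
    ψ ∈ MulAction.orbit (cong ht) χ ↔ ∃ σ : ℂ ≃+* ℂ,
      σ (Complex.exp (2 * Real.pi * Complex.I / t)) = Complex.exp (2 * Real.pi * Complex.I / t) ∧
        (ψ : G → ℂ) = fun g => σ ((χ : G → ℂ) g) := by
  have ht0 : t ≠ 0 := fun e => Nat.card_pos.ne' (by simpa [e] using ht)
  have hζ := Complex.isPrimitiveRoot_exp t ht0
  have hζm : Complex.exp (2 * Real.pi * Complex.I / t) ^ Nat.card G = 1 :=
    (hζ.pow_eq_one_iff_dvd _).2 ht
  constructor
  · rintro ⟨⟨u, hu⟩, rfl⟩
    obtain ⟨σ, hσ⟩ := exists_ringEquiv_pow Nat.card_pos (ZMod.val_coe_unit_coprime u)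
    refine ⟨σ, ?_, funext fun g => ?_⟩
    · rw [hσ _ hζm, pow_eq_pow_of_modEq' hζ.pow_eq_one (mem_cong.1 hu), pow_one]
    · exact (χ.2.isCharacter.ringHom_apply σ.toRingHom hσ pow_card_eq_one').symm
  · rintro ⟨σ, h1, h2⟩
    obtain ⟨k, hk, hσ⟩ := exists_pow_of_ringHom σ.toRingHom (Nat.card_pos (α := G))
    have hv : ((ZMod.unitOfCoprime k hk : (ZMod (Nat.card G))ˣ) : ZMod (Nat.card G)).val ≡ k
        [MOD Nat.card G] := by
      rw [ZMod.coe_unitOfCoprime, ZMod.val_natCast]; exact Nat.mod_modEq _ _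
    refine ⟨⟨ZMod.unitOfCoprime k hk, mem_cong.2 ((hv.of_dvd ht).trans ?_)⟩, Subtype.ext ?_⟩
    · have e : Complex.exp (2 * Real.pi * Complex.I / t) ^ k =
          Complex.exp (2 * Real.pi * Complex.I / t) ^ 1 := by
        rw [← hσ _ hζm, pow_one]; exact h1
      have := (hζ.isOfFinOrder ht0).pow_eq_pow_iff_modEq.1 e
      rwa [← hζ.eq_orderOf] at this
    · rw [h2]
      funext g
      change χ.1 (g ^ _) = _
      rw [pow_eq_pow_of_modEq' pow_card_eq_one' hv]
      exact (χ.2.isCharacter.ringHom_apply σ.toRingHom hσ pow_card_eq_one').symm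

theorem sum_smul_eq {Γ X : Type*} [Group Γ] [Fintype Γ] [MulAction Γ X] (x : X)
    [Fintype (MulAction.orbit Γ x)] (f : X → ℂ) :
    ∑ u : Γ, f (u • x) = Nat.card (MulAction.stabilizer Γ x) * ∑ y : MulAction.orbit Γ x, f y := by
  classical
  rw [← Finset.sum_fiberwise (s := Finset.univ)
    (g := fun u : Γ => (⟨u • x, u, rfl⟩ : MulAction.orbit Γ x)), Finset.mul_sum]
  refine Finset.sum_congr rfl fun y _ => ?_
  rw [Finset.sum_congr rfl (g := fun _ => f y) fun u hu => by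
    rw [← (Finset.mem_filter.1 hu).2], Finset.sum_const, nsmul_eq_mul,
    ← card_smul_eq x y.1 y.2]
  congr 2
  exact (Nat.subtype_card _ (by simp [Subtype.ext_iff])).symm

theorem isIntegral_orbit_avg {t : ℕ} (ht : t ∣ Nat.card G)
    (hrad : ∀ q : ℕ, q.Prime → q ∣ Nat.card G → q ∣ t) (χ : IrrCharacter G)
    [Fintype (MulAction.orbit (cong ht) χ)] (g : G) :
    IsIntegral ℤ ((∑ ψ : MulAction.orbit (cong ht) χ, ψ.1.1 g) /
      Nat.card (MulAction.orbit (cong ht) χ)) := by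
  classical
  letI := Fintype.ofFinite (cong ht)
  have h1 := sum_smul_eq (Γ := cong ht) χ fun ψ => ψ.1 g
  have h2 : Nat.card (MulAction.orbit (cong ht) χ) * Nat.card (MulAction.stabilizer (cong ht) χ) =
      Nat.card (cong ht) := by
    rw [Nat.card_coe_set_eq, ← MulAction.index_stabilizer, Subgroup.index_mul_card]
  obtain ⟨n, ε, -, h3, h4⟩ := χ.2.isCharacter.exists_eigenvalues g
  have h5 : ∀ i, ε i ^ Nat.card G = 1 := fun i => by
    obtain ⟨c, hc⟩ := orderOf_dvd_natCard g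
    rw [hc, pow_mul, h3, one_pow]
  have h6 : ∑ u : cong ht, (u • χ).1 g =
      Nat.card (cong ht) * ∑ i, if ε i ^ t = 1 then ε i else 0 := by
    have : ∀ u : cong ht, (u • χ).1 g =
        ∑ i, ε i ^ ((u : (ZMod (Nat.card G))ˣ) : ZMod (Nat.card G)).val := fun u => h4 _
    simp only [this]
    rw [Finset.sum_comm, Finset.mul_sum]
    exact Finset.sum_congr rfl fun i _ => by rw [sum_cong_pow ht hrad (h5 i)]; simp
  have h7 : (Nat.card (MulAction.stabilizer (cong ht) χ) : ℂ) ≠ 0 := card_ne_zero_complex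
  have h8 : (Nat.card (MulAction.orbit (cong ht) χ) : ℂ) ≠ 0 := by
    haveI : Nonempty (MulAction.orbit (cong ht) χ) := ⟨⟨χ, MulAction.mem_orbit_self χ⟩⟩
    exact_mod_cast Nat.card_pos.ne'
  rw [h6, ← h2, Nat.cast_mul, mul_comm (Nat.card (MulAction.orbit _ _) : ℂ), mul_assoc] at h1
  rw [← mul_left_cancel₀ h7 h1, mul_div_cancel_left₀ _ h8]
  refine IsIntegral.sum _ fun i _ => ?_
  split_ifs
  · exact isIntegral_of_pow_eq_one Nat.card_pos (h5 i)
  · exact isIntegral_zero

end H8
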