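import Cfsg.Agent.H8.Unitary
import Mathlib.Analysis.CStarAlgebra.Spectrum
import Mathlib.Analysis.CStarAlgebra.ContinuousLinearMap
import Mathlib.Analysis.SpecialFunctions.Complex.Arg

/-! Frobenius' commutation lemma for finite unitary groups and the key step of Jordan's theorem:
`H8.Jordan.exists_abelian_normal`: a finite group with a faithful complex representation of degree `n` has
an abelian normal subgroup `A` with `[H : H ∩ A] ≤ 12 ^ n` for all abelian subgroups `H`. -/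

namespace H8.Jordan

open H5 Cfsg Module
open scoped ComplexConjugate InnerProductSpace

variable {G : Type*} [Group G] {E : Type*} [NormedAddCommGroup E] [InnerProductSpace ℂ E]
  [FiniteDimensional ℂ E] (ρ : Representation ℂ G E)

/-- the operators of `ρ` as continuous linear maps -/
noncomputable def U : G →* (E →L[ℂ] E) :=
  (Module.End.toContinuousLinearMap (𝕜 := ℂ) E).toMulEquiv.toMonoidHom.comp ρ

theorem U_apply (g : G) (v : E) : U ρ g v = ρ g v := rfl

variable {ρ} (hρ : ∀ g v w, ⟪ρ g v, ρ g w⟫_ℂ = ⟪v, w⟫_ℂ)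
include hρ

theorem star_U [CompleteSpace E] (g : G) : star (U ρ g) = U ρ g⁻¹ := by
  rw [ContinuousLinearMap.star_eq_adjoint, eq_comm, ContinuousLinearMap.eq_adjoint_iff]
  intro x y
  rw [U_apply, U_apply, ← hρ g, ← Module.End.mul_apply, ← map_mul, mul_inv_cancel, map_one,
    Module.End.one_apply]

theorem U_mem [CompleteSpace E] (g : G) : U ρ g ∈ unitary (E →L[ℂ] E) := by
  rw [Unitary.mem_iff, star_U hρ, ← map_mul, ← map_mul]
  simp

theorem norm_comm_le [CompleteSpace E] (a b : G) (c : ℂ) :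
    ‖U ρ (a⁻¹ * (b⁻¹ * a * b)) - 1‖ ≤ 2 * ‖U ρ a - algebraMap ℂ _ c‖ * ‖U ρ b - 1‖ := by
  have h1 : U ρ (b * a) * (U ρ (a⁻¹ * (b⁻¹ * a * b)) - 1) =
      (U ρ a - algebraMap ℂ _ c) * (U ρ b - 1) - (U ρ b - 1) * (U ρ a - algebraMap ℂ _ c) := by
    rw [mul_sub, ← map_mul, show b * a * (a⁻¹ * (b⁻¹ * a * b)) = a * b by group, map_mul, map_mul]
    simp only [mul_sub, sub_mul, mul_one, one_mul, Algebra.commutes c (U ρ b)]
    abel
  rw [← CStarRing.norm_mem_unitary_mul _ (U_mem hρ (b * a)), h1]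
  refine (norm_sub_le _ _).trans ?_
  have e1 := norm_mul_le (U ρ a - algebraMap ℂ _ c) (U ρ b - 1)
  have e2 := norm_mul_le (U ρ b - 1) (U ρ a - algebraMap ℂ _ c)
  linarith

theorem norm_eigenvalue {g : G} {v : E} {μ : ℂ} (hv : v ≠ 0) (h : ρ g v = μ • v) :
    conj μ * μ = 1 := by
  have := hρ g v v
  rw [h, inner_smul_left, inner_smul_right, ← mul_assoc] at this
  exact (mul_left_eq_self₀.mp this).resolve_right (inner_self_ne_zero.mpr hv)

/-- if `a` commutes with `b⁻¹ a b` and `b` is within `√2` of `1` then `a` and `b` commute -/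
theorem eq_of_commute [Finite G] [CompleteSpace E] (hf : Function.Injective ρ) (a b : G)
    (hc : Commute a (b⁻¹ * a * b)) (hb : ‖U ρ b - 1‖ ^ 2 < 2) : b⁻¹ * a * b = a := by
  by_contra hne
  set x := a⁻¹ * (b⁻¹ * a * b) with hx
  have hx1 : ρ x ≠ 1 := by
    intro h
    rw [← map_one ρ] at h
    exact hne (inv_mul_eq_one.mp (hf h)).symm
  obtain ⟨bs, ε, -, h2, -⟩ := exists_eigenbasis_rep ρ x
  obtain ⟨i, hi⟩ : ∃ i, ε i ≠ 1 := by
    by_contra h
    push Not at h
    exact hx1 (bs.ext fun i => by rw [h2, h, one_smul, Module.End.one_apply])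
  let W := Module.End.eigenspace (ρ x) (ε i)
  have hax : a * x = x * a := ((Commute.refl a).inv_right.mul_right hc).eq
  have hW : ∀ v ∈ W, ρ a v ∈ W := by
    intro v hv
    rw [Module.End.mem_eigenspace_iff] at hv ⊢
    rw [← Module.End.mul_apply, ← map_mul, ← hax, map_mul, Module.End.mul_apply, hv, map_smul]
  have : Nontrivial W := ⟨⟨⟨bs i, Module.End.mem_eigenspace_iff.mpr (h2 i)⟩, 0,
    fun h => bs.ne_zero i (congrArg Subtype.val h)⟩⟩
  obtain ⟨α, hα⟩ := Module.End.exists_eigenvalue ((ρ a).restrict hW)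
  obtain ⟨⟨v, hvW⟩, hv⟩ := hα.exists_hasEigenvector
  have hv0 : v ≠ 0 := fun h => hv.2 (Subtype.ext h)
  have hav : ρ a v = α • v := congrArg Subtype.val hv.apply_eq_smul
  have hxv : ρ x v = ε i • v := Module.End.mem_eigenspace_iff.mp hvW
  have habv : ρ a (ρ b v) = (ε i * α) • ρ b v := by
    rw [← Module.End.mul_apply, ← map_mul, show a * b = b * (a * x) by rw [hx]; group, map_mul,
      map_mul, Module.End.mul_apply, Module.End.mul_apply, hxv, map_smul, hav, smul_smul, map_smul]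
  have hα1 := norm_eigenvalue hρ hv0 hav
  have horth : ⟪v, ρ b v⟫_ℂ = 0 := by
    have := hρ a v (ρ b v)
    rw [hav, habv, inner_smul_left, inner_smul_right, ← mul_assoc,
      show conj α * (ε i * α) = ε i * (conj α * α) by ring, hα1, mul_one] at this
    exact (mul_left_eq_self₀.mp this).resolve_left hi
  have hn : ‖ρ b v‖ = ‖v‖ := by
    rw [@norm_eq_sqrt_re_inner ℂ, hρ, ← @norm_eq_sqrt_re_inner ℂ]
  have h3 : ‖v - ρ b v‖ ^ 2 = 2 * ‖v‖ ^ 2 := by
    rw [@norm_sub_sq ℂ, horth, hn]; simp; ring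
  have h4 : ‖v - ρ b v‖ ≤ ‖U ρ b - 1‖ * ‖v‖ := by
    rw [norm_sub_rev]
    exact (U ρ b - 1).le_opNorm v
  have h5 : 0 < ‖v‖ := norm_pos_iff.mpr hv0
  have h6 : ‖v - ρ b v‖ ^ 2 ≤ (‖U ρ b - 1‖ * ‖v‖) ^ 2 := by gcongr
  rw [h3, mul_pow] at h6
  have : 0 < ‖v‖ ^ 2 := by positivity
  nlinarith

/-- Frobenius' lemma -/
theorem commute_of_small [Finite G] [CompleteSpace E] (hf : Function.Injective ρ) (a : G) (c : ℂ)
    (ha : ‖U ρ a - algebraMap ℂ _ c‖ < 1 / 2) (b : G) (hb : ‖U ρ b - 1‖ ^ 2 < 2) :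
    b⁻¹ * a * b = a := by
  by_contra hne
  obtain ⟨g, ⟨hg1, hg2⟩, hmin⟩ := Set.exists_min_image
    {g : G | ‖U ρ g - 1‖ ^ 2 < 2 ∧ g⁻¹ * a * g ≠ a} (fun g => ‖U ρ g - 1‖) (Set.toFinite _) ⟨b, hb, hne⟩
  have hpos : 0 < ‖U ρ g - 1‖ := by
    rw [norm_pos_iff, sub_ne_zero]
    intro h
    have : ρ g = ρ 1 := by
      rw [map_one]; ext v; exact congrArg (fun T : E →L[ℂ] E => T v) h
    rw [hf this] at hg2
    simp at hg2
  have hlt : ‖U ρ (a⁻¹ * (g⁻¹ * a * g)) - 1‖ < ‖U ρ g - 1‖ := by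
    refine (norm_comm_le hρ a g c).trans_lt ?_
    nlinarith
  apply hg2
  apply eq_of_commute hρ hf a g _ hg1
  have h1 : (a⁻¹ * (g⁻¹ * a * g))⁻¹ * a * (a⁻¹ * (g⁻¹ * a * g)) = a := by
    by_contra h
    refine (hmin _ ⟨lt_trans ?_ hg1, h⟩).not_gt hlt
    gcongr
  have h2 : Commute a (a⁻¹ * (g⁻¹ * a * g)) := by
    rw [mul_assoc, inv_mul_eq_iff_eq_mul] at h1
    exact h1
  have := (Commute.refl a).mul_right h2
  rwa [mul_inv_cancel_left] at this

theorem norm_lt_of_eigenvalues [CompleteSpace E] (g : G) (c : ℂ) (r : NNReal) (hr : 0 < r)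
    (h : ∀ μ, Module.End.HasEigenvalue (ρ g) μ → ‖μ - c‖ < r) : ‖U ρ g - algebraMap ℂ _ c‖ < r := by
  rcases subsingleton_or_nontrivial (E →L[ℂ] E) with hs | hs
  · rw [Subsingleton.elim (U ρ g - algebraMap ℂ _ c) 0, norm_zero]; exact hr
  have hn : IsStarNormal (U ρ g - algebraMap ℂ _ c) := by
    refine ⟨?_⟩
    rw [star_sub, star_U hρ, ← algebraMap_star_comm]
    refine Commute.sub_left (Commute.sub_right ?_ (Algebra.commutes _ _).symm)
      (Algebra.commutes _ _)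
    exact (Commute.refl g).inv_left.map _
  have h1 := spectrum.spectralRadius_lt_of_forall_lt (U ρ g - algebraMap ℂ _ c) (r := r) (by
    intro z hz
    rw [← spectrum.sub_singleton_eq] at hz
    obtain ⟨μ, hμ, _, rfl, rfl⟩ := hz
    rw [ContinuousLinearMap.spectrum_eq] at hμ
    exact h μ (Module.End.hasEigenvalue_iff_mem_spectrum.mpr hμ))
  rw [IsStarNormal.spectralRadius_eq_nnnorm, ENNReal.coe_lt_coe] at h1
  exact h1

omit hρ in
theorem norm_sub_lt {z w : ℂ} (hz : ‖z‖ = 1) (hw : ‖w‖ = 1)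
    (h : ⌈6 * z.arg / Real.pi⌉ = ⌈6 * w.arg / Real.pi⌉) :
    ‖z⁻¹ * w - (√3 / 2 : ℝ)‖ < 1 / 2 := by
  have hpi := Real.pi_pos
  have h1 : |6 * w.arg / Real.pi - 6 * z.arg / Real.pi| < 1 := by
    have a1 := Int.le_ceil (6 * z.arg / Real.pi)
    have a2 := Int.ceil_lt_add_one (6 * z.arg / Real.pi)
    have a3 := Int.le_ceil (6 * w.arg / Real.pi)
    have a4 := Int.ceil_lt_add_one (6 * w.arg / Real.pi)
    rw [h] at a1 a2
    rw [abs_lt]; constructor <;> linarith
  have h2 : |w.arg - z.arg| < Real.pi / 6 := by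
    rw [← sub_div, ← mul_sub, abs_div, abs_mul, abs_of_pos hpi, div_lt_one hpi] at h1
    norm_num at h1
    linarith
  have h3 : √3 / 2 < Real.cos (w.arg - z.arg) := by
    rw [← Real.cos_pi_div_six, ← Real.cos_abs (w.arg - z.arg)]
    exact Real.cos_lt_cos_of_nonneg_of_le_pi (abs_nonneg _) (by linarith) h2
  have h4 : z⁻¹ * w = Complex.exp ((w.arg - z.arg : ℝ) * Complex.I) := by
    conv_lhs => rw [← Complex.norm_mul_exp_arg_mul_I z, ← Complex.norm_mul_exp_arg_mul_I w, hz, hw]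
    rw [Complex.ofReal_one, one_mul, one_mul, ← Complex.exp_neg, ← Complex.exp_add]
    congr 1; push_cast; ring
  rw [h4, Complex.exp_mul_I, ← Complex.ofReal_cos, ← Complex.ofReal_sin]
  set t := w.arg - z.arg
  have h5 : ‖(Real.cos t : ℂ) + Real.sin t * Complex.I - (√3 / 2 : ℝ)‖ ^ 2 < (1 / 2) ^ 2 := by
    rw [Complex.sq_norm, Complex.normSq_apply]
    simp only [Complex.sub_re, Complex.add_re, Complex.ofReal_re, Complex.mul_re, Complex.I_re,
      mul_zero, Complex.ofReal_im, Complex.I_im, mul_one, sub_self, add_zero, Complex.sub_im,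
      Complex.add_im, Complex.mul_im, zero_add, sub_zero]
    have e1 := Real.sin_sq_add_cos_sq t
    have e2 : √3 * √3 = 3 := Real.mul_self_sqrt (by norm_num)
    have e3 : 0 < √3 := Real.sqrt_pos.mpr (by norm_num)
    nlinarith
  exact lt_of_pow_lt_pow_left₀ 2 (by norm_num) h5

omit hρ in
theorem ceil_mem (z : ℂ) : ⌈6 * z.arg / Real.pi⌉ ∈ Finset.Icc (-5 : ℤ) 6 := by
  have hpi := Real.pi_pos
  have h1 := Complex.neg_pi_lt_arg z
  have h2 := Complex.arg_le_pi z
  rw [Finset.mem_Icc]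
  constructor
  · have : (-6 : ℤ) < ⌈6 * z.arg / Real.pi⌉ := by
      rw [Int.lt_ceil, lt_div_iff₀ hpi]; push_cast; linarith
    omega
  · rw [Int.ceil_le, div_le_iff₀ hpi]; push_cast; linarith

theorem exists_abelian_normal [Finite G] (hf : Function.Injective ρ) :
    ∃ A : Subgroup G, A.Normal ∧ (∀ x ∈ A, ∀ y ∈ A, x * y = y * x) ∧
      ∀ H : Subgroup G, (∀ x ∈ H, ∀ y ∈ H, x * y = y * x) →
        (A.subgroupOf H).index ≤ 12 ^ finrank ℂ E := by
  have : CompleteSpace E := FiniteDimensional.complete ℂ E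
  let c : ℂ := (√3 / 2 : ℝ)
  let S : Set G := {g | ‖U ρ g - algebraMap ℂ _ c‖ < 1 / 2}
  have hSconj : ∀ g ∈ S, ∀ x : G, x * g * x⁻¹ ∈ S := by
    intro g hg x
    show ‖U ρ (x * g * x⁻¹) - algebraMap ℂ _ c‖ < 1 / 2
    have : U ρ (x * g * x⁻¹) - algebraMap ℂ _ c = U ρ x * (U ρ g - algebraMap ℂ _ c) * U ρ x⁻¹ := by
      rw [mul_sub, sub_mul, ← map_mul, ← map_mul, ← Algebra.commutes, mul_assoc (algebraMap ℂ _ c), ← map_mul]; simp
    rw [this, CStarRing.norm_mul_mem_unitary _ (U_mem hρ _),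
      CStarRing.norm_mem_unitary_mul _ (U_mem hρ _)]
    exact hg
  have hScomm : ∀ a ∈ S, ∀ b ∈ S, a * b = b * a := by
    intro a ha b hb
    have h1 : ‖U ρ b - 1‖ < 1 := by
      have e : U ρ b - 1 = (U ρ b - algebraMap ℂ _ c) + algebraMap ℂ _ (c - 1) := by
        rw [map_sub, map_one]; abel
      have e1 : ‖algebraMap ℂ (E →L[ℂ] E) (c - 1)‖ ≤ 1 / 2 := by
        rw [Algebra.algebraMap_eq_smul_one]
        refine (norm_smul_le _ _).trans ?_
        have e2 : ‖c - 1‖ ≤ 1 / 2 := by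
          have : c - 1 = ((√3 / 2 - 1 : ℝ) : ℂ) := by simp [c]
          rw [this, Complex.norm_real, Real.norm_eq_abs, abs_le]
          have e2 : √3 * √3 = 3 := Real.mul_self_sqrt (by norm_num)
          have e3 : 0 < √3 := Real.sqrt_pos.mpr (by norm_num)
          constructor <;> nlinarith
        have e3 : ‖(1 : E →L[ℂ] E)‖ ≤ 1 := ContinuousLinearMap.norm_id_le
        calc ‖c - 1‖ * ‖(1 : E →L[ℂ] E)‖ ≤ 1 / 2 * 1 := by gcongr
          _ = 1 / 2 := by norm_num
      have hb' : ‖U ρ b - algebraMap ℂ _ c‖ < 1 / 2 := hb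
      rw [e]
      exact (norm_add_le _ _).trans_lt (by linarith)
    have := commute_of_small hρ hf a c ha b (by nlinarith [norm_nonneg (U ρ b - 1)])
    rw [mul_assoc, inv_mul_eq_iff_eq_mul] at this
    exact this
  refine ⟨Subgroup.closure S, ⟨fun g hg x => ?_⟩, ?_, fun H hH => ?_⟩
  · induction hg using Subgroup.closure_induction with
    | mem g hg => exact Subgroup.subset_closure (hSconj g hg x)
    | one => simp
    | mul a b _ _ ha hb => simpa [mul_assoc] using mul_mem ha hb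
    | inv a _ ha => simpa [mul_assoc] using inv_mem ha
  · have h1 : Subgroup.closure S ≤ Subgroup.centralizer S := by
      rw [Subgroup.closure_le]
      intro b hb a ha
      exact hScomm a ha b hb
    rw [← Subgroup.centralizer_closure] at h1
    intro x hx y hy
    exact h1 hy x hx
  · classical
    obtain ⟨s, hs, hs'⟩ := exists_homs_eigenvalues (G := H)
      (fun a b => Subtype.ext (hH a a.2 b b.2)) (ρ.comp H.subtype)
    let f : H → (s → Finset.Icc (-5 : ℤ) 6) := fun h l =>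
      ⟨⌈6 * ((l.1 h : ℂˣ) : ℂ).arg / Real.pi⌉, ceil_mem _⟩
    have hnorm : ∀ (l : H →* ℂˣ) (h : H), ‖((l h : ℂˣ) : ℂ)‖ = 1 := fun l h =>
      norm_eq_one_of_pow_eq_one (orderOf_pos h) (by
        rw [← Units.val_pow_eq_pow_val, ← map_pow, pow_orderOf_eq_one, map_one, Units.val_one])
    have hfS : ∀ h h' : H, f h = f h' → ((h⁻¹ * h' : H) : G) ∈ S := by
      intro h h' hh
      refine norm_lt_of_eigenvalues hρ _ c (1 / 2) (by norm_num) fun μ hμ => ?_
      obtain ⟨l, hl, rfl⟩ := hs' (h⁻¹ * h') μ hμ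
      have := norm_sub_lt (hnorm l h) (hnorm l h') (congrArg Subtype.val (congrFun hh ⟨l, hl⟩))
      simpa [c] using this
    have h1 : Nat.card (H ⧸ (Subgroup.closure S).subgroupOf H) ≤
        Nat.card (s → Finset.Icc (-5 : ℤ) 6) := by
      refine Nat.card_le_card_of_injective (fun q => f q.out) fun q q' h => ?_
      rw [← q.out_eq, ← q'.out_eq]
      exact QuotientGroup.eq.mpr (Subgroup.subset_closure (hfS _ _ h))
    refine h1.trans ?_
    rw [Nat.card_fun, Nat.card_eq_fintype_card, Nat.card_eq_fintype_card, Fintype.card_coe,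
      Fintype.card_coe]
    exact Nat.pow_le_pow_right (by norm_num) hs

end H8.Jordan
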