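import Cfsg.Agent.H8.PDeg
import Cfsg.Agent.H1.Coprime
/-! Basics for the `k(GV)` problem: `card_cent_split`, `ne_zero_of_pow_eq_one`, `card_irr_ker`. -/
open H5 Cfsg
open scoped ComplexConjugate
namespace H8
variable {X : Type*} [Group X] [Finite X] {V G : Subgroup X}

omit [Finite X] in
theorem card_cent_split [V.Normal] (hGV : Subgroup.IsComplement' V G) {C : Subgroup X}
    (h : V ≤ C) : Nat.card C = Nat.card (G ⊓ C : Subgroup X) * Nat.card V := by
  obtain ⟨h1, h2⟩ := H1.isComplement'_iff_of_normal.1 hGV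
  have := H1.sup_inf_of_le (H := G) (N := V) (U := C) (by simp [Subgroup.normalizer_eq_top]) h
  rw [h2, top_inf_eq] at this
  conv_lhs => rw [← this]
  rw [H1.card_sup_of_disjoint (by simp [Subgroup.normalizer_eq_top])
    (eq_bot_iff.2 (h1 ▸ inf_le_inf_left _ inf_le_left)), mul_comm]

theorem ne_zero_of_pow_eq_one {χ : X → ℂ} (hχ : IsCharacter X χ) {p k : ℕ} (hp : p.Prime)
    (hd : ¬ p ∣ charDegree χ) {g : X} (hg : g ^ p ^ k = 1) : χ g ≠ 0 := by
  intro h0
  obtain ⟨w, hw, e⟩ := exists_pow_sub_eq_mul hχ hp g k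
  rw [h0, zero_pow (pow_pos hp.pos k).ne', hg, ← hχ.coe_charDegree] at e
  have hp0 : (p : ℂ) ≠ 0 := by exact_mod_cast hp.ne_zero
  have e2 : w = ((-(charDegree χ : ℚ) / p : ℚ) : ℂ) := by
    push_cast; field_simp; linear_combination -e
  rw [e2] at hw
  have hw' : IsIntegral ℤ (-(charDegree χ : ℚ) / p : ℚ) :=
    (isIntegral_algebraMap_iff (algebraMap ℚ ℂ).injective).1 hw
  obtain ⟨z, hz⟩ := IsIntegrallyClosed.isIntegral_iff.1 hw'
  have hpq : (p : ℚ) ≠ 0 := by exact_mod_cast hp.ne_zero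
  have : ((charDegree χ : ℤ) : ℚ) = ((p * -z : ℤ) : ℚ) := by
    simp only [algebraMap_int_eq, eq_intCast] at hz
    push_cast; rw [hz]; field_simp
  exact hd (Int.natCast_dvd_natCast.1 ⟨-z, by exact_mod_cast this⟩)

theorem card_conjCl_congr {Y : Type*} [Group Y] (e : X ≃* Y) :
    Nat.card (ConjClasses X) = Nat.card (ConjClasses Y) := by
  haveI : Finite Y := Finite.of_equiv X e
  apply Nat.eq_of_mul_eq_mul_right (Nat.card_pos (α := X))
  rw [← card_comm_eq_card_conjClasses_mul_card, Nat.card_congr e.toEquiv,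
    ← card_comm_eq_card_conjClasses_mul_card]
  exact Nat.card_congr (Equiv.subtypeEquiv (e.toEquiv.prodCongr e.toEquiv) fun x =>
    ⟨fun h => h.map e, fun h => Commute.of_map e.injective h⟩)

theorem card_irr_ker [V.Normal] (hGV : Subgroup.IsComplement' V G) :
    Nat.card {χ : IrrCharacter X // V ≤ charKer χ.1} = Nat.card (ConjClasses G) := by
  rw [← Nat.card_congr (irrQuotientEquiv V), card_irr_eq_card_conjClasses,
    card_conjCl_congr hGV.symm.QuotientMulEquiv]

end H8
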