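import Cfsg.Agent.H8.B1
import Cfsg.Agent.H1.Cores

/-! Kernels of blocks along Brauer pairs.  `Kr N b`: the subgroup `N` acts trivially on the
idempotent `b` (`Kr.up`, `Kr.down`, `kr_io_iff`); `OQ Q X` is the `Q`-core of the subgroup `X`;
`kr_of_bp`, `kr_of_indB` (going down from the Brauer correspondent), `kr_top` (going up). -/

open H5 H7 Cfsg MonoidAlgebra
open scoped ComplexConjugate Pointwise

namespace H8

section alg
variable {G G' : Type*} [Group G] [Group G'] {k : Type*} [Field k] {N N' K H R D : Subgroup G}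
  {b e g : k[G]} {p : ℕ}

/-- `N` acts trivially on `b`. -/
def Kr (N : Subgroup G) (b : k[G]) : Prop := ∀ n ∈ N, ∀ x, b.coeff (n * x) = b.coeff x

theorem Kr.mono (h : Kr N b) (h' : N' ≤ N) : Kr N' b := fun n hn => h n (h' hn)

theorem Kr.mul [Finite G] (h : Kr N b) (e : k[G]) : Kr N (b * e) := fun n hn x => by
  haveI := Fintype.ofFinite G
  rw [coeff_mul_sum', coeff_mul_sum']
  exact Finset.sum_congr rfl fun y _ => by rw [mul_assoc, h n hn]

theorem Kr.of_mul [Finite G] (h : Kr N b) (he : b * e = e) : Kr N e := he ▸ h.mul e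

theorem Kr.cA (h : Kr N b) (x : G) : Kr (cj x N) (cA x b) := fun n hn y => by
  rw [coeff_cA, coeff_cA, ← h _ (mem_cj.1 hn) (x⁻¹ * y * x)]
  congr 1; group

theorem kr_mp {φ : G →* G'} (hφ : Function.Injective φ) : Kr (N.map φ) (mp φ b) ↔ Kr N b := by
  refine ⟨fun h n hn x => ?_, ?_⟩
  · rw [← coeff_mp hφ, ← coeff_mp hφ b x, map_mul, h _ (Subgroup.mem_map_of_mem φ hn)]
  · rintro h _ ⟨n, hn, rfl⟩ x
    by_cases hx : x ∈ φ.range
    · obtain ⟨y, rfl⟩ := hx
      rw [← map_mul, coeff_mp hφ, coeff_mp hφ, h n hn]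
    · rw [coeff_mp_of_notMem _ hx, coeff_mp_of_notMem _ fun e =>
        hx ((mul_mem_cancel_left (φ.mem_range.2 ⟨n, rfl⟩)).1 e)]

variable [Finite G]

theorem Kr.up (h : Kr N b) (R : Subgroup G) : Kr (N ⊓ cC R) (Br R b) := fun n hn x => by
  by_cases hx : x ∈ cC R
  · rw [coeff_Br_of_mem _ hx, coeff_Br_of_mem _ (mul_mem hn.2 hx), h n hn.1]
  · rw [coeff_Br_of_notMem _ hx, coeff_Br_of_notMem _ fun e => hx (((cC R).mul_mem_cancel_left hn.2).1 e)]

theorem Kr.setSum_mul (h : Kr N b) : setSum k (N : Set G) * b = (Nat.card N : k) • b :=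
  ga_ext fun x => by
    classical
    haveI := Fintype.ofFinite G
    rw [coeff_mul_sum, coeff_smul', Finset.sum_congr rfl fun y _ => show _ = if y ∈ N then b.coeff x
      else 0 by
        split_ifs with hy
        · rw [coeff_setSum_of_mem hy, one_mul, h _ (N.inv_mem hy)]
        · rw [coeff_setSum_of_notMem hy, zero_mul], ← Finset.sum_filter, Finset.sum_const, nsmul_eq_mul,
      Nat.card_eq_fintype_card, Fintype.card_subtype]

theorem kr_setSum (N : Subgroup G) : Kr N (setSum k (N : Set G)) := fun n hn x => by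
  classical
  simp only [coeff_setSum, SetLike.mem_coe, mul_mem_cancel_left hn]

theorem setSum_mem_ZI (h1 : N ≤ K) (h2 : H ≤ nN N) : setSum k (N : Set G) ∈ ZI k K H :=
  ⟨fun _ hg => coeff_setSum_of_notMem fun e => hg (h1 e),
    setSum_mem_Inv fun _ hx _ => conj_mem_of_nN (h2 hx)⟩

variable [hp : Fact p.Prime] [CharP k p]

theorem kr_of_ne_zero (hb : Prim (ZI k K H) b) (h1 : N ≤ K) (h2 : H ≤ nN N)
    (hN : ¬ p ∣ Nat.card N) (h : setSum k (N : Set G) * b ≠ 0) : Kr N b := by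
  have h0 : (Nat.card N : k) ≠ 0 := by rwa [Ne, CharP.cast_eq_zero_iff k p]
  have h3 := hb.mul_eq (j := (Nat.card N : k)⁻¹ • setSum k (N : Set G))
    (Subalgebra.smul_mem _ (setSum_mem_ZI h1 h2) _) (by
      rw [IsIdempotentElem, smul_mul_smul_comm, (kr_setSum N).setSum_mul, smul_smul,
        inv_mul_cancel_right₀ h0]) (by
      rw [smul_mul_assoc]; exact smul_ne_zero (inv_ne_zero h0) h)
  rw [smul_mul_assoc, ← mul_smul_comm] at h3
  exact h3 ▸ (kr_setSum N).mul _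

theorem Kr.down (hb : Prim (ZI k K H) b) (h1 : N ≤ K) (h2 : H ≤ nN N) (hN : ¬ p ∣ Nat.card N)
    (hR : IsPGroup p R) (h3 : R ≤ nN N) (h4 : b ∈ Inv k R) (hg : g ≠ 0) (h5 : Br R b * g = g)
    (h : Kr (N ⊓ cC R) g) : Kr N b := by
  refine kr_of_ne_zero hb h1 h2 hN fun h0 => ?_
  have h6 := congrArg (fun z => Br R z * g) h0
  have h7 : Br R (setSum k (N : Set G)) = setSum k ((N ⊓ cC R : Subgroup G) : Set G) :=
    ga_ext fun x => by
      classical
      by_cases h : x ∈ cC R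
      · simp only [coeff_Br_of_mem _ h, coeff_setSum, SetLike.mem_coe, Subgroup.mem_inf, h, and_true]
      · rw [coeff_Br_of_notMem _ h, coeff_setSum_of_notMem fun e => h e.2]
  simp only [Br_mul' hR (setSum_mem_ZI le_rfl h3).2 h4, mul_assoc, h5, h7, h.setSum_mul, map_zero,
    zero_mul, smul_eq_zero, hg, or_false, CharP.cast_eq_zero_iff k p] at h6
  exact hN (h6.trans (Subgroup.card_dvd_of_le inf_le_left))

omit [Finite G] hp [CharP k p] in
/-- The `Q`-core of a subgroup. -/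
abbrev OQ (Q : ℕ → Prop) (X : Subgroup G) : Subgroup G := (H1.qCore Q X).map X.subtype

variable {Q : ℕ → Prop}

omit [Finite G] hp [CharP k p] in
theorem oq_le (X : Subgroup G) : OQ Q X ≤ X := Subgroup.map_subtype_le _

omit [Finite G] hp [CharP k p] in
theorem nN_le_oq (X : Subgroup G) : nN X ≤ nN (OQ Q X) := H1.normalizer_le_normalizer_map_qCore X

omit hp [CharP k p] in
theorem cj_oq_le (hQ : H1.DivClosed Q) (x : G) (X : Subgroup G) : OQ Q (cj x X) ≤ cj x (OQ Q X) := by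
  have h : ∀ (x : G) (X : Subgroup G), cj x (OQ Q X) ≤ OQ Q (cj x X) := fun x X =>
    H1.le_map_qCore (cj_mono x (oq_le X))
      ((cj_mono x ((le_nN_self X).trans (nN_le_oq X))).trans (cj_nN x _).le)
      (by rw [card_cj]; exact H1.map_qCore_prop hQ X)
  have := cj_mono x (h x⁻¹ (cj x X))
  rwa [cj_cj_inv, cj_inv_cj] at this

omit hp [CharP k p] in
theorem inf_le_oq (hQ : H1.DivClosed Q) (hN : Q (Nat.card N)) (h : cC R ≤ nN N) :
    N ⊓ cC R ≤ OQ Q (cC R) :=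
  H1.le_map_qCore inf_le_right (le_nN_inf h (le_nN_self _)) (hQ.of_le inf_le_left hN)

theorem Le.kr_down (hQ : H1.DivClosed Q) (hp' : ∀ n, Q n → ¬ p ∣ n) {f : k[G]}
    (h : Le p ⊤ R f D e) (he : Kr (OQ Q (cC D)) e) : Kr (OQ Q (cC R)) f := by
  refine h.induction (Pr := fun R f => Kr (OQ Q (cC R)) f) he fun R g R' g' ns _ ih => ?_
  have h1 := H1.map_qCore_prop hQ (cC R)
  have h2 : cC R ≤ nN (OQ Q (cC R)) := (le_nN_self _).trans (nN_le_oq _)
  exact Kr.down ns.lo.blk (le_inf le_top (oq_le _)) (inf_le_right.trans h2) (hp' _ h1) ns.hi.pg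
    (ns.norm.trans ((nN_le_nN_cC R).trans (nN_le_oq _))) ns.inv ns.hi.blk.ne ns.br
    (ih.mono (inf_le_oq hQ h1 ((cC_anti ns.le).trans h2)))

theorem Le.kr_up {f : k[G]} (h : Le p ⊤ R f D e) (hf : Kr N f) : Kr (N ⊓ cC D) e := by
  refine h.induction (Pr := fun _ f => ∀ N, Kr N f → Kr (N ⊓ cC D) e) (fun N h => h.mono inf_le_left)
    (fun R g R' g' ns l ih N h => (ih _ ((h.up R').of_mul ns.br)).mono ?_) N hf
  exact le_inf (le_inf inf_le_left (inf_le_right.trans (cC_anti l.le))) inf_le_right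

/-- All Brauer pairs inherit the kernel property from the Brauer correspondent. -/
theorem kr_of_bp (hQ : H1.DivClosed Q) (hp' : ∀ n, Q n → ¬ p ∣ n) (hb : Blk ⊤ b)
    (hD : Def p ⊤ b D) (h : Kr (OQ Q (nN D)) (Br D b)) {f : k[G]} (hf : BP p ⊤ ⊤ b R f) :
    Kr (OQ Q (cC R)) f := by
  obtain ⟨e, m⟩ := exists_Mx (Tw.refl ⊤) hb hD
  obtain ⟨x, -, l⟩ := m.exists_cj_le hf
  have h1 := (l.kr_down hQ hp' ((h.of_mul m.bp.br).mono
    (H1.map_qCore_le_map_qCore hQ (cC_le_nN D) (nN_le_nN_cC D)))).cA x⁻¹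
  rw [cA_inv_cA] at h1
  refine h1.mono ?_
  have := cj_oq_le hQ x⁻¹ (cC (cj x R))
  rwa [cj_cC, cj_inv_cj] at this

/-- Going up to the Brauer correspondent. -/
theorem kr_top (hQ : H1.DivClosed Q) (hp' : ∀ n, Q n → ¬ p ∣ n) (hb : Blk ⊤ b)
    (hD : Def p ⊤ b D) {f : k[G]} (hf : BP p ⊤ ⊤ b R f) (h1 : Kr N f)
    (h2 : ∀ x ∈ cC R, Q (orderOf x) → x ∈ N) : Kr (OQ Q (nN D)) (Br D b) := by
  obtain ⟨e, m⟩ := exists_Mx (Tw.refl ⊤) hb hD
  obtain ⟨x, -, l⟩ := m.exists_cj_le hf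
  have h3 := l.kr_up (h1.cA x)
  have h4 := H1.map_qCore_prop hQ (nN D)
  have h5 : nN D ≤ nN (OQ Q (nN D)) := (le_nN_self _).trans (nN_le_oq _)
  have h6 : OQ Q (nN D) ≤ cC D := by
    refine Subgroup.commutator_eq_bot_iff_le_centralizer.1 (le_bot_iff.1 ?_)
    rw [← H1.inf_eq_bot_of_isPGroup_of_coprime (H := OQ Q (nN D)) hD.pg
      ((Nat.Prime.coprime_iff_not_dvd hp.out).2 (hp' _ h4)).symm]
    refine Subgroup.commutator_le.2 fun a ha d hd => ⟨?_, ?_⟩
    · exact D.mul_mem ((conj_mem_of_nN (oq_le _ ha)).2 hd) (D.inv_mem hd)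
    · rw [commutatorElement_def, mul_assoc, mul_assoc, ← mul_assoc d]
      exact mul_mem ha ((conj_mem_of_nN (h5 (le_nN_self D hd))).2 (inv_mem ha))
  have h7 : Kr (OQ Q (nN D)) e := h3.mono (le_inf (fun y hy => mem_cj.2 (h2 _
    (by rw [← mem_cj, cj_cC]; exact cC_anti l.le (h6 hy)) (hQ.dvd ?_ h4))) h6)
  · refine kr_of_ne_zero (hD.prim_Br (Tw.refl ⊤) hb).1 (le_inf le_top h6) (inf_le_right.trans h5)
      (hp' _ h4) fun h0 => ?_
    have := congrArg (· * e) h0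
    simp only [mul_assoc, m.bp.br, h7.setSum_mul, zero_mul, smul_eq_zero, m.pair.blk.ne, or_false,
      CharP.cast_eq_zero_iff k p] at this
    exact hp' _ h4 this
  · rw [show x⁻¹ * y * x = x⁻¹ * y * x⁻¹⁻¹ by rw [inv_inv], orderOf_conj']
    exact Subgroup.orderOf_dvd_natCard _ hy

end alg

variable {G : Type*} [Group G] [Finite G] {M : Ideal AlgInt} {p : ℕ} [hp : Fact p.Prime] [PM p M]
  {B : Set (IrrCharacter G)} {K D P : Subgroup G}

omit hp [PM p M] in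
theorem kr_fB_of_subset [M.IsMaximal] {N : Subgroup G} (h : B ⊆ kerSet N) : Kr N (fB M B) :=
  fun n hn x => by
    rw [coeff_fB, coeff_fB, blockCoeff, blockCoeff]
    congr 2
    exact finsum_mem_congr rfl fun χ hχ => by rw [apply_mul_of_mem_kerSet (h hχ) hn]

theorem kr_fB_iff (hB : IsPBlock M B) {N : Subgroup G} [N.Normal] (hN : ¬ p ∣ Nat.card N) :
    Kr N (fB M B) ↔ B ⊆ kerSet N := by
  refine ⟨fun h => ?_, kr_fB_of_subset⟩
  have hs := isSat_kerSet (M := M) hN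
  have h1 : fB M (kerSet N) = (Nat.card N : F M)⁻¹ • setSum (F M) (N : Set G) := by
    rw [fB, eB_kerSet, redA_smul (natCast_inv_mem_O hN) (setSum_mem_OG _), redA_setSum,
      red_natCast_inv hN]
  have h2 := (mul_fB_iff (isSat_of_isPBlock hB) (fB_mem_Z (kerSet N)) hs.fB_idem).1 (by
    rw [h1, smul_mul_assoc, h.setSum_mul, smul_smul, inv_mul_cancel₀
      (by rwa [Ne, natCast_F_eq_zero_iff (p := p)]), one_smul])
  exact fun χ hχ => hs.mem_iff_lam.2 (h2 χ hχ ▸ one_ne_zero)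

theorem kr_io_iff {e : Set (IrrCharacter K)} (he : IsPBlock M e) {N : Subgroup K} [N.Normal]
    (hN : ¬ p ∣ Nat.card N) : Kr (N.map K.subtype) (io M K e) ↔ ∀ n ∈ N, n ∈ blockKer e :=
  ((kr_mp Subtype.val_injective).trans (kr_fB_iff he hN)).trans
    ⟨fun h n hn _ hχ => h hχ n hn, fun h _ hχ n hn => h n hn _ hχ⟩

theorem io_eq_Br (hB : IsPBlock M B) (hD : IsDefectGroup p M B D) {b : Set (IrrCharacter (nN D))}
    (h : IsInducedBlock M (nN D) b B) : io M (nN D) b = Br D (fB M B) := by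
  have hD' := (def_fB hB).1 hD
  have h1 := (isInducedBlock_iff_Br hD'.pg (le_nN_self D) (cC_le_nN D) le_rfl h.1 hB).1 h
  have h2 := (hD'.prim_Br (Tw.refl ⊤) (blk_fB_of_isPBlock hB)).1
  rw [top_inf_eq, top_inf_eq] at h2
  have h3 := (blk_iff_of_normal' hD'.pg (le_nN_self D) (cC_le_nN D) le_rfl).1 (blk_io' h.1)
  exact (h2.eq_of_mul_ne_zero (comm_ZI (cC_le_nN D)) h3 (h1.symm ▸ h3.ne)).symm

theorem bp_of_indB {b : Set (IrrCharacter K)} (h : IndB M K.subtype b B) (hC : cC P ≤ K)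
    {e : (F M)[G]} (he : BP p K K (io M K b) P e) : BP p ⊤ ⊤ (fB M B) P e := by
  have h1 : Pair p ⊤ P e := ⟨he.pair.pg, by
    have := he.pair.blk
    rwa [inf_eq_right.2 hC, ← top_inf_eq (cC P)] at this⟩
  obtain ⟨e', h2, rfl⟩ := h1.exists_io
  have hT : P ⊔ cC P ≤ K := sup_le he.le hC
  have hn : P ⊔ cC P ≤ nN P := sup_le (le_nN_self P) (cC_le_nN P)
  obtain ⟨f, h3, h4, -⟩ := exists_block_stab (T := P ⊔ cC P) h1.pg h2 le_sup_left le_sup_right
    (sup_le (le_inf (le_nN_self P) h1.le_St') (cC_le_stab e'))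
  have h5 := (isInducedBlockIn_iff_indB hT).1 ((isInducedBlockIn_iff hT h1.pg le_sup_left
    (inf_le_right.trans le_sup_right) hn h3 h.1).2 (by rw [h4]; exact he.br))
  have h6 := (isInducedBlock_iff_Br h1.pg le_sup_left le_sup_right hn h3 h.2.1).1
    (isInducedBlock_iff_indB.2 (by
      have := h5.trans h
      rwa [Subgroup.subtype_comp_inclusion] at this))
  exact ⟨le_top, h1, by rwa [h4] at h6⟩

theorem kr_of_indB {Q : ℕ → Prop} (hQ : H1.DivClosed Q) (hp' : ∀ n, Q n → ¬ p ∣ n)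
    (hD : IsDefectGroup p M B D) (h0 : Kr (OQ Q (nN D)) (Br D (fB M B)))
    {b : Set (IrrCharacter K)} (h : IndB M K.subtype b B) (hP : Def p K (io M K b) P)
    (hC : cC P ≤ K) : ∀ n ∈ H1.qCore Q K, n ∈ blockKer b := by
  obtain ⟨e, m⟩ := exists_Mx (Tw.refl K) (blk_io' h.1) hP
  have h1 := kr_of_bp hQ hp' (blk_fB_of_isPBlock h.2.1) ((def_fB h.2.1).1 hD) h0
    (bp_of_indB h hC m.bp)
  have h2 := H1.map_qCore_prop hQ K
  have h3 : K ≤ nN (OQ Q K) := (le_nN_self _).trans (nN_le_oq _)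
  exact (kr_io_iff h.1 (hp' _ (H1.qCore_prop hQ))).1 (Kr.down (blk_io' h.1) (oq_le K) h3 (hp' _ h2)
    hP.pg (hP.le.trans h3) (Inv_anti hP.le (io_mem_ZI b).2) m.pair.blk.ne m.bp.br
    (h1.mono (inf_le_oq hQ h2 (hC.trans h3))))

end H8
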