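import Cfsg.Agent.H8.KGV
import Cfsg.Agent.H8.AvgA
import Mathlib.GroupTheory.FiniteAbelian.Duality
/-! Knörr's lemma for abelian point stabilizers: `Kn`, `Kn.step`, `exists_kn`, `knorr_abelian`,
and the criterion `knorr_crit` for `k(GV) ≤ |V|`. -/
open H5 Cfsg Finset
open scoped ComplexConjugate
namespace H8
section dual
variable {H Γ : Type*} [Group H] [Fintype H] [CommGroup Γ] [Fintype Γ] (e : Γ →* H →* ℂˣ)

/-- Integer combination of linear characters. -/
noncomputable def th : (Γ → ℤ) →+ (H → ℂ) where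
  toFun a := fun h => ∑ l, (a l : ℂ) * (e l h : ℂ)
  map_zero' := by ext; simp
  map_add' a b := by ext; simp [add_mul, sum_add_distrib]

omit [Fintype H] in
theorem th_apply (a : Γ → ℤ) (h : H) : th e a h = ∑ l, (a l : ℂ) * (e l h : ℂ) := rfl

/-- The weighted norm. -/
noncomputable def qf (δ : H → ℝ) (a : Γ → ℤ) : ℝ := ∑ h, δ h * ‖th e a h‖ ^ 2

theorem conj_lin (l : H →* ℂˣ) (h : H) : conj (l h : ℂ) = ((l h)⁻¹ : ℂˣ) := by
  rw [← (isCharacter_hom l).apply_inv h, map_inv]

theorem qf_eq (δ : H → ℝ) (a : Γ → ℤ) : (qf e δ a : ℂ) =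
    ∑ l, ∑ m, (a l : ℂ) * a m * ∑ h, (δ h : ℂ) * (e (l * m⁻¹) h : ℂˣ) := by
  simp only [qf, mul_sum]
  rw [Complex.ofReal_sum, sum_comm]
  conv_rhs => enter [2, m]; rw [sum_comm]
  rw [sum_comm]
  refine sum_congr rfl fun h _ => ?_
  rw [Complex.ofReal_mul, Complex.ofReal_pow, ← Complex.mul_conj', th_apply, map_sum, sum_mul_sum,
    mul_sum, sum_comm]
  refine sum_congr rfl fun m _ => ?_
  rw [mul_sum]
  refine sum_congr rfl fun l _ => ?_
  simp only [map_mul, map_inv, conj_lin, map_intCast, MonoidHom.mul_apply, MonoidHom.inv_apply,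
    Units.val_mul]
  ring

/-- The inductive statement in Knörr's lemma. -/
structure Kn (δ : H → ℝ) (B : Subgroup Γ) : Prop where
  nonneg : ∀ h, 0 ≤ δ h
  orth : ∀ l ∉ B, ∑ h, (δ h : ℂ) * (e l h : ℂ) = 0
  min : ∀ a ≠ 0, (Nat.card H * Nat.card B : ℝ) ≤ qf e δ a

theorem sum_lin_eq_zero {A : Type*} [Group A] [Fintype A] {l : A →* ℂˣ} (h : l ≠ 1) :
    ∑ a, (l a : ℂ) = 0 :=
  sum_hom_units_eq_zero ((Units.coeHom ℂ).comp l) fun e => h (by
    ext a; simpa using DFunLike.congr_fun e a)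

variable {e}

theorem Kn.base (he : ∀ l, e l = 1 → l = 1) : Kn e (fun _ : H => 1) ⊥ where
  nonneg _ := zero_le_one
  orth l hl := by simpa using sum_lin_eq_zero (l := e l) fun h => hl (he l h)
  min a ha := by
    classical
    have h1 : (qf e (fun _ => 1) a : ℂ) = (Nat.card H * ∑ l, a l ^ 2 : ℤ) := by
      rw [qf_eq]
      push_cast
      rw [mul_sum]
      refine sum_congr rfl fun l _ => ?_
      rw [sum_eq_single l (fun m _ hm => ?_) (by simp)]
      · simp [sq]; ring
      · simp only [one_mul]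
        rw [sum_lin_eq_zero fun h => hm (mul_inv_eq_one.1 (he _ h)).symm, mul_zero]
    have h2 : qf e (fun _ => 1) a = (Nat.card H * ∑ l, a l ^ 2 : ℤ) := by exact_mod_cast h1
    obtain ⟨l, hl⟩ := Function.ne_iff.1 ha
    have h3 : 1 ≤ ∑ l, a l ^ 2 :=
      le_trans (by have := sq_pos_of_ne_zero hl; omega)
        (single_le_sum (f := fun l => a l ^ 2) (fun _ _ => sq_nonneg _) (mem_univ l))
    rw [h2, Subgroup.card_bot]
    have : (Nat.card H * 1 : ℤ) ≤ Nat.card H * ∑ l, a l ^ 2 := by gcongr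
    exact_mod_cast this

variable {δ : H → ℝ} {B : Subgroup Γ}

open Classical in
/-- The cosets of `B` meeting the support of `a`. -/
noncomputable def csupp (B : Subgroup Γ) (a : Γ → ℤ) : Finset (Γ ⧸ B) :=
  (univ.filter fun l => a l ≠ 0).image QuotientGroup.mk

theorem mem_csupp {a : Γ → ℤ} {c : Γ ⧸ B} : c ∈ csupp B a ↔ ∃ l, a l ≠ 0 ∧ (l : Γ ⧸ B) = c := by
  simp [csupp]

theorem Kn.le (h : Kn e δ B) (a : Γ → ℤ) :
    (Nat.card H * Nat.card B * (csupp B a).card : ℝ) ≤ qf e δ a := by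
  classical
  have h1 : qf e δ a = ∑ c ∈ csupp B a, qf e δ fun l => if (l : Γ ⧸ B) = c then a l else 0 := by
    apply Complex.ofReal_injective
    simp only [Complex.ofReal_sum, qf_eq]
    symm
    rw [sum_comm]
    refine sum_congr rfl fun l _ => ?_
    rw [sum_comm]
    refine sum_congr rfl fun m _ => ?_
    rw [← sum_mul]
    by_cases hl : a l = 0
    · simp [hl]
    rw [sum_eq_single (l : Γ ⧸ B) (fun c _ hc => by simp [hc.symm])
      (fun hn => (hn (mem_csupp.2 ⟨l, hl, rfl⟩)).elim), if_pos rfl]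
    split_ifs with hm
    · rfl
    · rw [h.orth _ fun e => hm (QuotientGroup.eq.2 (by rwa [mul_comm]))]; simp
  rw [h1, mul_comm, ← nsmul_eq_mul]
  refine card_nsmul_le_sum _ _ _ fun c hc => h.min _ ?_
  obtain ⟨l, h1, h2⟩ := mem_csupp.1 hc
  exact Function.ne_iff.2 ⟨l, by simpa [h2] using h1⟩

omit [Fintype H] in
open Classical in
theorem sum_perp (A : Subgroup Γ) [Fintype A] (h : H) :
    ∑ t : A, (e t.1 h : ℂ) = if ∀ t ∈ A, e t h = 1 then (Nat.card A : ℂ) else 0 := by
  split_ifs with e1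
  · simp [fun t : A => e1 t.1 t.2]
  · refine sum_lin_eq_zero (l := (e.flip h).comp A.subtype) fun e' => e1 fun t ht => ?_
    exact DFunLike.congr_fun e' ⟨t, ht⟩

open Classical in
theorem Kn.step (h : Kn e δ B) (A : Subgroup Γ) :
    Kn e (fun x => δ x * if ∀ t ∈ A, e t x = 1 then 1 else (Nat.card A + 1 : ℝ)) (A ⊔ B) where
  nonneg x := mul_nonneg (h.nonneg x) (by split_ifs <;> positivity)
  orth l hl := by
    letI := Fintype.ofFinite A
    have : ∀ x, ((δ x * if ∀ t ∈ A, e t x = 1 then 1 else (Nat.card A + 1 : ℝ) : ℝ) : ℂ) *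
        (e l x : ℂ) = (Nat.card A + 1) * (δ x * e l x) -
          ∑ t : A, (δ x : ℂ) * (e (t.1 * l) x : ℂˣ) := by
      intro x
      simp only [map_mul, MonoidHom.mul_apply, Units.val_mul, ← mul_sum, ← sum_mul]
      rw [sum_perp]
      split_ifs <;> push_cast <;> ring
    rw [sum_congr rfl fun x _ => this x, sum_sub_distrib, ← mul_sum, sum_comm,
      h.orth l fun e => hl (Subgroup.mem_sup_right e), sum_eq_zero fun t _ => h.orth _ fun e => hl ?_]
    · simp
    · simpa using mul_mem (Subgroup.mem_sup_left (T := B) (inv_mem t.2)) (Subgroup.mem_sup_right e)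
  min a ha := by
    letI := Fintype.ofFinite A
    have h1 : 2 * qf e (fun x => δ x * if ∀ t ∈ A, e t x = 1 then 1 else (Nat.card A + 1 : ℝ)) a =
        2 * qf e δ a + ∑ t : A, qf e δ (a - fun l => a (t.1⁻¹ * l)) := by
      simp only [qf, mul_sum]
      rw [sum_comm, ← sum_add_distrib]
      refine sum_congr rfl fun x _ => ?_
      have e1 : ∀ t : A, ‖th e (a - fun l => a (t.1⁻¹ * l)) x‖ ^ 2 =
          ‖th e a x‖ ^ 2 * (2 - 2 * (e t.1 x : ℂ).re) := by
        intro t
        have : th e (fun l => a (t.1⁻¹ * l)) x = th e a x * (e t.1 x : ℂ) := by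
          rw [th_apply, th_apply, sum_mul, ← Equiv.sum_comp (Equiv.mulLeft t.1)]
          exact sum_congr rfl fun l _ => by simp; ring
        rw [map_sub, Pi.sub_apply, this, ← mul_one_sub, norm_mul, mul_pow]
        congr 1
        have h2 : ‖(e t.1 x : ℂ)‖ = 1 := norm_eq_one_of_pow_eq_one (orderOf_pos x) (by
          rw [← Units.val_pow_eq_pow_val, ← map_pow, pow_orderOf_eq_one, map_one, Units.val_one])
        rw [← Complex.normSq_eq_norm_sq, Complex.normSq_sub,
          Complex.normSq_eq_norm_sq (e t.1 x : ℂ), h2]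
        simp; norm_num
      simp only [e1, ← mul_sum]
      rw [sum_sub_distrib, ← mul_sum, ← Complex.re_sum, sum_perp, sum_const, card_univ,
        ← Nat.card_eq_fintype_card]
      split_ifs
      · simp only [Complex.natCast_re, nsmul_eq_mul]; ring
      · simp only [Complex.zero_re, nsmul_eq_mul]; ring
    obtain ⟨l0, hl0⟩ := Function.ne_iff.1 ha
    obtain ⟨c0, hc⟩ : ∃ c0 : Γ ⧸ B, c0 = l0 := ⟨_, rfl⟩
    have hc0 : c0 ∈ csupp B a := mem_csupp.2 ⟨l0, hl0, hc.symm⟩
    have h2 : ∀ t : A, (if c0 * t.1 ∈ csupp B a then 0 else 1) +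
        (if c0 * (t⁻¹).1 ∈ csupp B a then 0 else 1) ≤
        (csupp B (a - fun l => a (t.1⁻¹ * l))).card := by
      intro t
      have m1 : c0 * t.1 ∉ csupp B a → c0 * t.1 ∈ csupp B (a - fun l => a (t.1⁻¹ * l)) := by
        intro e
        refine mem_csupp.2 ⟨l0 * t.1, ?_, by rw [hc]; rfl⟩
        have : a (l0 * t.1) = 0 := by
          by_contra e'; exact e (mem_csupp.2 ⟨_, e', by rw [hc]; rfl⟩)
        rw [Pi.sub_apply, this, mul_comm l0]
        simpa using hl0
      have m2 : c0 * (t⁻¹).1 ∉ csupp B a → c0 ∈ csupp B (a - fun l => a (t.1⁻¹ * l)) := by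
        intro e
        refine mem_csupp.2 ⟨l0, ?_, hc.symm⟩
        have : a (t.1⁻¹ * l0) = 0 := by
          by_contra e'; exact e (mem_csupp.2 ⟨_, e', by rw [mul_comm, hc]; rfl⟩)
        simpa [this] using hl0
      split_ifs with e1 e2 e2
      · simp
      · exact card_pos.2 ⟨_, m2 e2⟩
      · exact card_pos.2 ⟨_, m1 e1⟩
      · exact one_lt_card.2 ⟨_, m1 e1, _, m2 e2, fun e => e1 (by rw [e]; exact hc0)⟩
    have h3 := sum_le_sum fun t (_ : t ∈ univ) => h2 t
    rw [sum_add_distrib, show (∑ t : A, if c0 * (t⁻¹).1 ∈ csupp B a then 0 else 1) = _ from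
      Equiv.sum_comp (Equiv.inv A) (fun t : A => if c0 * t.1 ∈ csupp B a then 0 else 1)] at h3
    have h4 : Nat.card (A.map (QuotientGroup.mk' B)) ≤ (csupp B a).card +
        ∑ t : A, if c0 * t.1 ∈ csupp B a then 0 else 1 := by
      rw [Nat.subtype_card (univ.image fun t : A => (t.1 : Γ ⧸ B)) (by simp),
        ← card_image_of_injective _ (mul_right_injective c0), image_image,
        ← sum_filter_add_sum_filter_not _ (fun t : A => c0 * t.1 ∈ csupp B a),
        sum_congr rfl fun t ht => if_pos (mem_filter.1 ht).2,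
        sum_congr rfl fun t ht => if_neg (mem_filter.1 ht).2, sum_const_zero, zero_add,
        ← card_eq_sum_ones]
      refine le_trans (card_le_card ?_) ((card_union_le _ _).trans
        (Nat.add_le_add_left (card_image_le (f := fun t : A => c0 * t.1)) _))
      intro c hc
      obtain ⟨t, -, rfl⟩ := mem_image.1 hc
      by_cases e : c0 * t.1 ∈ csupp B a
      · exact mem_union_left _ e
      · exact mem_union_right _ (mem_image.2 ⟨t, by simpa using e, rfl⟩)
    have h5 := H1.card_comap_mk' B (A.map (QuotientGroup.mk' B))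
    rw [H1.comap_map_mk'] at h5
    have h6 := sum_le_sum fun (t : A) (_ : t ∈ univ) => h.le (a - fun l => a (t.1⁻¹ * l))
    have h7 := h.le a
    rw [← mul_sum, ← Nat.cast_sum] at h6
    have h8 : 2 * Nat.card (A.map (QuotientGroup.mk' B)) ≤ 2 * (csupp B a).card +
        ∑ t : A, (csupp B (a - fun l => a (t.1⁻¹ * l))).card := by omega
    have h9 : (2 * Nat.card (A.map (QuotientGroup.mk' B)) : ℝ) ≤ 2 * (csupp B a).card +
        (∑ t : A, (csupp B (a - fun l => a (t.1⁻¹ * l))).card : ℕ) := by exact_mod_cast h8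
    have h10 := mul_le_mul_of_nonneg_left h9 (show (0 : ℝ) ≤ Nat.card H * Nat.card B by positivity)
    rw [h5]
    push_cast at *
    nlinarith
end dual

section grp
variable {X H : Type*} [Group X] [Finite X] [CommGroup H] [Fintype H] [Fintype (H →* ℂˣ)]

theorem exists_kn (f : H →* X) {V : Subgroup X} (hab : ∀ a ∈ V, ∀ b ∈ V, a * b = b * a)
    (hc : (Nat.card H).Coprime (Nat.card V)) (W : Subgroup X) : W ≤ V →
    (∀ h, ∀ w ∈ W, f h * w * (f h)⁻¹ ∈ W) → ∃ δ B, Kn (MonoidHom.id (H →* ℂˣ)) δ B ∧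
      (∀ h, δ h * Nat.card (W ⊓ Subgroup.centralizer {f h} : Subgroup X) ≤ Nat.card W) ∧
      ∀ h, (∀ l ∈ B, l h = 1) → ∀ w ∈ W, f h * w = w * f h := by
  classical
  induction W using WellFoundedLT.induction with
  | ind W ih =>
  intro hWV hW
  by_cases h0 : W = ⊥
  · subst h0
    exact ⟨_, _, Kn.base fun _ h => h, fun h => by simp, fun h _ w hw => by
      rw [Subgroup.mem_bot.1 hw, mul_one, one_mul]⟩
  obtain ⟨U, ⟨hUW, hU⟩, hmax⟩ := (Set.toFinite {U : Subgroup X | U < W ∧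
    ∀ h, ∀ w ∈ U, f h * w * (f h)⁻¹ ∈ U}).exists_maximal
    ⟨⊥, bot_lt_iff_ne_bot.2 h0, fun h w hw => by rw [Subgroup.mem_bot.1 hw]; simp⟩
  obtain ⟨δ, B, hK, h1, h2⟩ := ih U hUW (hUW.le.trans hWV) hU
  have cm : ∀ h k, f h * f k = f k * f h := fun h k => by rw [← map_mul, mul_comm, map_mul]
  let T : H → Subgroup X := fun h =>
    { carrier := {w | w ∈ W ∧ f h * w * (f h)⁻¹ * w⁻¹ ∈ U}
      one_mem' := ⟨one_mem _, by simp⟩
      mul_mem' := fun {a b} ha hb => ⟨mul_mem ha.1 hb.1, by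
        have := hab _ (hWV (hUW.le hb.2)) _ (hWV (inv_mem ha.1))
        rw [show f h * (a * b) * (f h)⁻¹ * (a * b)⁻¹ =
          f h * a * (f h)⁻¹ * (f h * b * (f h)⁻¹ * b⁻¹ * a⁻¹) by group, this, ← mul_assoc]
        exact mul_mem ha.2 hb.2⟩
      inv_mem' := fun {a} ha => ⟨inv_mem ha.1, by
        have := hab _ (hWV (inv_mem (hW h _ ha.1))) _ (hWV ha.1)
        rw [show f h * a⁻¹ * (f h)⁻¹ * a⁻¹⁻¹ = (f h * a * (f h)⁻¹)⁻¹ * a by group, this]
        simpa [mul_assoc] using inv_mem ha.2⟩ }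
  have hT : ∀ h w, w ∈ W → w ∉ U → f h * w * (f h)⁻¹ * w⁻¹ ∈ U →
      ∀ y ∈ W, f h * y * (f h)⁻¹ * y⁻¹ ∈ U := by
    intro h w hw hwU e
    by_contra hn
    push Not at hn
    obtain ⟨y, hy, hy2⟩ := hn
    refine hwU (hmax (y := T h) ⟨lt_of_le_of_ne (fun a ha => ha.1) fun e2 => hy2 ?_,
      fun k a ha => ⟨hW k a ha.1, ?_⟩⟩ (fun a ha => ⟨hUW.le ha, mul_mem (hU h a ha) (inv_mem ha)⟩)
      ⟨hw, e⟩)
    · exact (show y ∈ T h from e2 ▸ hy).2
    · rw [show f h * (f k * a * (f k)⁻¹) * (f h)⁻¹ * (f k * a * (f k)⁻¹)⁻¹ =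
        (f h * f k) * a * (f h * f k)⁻¹ * f k * a⁻¹ * (f k)⁻¹ by group, cm]
      convert hU k _ ha.2 using 1
      group
  let L : Subgroup H :=
    { carrier := {h | ∀ y ∈ W, f h * y * (f h)⁻¹ * y⁻¹ ∈ U}
      one_mem' := fun y _ => by simp
      mul_mem' := fun {a b} ha hb y hy => by
        convert mul_mem (hU a _ (hb y hy)) (ha y hy) using 1
        rw [map_mul]; group
      inv_mem' := fun {a} ha y hy => by
        convert hU a⁻¹ _ (inv_mem (ha y hy)) using 1
        rw [map_inv]; group }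
  have hA : ∀ x, (∀ t ∈ (MonoidHom.domRestrictHom L ℂˣ).ker, t x = 1) ↔ x ∈ L := fun x => by
    rw [← CommGroup.forall_monoidHom_apply_eq_one_iff ℂ L x]
    simp [MonoidHom.mem_ker, MonoidHom.domRestrict_eq_one_iff]
  have hb : Nat.card (MonoidHom.domRestrictHom L ℂˣ).ker + 1 ≤ U.relIndex W := by
    rw [CommGroup.card_domRestrictHom_ker, ← Finite.card_option]
    obtain ⟨w, hw, hwU⟩ := SetLike.exists_of_lt hUW
    refine Nat.card_le_card_of_injective (β := W ⧸ U.subgroupOf W)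
      (fun o => Option.elim o (QuotientGroup.mk 1) fun q =>
        QuotientGroup.mk ⟨_, hW q.out w hw⟩) ?_
    have ne : ∀ k : H, (QuotientGroup.mk 1 : W ⧸ U.subgroupOf W) ≠
        QuotientGroup.mk ⟨_, hW k w hw⟩ := by
      intro k e
      have : f k * w * (f k)⁻¹ ∈ U := by simpa [Subgroup.mem_subgroupOf] using QuotientGroup.eq.1 e
      exact hwU (by simpa [mul_assoc] using hU k⁻¹ _ this)
    rintro (_ | q) (_ | r) e
    · rfl
    · exact (ne _ e).elim
    · exact (ne _ e.symm).elim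
    · have e1 : (f q.out * w * (f q.out)⁻¹)⁻¹ * (f r.out * w * (f r.out)⁻¹) ∈ U :=
        (QuotientGroup.eq (s := U.subgroupOf W)).1 e
      have e2 := hU (q.out)⁻¹ _ e1
      rw [show f (q.out)⁻¹ * ((f q.out * w * (f q.out)⁻¹)⁻¹ * (f r.out * w * (f r.out)⁻¹)) *
        (f (q.out)⁻¹)⁻¹ = w⁻¹ * (f (q.out⁻¹ * r.out) * w * (f (q.out⁻¹ * r.out))⁻¹) by
          rw [map_mul, map_inv]; group, hab _ (hWV (inv_mem hw)) _ (hWV (hW _ _ hw))] at e2
      rw [← q.out_eq, ← r.out_eq]
      exact congrArg some (QuotientGroup.eq.2 (hT _ w hw hwU e2))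
  have hcard := H1.card_mul_relIndex hUW.le
  refine ⟨_, _, hK.step (MonoidHom.domRestrictHom L ℂˣ).ker, fun h => ?_, fun h hh w hw => ?_⟩
  · have h3 := h1 h
    have h4 := hK.nonneg h
    rw [← hcard, Nat.cast_mul]
    simp only [MonoidHom.id_apply, hA]
    split_ifs with e
    · have h5 := H1.card_inf_mul_relIndex U (W ⊓ Subgroup.centralizer {f h})
      rw [← inf_assoc, inf_eq_left.2 hUW.le] at h5
      have h6 : (U.relIndex (W ⊓ Subgroup.centralizer {f h}) : ℝ) ≤ U.relIndex W := by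
        exact_mod_cast Subgroup.relIndex_le_of_le_right inf_le_left (H1.relIndex_ne_zero _ _)
      rw [← h5, Nat.cast_mul, mul_one, ← mul_assoc]
      gcongr
    · have h5 : W ⊓ Subgroup.centralizer {f h} = U ⊓ Subgroup.centralizer {f h} := by
        refine le_antisymm (fun y hy => ⟨?_, hy.2⟩) (inf_le_inf_right _ hUW.le)
        by_contra hn
        refine e (hT h y hy.1 hn ?_)
        rw [← Subgroup.mem_centralizer_singleton_iff.1 hy.2]; simp
      have h6 : (Nat.card (MonoidHom.domRestrictHom L ℂˣ).ker + 1 : ℝ) ≤ U.relIndex W := by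
        exact_mod_cast hb
      rw [h5, mul_right_comm]
      gcongr
  · have h3 := (hA h).1 (fun t ht => hh t (Subgroup.mem_sup_left ht)) w hw
    have h4 := h2 h (fun t ht => hh t (Subgroup.mem_sup_right ht)) _ h3
    set c := f h * w * (f h)⁻¹ * w⁻¹ with hc'
    have h5 : ∀ n : ℕ, f h ^ n * w = c ^ n * w * f h ^ n := by
      intro n
      induction n with
      | zero => simp
      | succ n ih =>
        rw [pow_succ', mul_assoc, ih, ← mul_assoc, ← mul_assoc,
          (show Commute (f h) c from h4).pow_right n, pow_succ c, mul_assoc (c ^ n) c,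
          show c * w = f h * w * (f h)⁻¹ by rw [hc']; group]
        simp only [mul_assoc, inv_mul_cancel_left]
    have h6 := h5 (Nat.card H)
    rw [← map_pow, pow_card_eq_one', map_one, one_mul, mul_one, right_eq_mul] at h6
    have h7 : c = 1 := by
      rw [← orderOf_eq_one_iff]
      exact Nat.eq_one_of_dvd_coprimes hc (orderOf_dvd_of_pow_eq_one h6)
        (Subgroup.orderOf_dvd_natCard V (hWV (hUW.le h3)))
    rw [hc', mul_inv_eq_one, mul_inv_eq_iff_eq_mul] at h7
    exact h7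

theorem knorr_abelian (f : H →* X) {V : Subgroup X} [hN : V.Normal]
    (hab : ∀ a ∈ V, ∀ b ∈ V, a * b = b * a) (hc : (Nat.card H).Coprime (Nat.card V))
    (hf : ∀ h, (∀ w ∈ V, f h * w = w * f h) → h = 1) {θ : H → ℂ} (hθ : IsGeneralizedCharacter H θ)
    (h0 : θ ≠ 0) : (Nat.card H * Nat.card H : ℝ) ≤
      ∑ h, (Subgroup.centralizer {f h}).relIndex V * ‖θ h‖ ^ 2 := by
  classical
  obtain ⟨δ, B, hK, h1, h2⟩ := exists_kn f hab hc V le_rfl fun h w hw => hN.conj_mem w hw _
  have hB : B = ⊤ := by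
    have : (CommGroup.subgroupOrderIsoSubgroupMonoidHom H ℂ).symm (OrderDual.toDual B) = ⊥ :=
      eq_bot_iff.2 fun h hh => hf h (h2 h
        ((CommGroup.mem_subgroupOrderIsoSubgroupMonoidHom_symm_iff ℂ B h).1 hh))
    rw [OrderIso.symm_apply_eq, OrderIso.map_bot] at this
    exact this
  obtain ⟨a, rfl⟩ : θ ∈ (th (MonoidHom.id (H →* ℂˣ))).range := by
    obtain ⟨m, -, rfl⟩ := hθ.exists_int
    refine sum_mem fun χ _ => ?_
    obtain ⟨l, hl⟩ := χ.2.exists_hom_of_comm mul_comm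
    refine ⟨Pi.single l (m χ), ?_⟩
    ext h
    rw [th_apply, sum_eq_single l (fun b _ hb => by simp [hb]) (by simp), hl]
    simp
  have h3 := hK.min a fun e => h0 (by rw [e, map_zero])
  rw [hB, Subgroup.card_top, CommGroup.card_monoidHom_of_hasEnoughRootsOfUnity] at h3
  refine h3.trans (sum_le_sum fun h _ => ?_)
  have h4 := h1 h
  rw [← H1.card_inf_mul_relIndex (Subgroup.centralizer {f h}) V, inf_comm, Nat.cast_mul,
    mul_comm] at h4
  have h5 := le_of_mul_le_mul_left h4 (by exact_mod_cast Nat.card_pos)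
  gcongr
end grp

theorem sum_dft {p : ℕ} {ζ : ℂ} (hζ : IsPrimitiveRoot ζ p) (x : Fin p → ℂ) :
    ∑ j ∈ range p, ‖∑ i : Fin p, ζ ^ (i.1 * j) * x i‖ ^ 2 = p * ∑ i, ‖x i‖ ^ 2 := by
  classical
  rcases p.eq_zero_or_pos with rfl | hp
  · simp
  apply Complex.ofReal_injective
  have hz : ζ ≠ 0 := hζ.ne_zero hp.ne'
  have hc : conj ζ = ζ⁻¹ := (Complex.inv_eq_conj
    (norm_eq_one_of_pow_eq_one hp hζ.pow_eq_one)).symm
  push_cast
  simp only [← Complex.mul_conj', map_sum, sum_mul_sum, map_mul, map_pow, hc]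
  rw [sum_comm, mul_sum]
  refine sum_congr rfl fun i _ => ?_
  rw [sum_comm]
  have : ∀ k : Fin p, ∑ j ∈ range p, ζ ^ (i.1 * j) * x i * (ζ⁻¹ ^ (k.1 * j) * conj (x k)) =
      (if i = k then (p : ℂ) else 0) * (x i * conj (x k)) := by
    intro k
    have h1 := sum_range_root (ω := ζ ^ i.1 * ζ⁻¹ ^ k.1) (N := p) (by
      rw [mul_pow, ← pow_mul, ← pow_mul, mul_comm i.1, mul_comm k.1, pow_mul, pow_mul, inv_pow,
        hζ.pow_eq_one]; simp)
    have h2 : ζ ^ i.1 * ζ⁻¹ ^ k.1 = 1 ↔ i = k := by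
      rw [inv_pow, mul_inv_eq_one₀ (pow_ne_zero _ hz)]
      exact ⟨fun h => Fin.ext (hζ.pow_inj i.2 k.2 h), fun h => by rw [h]⟩
    simp only [h2] at h1
    rw [← h1, sum_mul]
    exact sum_congr rfl fun j _ => by rw [mul_pow, ← pow_mul, ← pow_mul]; ring
  rw [sum_congr rfl fun k _ => this k]
  simp

theorem sum_pairs_norm {ι : Type*} [Fintype ι] (x : ι → ℂ) :
    ∑ i, ∑ k, ‖x i - x k‖ ^ 2 = 2 * (Fintype.card ι * ∑ i, ‖x i‖ ^ 2 - ‖∑ i, x i‖ ^ 2) := by
  have : ‖∑ i, x i‖ ^ 2 = ∑ i, ∑ k, (x i * conj (x k)).re := by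
    rw [← Complex.normSq_eq_norm_sq, ← Complex.ofReal_re (Complex.normSq _), ← Complex.mul_conj,
      map_sum, sum_mul_sum]
    simp only [Complex.re_sum]
  simp only [this, ← Complex.normSq_eq_norm_sq, Complex.normSq_sub, sum_sub_distrib,
    sum_add_distrib, sum_const, card_univ, nsmul_eq_mul, ← mul_sum]
  ring

theorem exists_parts {K : Type*} [Group K] [Finite K] {p : ℕ} [NeZero p] {ζ : ℂ}
    (hζ : IsPrimitiveRoot ζ p) {v : K} (hv : v ∈ Subgroup.center K) (hp : v ^ p = 1) {χ : K → ℂ}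
    (hχ : IsCharacter K χ) : ∃ θ : Fin p → K → ℂ, (∀ i, IsCharacter K (θ i)) ∧
      ∀ (j : ℕ) h, χ (v ^ j * h) = ∑ i : Fin p, ζ ^ (i.1 * j) * θ i h := by
  classical
  refine hχ.induction_irr (P := fun χ => ∃ θ : Fin p → K → ℂ, (∀ i, IsCharacter K (θ i)) ∧
      ∀ (j : ℕ) h, χ (v ^ j * h) = ∑ i : Fin p, ζ ^ (i.1 * j) * θ i h)
    ⟨0, fun _ => isCharacter_zero, by simp⟩ ?_
  rintro φ ψ hφ - ⟨θ, h1, h2⟩
  obtain ⟨c, -, hc⟩ := hφ.center_le_charCenter hv
  have h3 : ∀ (j : ℕ) h, φ (v ^ j * h) = c ^ j * φ h := by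
    intro j h
    induction j with
    | zero => simp
    | succ j ih => rw [pow_succ', mul_assoc, hc, ih]; ring
  have h4 : c ^ p = 1 := by
    have := h3 p 1
    rw [hp, one_mul] at this
    exact mul_right_cancel₀ hφ.apply_one_ne_zero (by rw [← this, one_mul])
  obtain ⟨i, hi, rfl⟩ := hζ.eq_pow_of_pow_eq_one h4
  refine ⟨fun k => (if k = ⟨i, hi⟩ then φ else 0) + θ k, fun k => IsCharacter.add ?_ (h1 k),
    fun j h => ?_⟩
  · split_ifs
    exacts [hφ.isCharacter, isCharacter_zero]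
  · simp only [Pi.add_apply, mul_add, sum_add_distrib, h2, h3, ite_apply, Pi.zero_apply, mul_ite,
      mul_zero, sum_ite_eq', mem_univ, if_true, pow_mul]

theorem knorr_crit {X : Type*} [Group X] [Finite X] {p : ℕ} [hp : Fact p.Prime] {V G : Subgroup X}
    [V.Normal] (hexp : ∀ v ∈ V, v ^ p = 1) (hidx : ¬ p ∣ V.index)
    (hab : ∀ a ∈ V, ∀ b ∈ V, a * b = b * a) (hGV : Subgroup.IsComplement' V G) {v : X} (hv : v ∈ V)
    {H : Subgroup X} (hH : G ⊓ Subgroup.centralizer {v} = H) [Fintype H] {m : ℝ} (hm0 : 0 < m)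
    (hm : ∀ θ : H → ℂ, IsGeneralizedCharacter _ θ →
      θ ≠ 0 → m ≤ ∑ h : H, (Subgroup.centralizer {h.1}).relIndex V * ‖θ h‖ ^ 2) :
    Nat.card (ConjClasses X) * m ≤ Nat.card V * (Nat.card H * Nat.card H) := by
  classical
  letI := Fintype.ofFinite X
  haveI : NeZero p := ⟨hp.out.ne_zero⟩
  have hζ := Complex.isPrimitiveRoot_exp p hp.out.ne_zero
  generalize Complex.exp (2 * Real.pi * Complex.I / p) = ζ at hζ
  have hVC : V ≤ Subgroup.centralizer {v} :=
    fun a ha => Subgroup.mem_centralizer_singleton_iff.2 (hab a ha v hv)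
  have hC := card_cent_split hGV hVC
  rw [hH] at hC
  have hH1 : H ≤ G := hH ▸ inf_le_left
  have hH2 : H ≤ Subgroup.centralizer {v} := hH ▸ inf_le_right
  have hG : ¬ p ∣ Nat.card G := by rwa [← hGV.symm.index_eq_card]
  have up : ∀ j ∈ Ico 1 p, ∑ χ : IrrCharacter X, ∑ h : H, (Subgroup.centralizer {h.1}).relIndex V *
      ‖χ.1 (v ^ j * h)‖ ^ 2 ≤ Nat.card V * (Nat.card H * Nat.card H : ℝ) := by
    intro j hj
    rw [sum_comm, mul_left_comm, ← nsmul_eq_mul, Nat.card_eq_fintype_card, ← card_univ]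
    refine sum_le_card_nsmul _ _ _ fun h _ => ?_
    rw [← mul_sum, sum_irr_normSq]
    have c1 : Commute (v ^ j) h :=
      (show Commute v h from (Subgroup.mem_centralizer_singleton_iff.1 (hH2 h.2)).symm).pow_left j
    have hh : (h : X) ^ Nat.card G = 1 :=
      congrArg Subtype.val (pow_card_eq_one' (x := (⟨h, hH1 h.2⟩ : G)))
    have key : ∀ (y : X) (n k : ℕ), (v ^ j * h) ^ n = y ^ k → k.Coprime (orderOf y) →
        Subgroup.centralizer {v ^ j * h} ≤ Subgroup.centralizer {y} := by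
      intro y n k e hk x hx
      obtain ⟨r, hr⟩ := exists_pow_eq_self_of_coprime hk
      rw [Subgroup.mem_centralizer_singleton_iff] at hx ⊢
      rw [← hr, ← e]
      exact (((show Commute x _ from hx).pow_right n).pow_right r).eq
    have h1 := key v (Nat.card G) (j * Nat.card G) (by rw [c1.mul_pow, hh, mul_one, pow_mul])
      (Nat.Coprime.coprime_dvd_right (orderOf_dvd_of_pow_eq_one (hexp v hv))
        ((Nat.coprime_comm.1 ((Nat.Prime.coprime_iff_not_dvd hp.out).2 fun e =>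
          (hp.out.dvd_mul.1 e).elim (fun e => by
            have := Nat.le_of_dvd (mem_Ico.1 hj).1 e
            have := (mem_Ico.1 hj).2; omega) hG))))
    have h2 := key h p p (by rw [c1.mul_pow, hexp _ (pow_mem hv j), one_mul])
      (Nat.Coprime.coprime_dvd_right (orderOf_dvd_of_pow_eq_one hh)
        ((Nat.Prime.coprime_iff_not_dvd hp.out).2 hG))
    have h3 := H1.card_inf_mul_relIndex V (Subgroup.centralizer {v ^ j * h})
    have h4 := Subgroup.card_le_of_le (inf_le_inf_left V h2)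
    have h5 := Subgroup.relIndex_le_of_le_right (H := V) h1 (H1.relIndex_ne_zero _ _)
    have h6 := H1.card_mul_relIndex hVC
    rw [hC, mul_comm] at h6
    rw [Nat.eq_of_mul_eq_mul_right Nat.card_pos h6] at h5
    have h7 := H1.card_inf_mul_relIndex (Subgroup.centralizer {h.1}) V
    rw [inf_comm] at h7
    have : (Subgroup.centralizer {h.1}).relIndex V * Nat.card (Subgroup.centralizer {v ^ j * h}) ≤
        Nat.card V * Nat.card H := by
      rw [← h3, ← h7, mul_comm _ (Subgroup.relIndex _ V), mul_assoc]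
      gcongr
    rw [card_univ, ← Nat.card_eq_fintype_card]
    exact_mod_cast this
  have low : ∀ χ : IrrCharacter X, (p - 1 : ℝ) * m ≤ ∑ j ∈ Ico 1 p, ∑ h : H,
      (Subgroup.centralizer {h.1}).relIndex V * ‖χ.1 (v ^ j * h)‖ ^ 2 := by
    intro χ
    obtain ⟨θ, h1, h2⟩ := exists_parts (K := Subgroup.centralizer {v}) hζ
      (v := ⟨v, hVC hv⟩) (Subgroup.mem_center_iff.2 fun g =>
        Subtype.ext (Subgroup.mem_centralizer_singleton_iff.1 g.2))
      (Subtype.ext (hexp v hv)) (χ.2.isCharacter.restrict _)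
    let ι : H →* Subgroup.centralizer {v} := Subgroup.inclusion hH2
    have h3 : ∀ (j : ℕ) (h : H), χ.1 (v ^ j * h) = ∑ i : Fin p, ζ ^ (i.1 * j) * θ i (ι h) :=
      fun j h => h2 j (ι h)
    have h4 : 2 * ∑ j ∈ Ico 1 p, ∑ h : H, (Subgroup.centralizer {h.1}).relIndex V *
        ‖χ.1 (v ^ j * h)‖ ^ 2 = ∑ i, ∑ k, ∑ h : H, (Subgroup.centralizer {h.1}).relIndex V *
          ‖θ i (ι h) - θ k (ι h)‖ ^ 2 := by
      conv_rhs => enter [2, i]; rw [sum_comm]
      rw [sum_comm, sum_comm (s := univ) (t := univ), mul_sum]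
      refine sum_congr rfl fun h _ => ?_
      simp only [← mul_sum, h3]
      rw [sum_pairs_norm, Fintype.card_fin, ← sum_dft hζ, range_eq_Ico,
        sum_eq_sum_Ico_succ_bot hp.out.pos]
      simp only [mul_zero, pow_zero, one_mul, zero_add]
      ring
    have h5 : ∃ s t : Fin p, (fun h => θ s (ι h)) ≠ fun h => θ t (ι h) := by
      by_contra hn
      push Not at hn
      have h6 := h3 1 1
      rw [sum_congr rfl fun i _ => by rw [congrFun (hn i 0) 1], ← sum_mul] at h6
      simp only [mul_one, pow_one, OneMemClass.coe_one] at h6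
      rw [Fin.sum_univ_eq_sum_range (fun i => ζ ^ i), hζ.geom_sum_eq_zero hp.out.one_lt,
        zero_mul] at h6
      exact ne_zero_of_pow_eq_one χ.2.isCharacter hp.out (k := 1)
        (fun h => hidx (h.trans (H6.ito_degree_dvd V hab χ.2))) (by rw [pow_one, hexp v hv]) h6
    obtain ⟨s, t, hst⟩ := h5
    have h6 := sum_pairs_ge (A := Fin p) (g := fun i k =>
      if (fun h => θ i (ι h)) = fun h => θ k (ι h) then 0 else 1) (m := 1)
      (fun _ _ => by split_ifs <;> simp) (fun i k => by simp only [eq_comm]) (s₀ := s) (t₀ := t)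
      (fun e => hst (by rw [e])) (fun c => by
        split_ifs with e1 e2
        · exact (hst (e1.symm.trans e2)).elim
        all_goals simp)
    have h7 : (2 * (p - 1) : ℝ) ≤ ∑ i : Fin p, ∑ k : Fin p,
        if (fun h => θ i (ι h)) = fun h => θ k (ι h) then 0 else 1 := by
      rw [Fintype.card_fin, mul_one] at h6
      exact_mod_cast h6
    have h8 := mul_le_mul_of_nonneg_right h7 hm0.le
    refine le_of_mul_le_mul_left ?_ two_pos
    rw [h4, ← mul_assoc]
    refine h8.trans ?_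
    rw [sum_mul]
    refine sum_le_sum fun i _ => ?_
    rw [sum_mul]
    refine sum_le_sum fun k _ => ?_
    split_ifs with e
    · rw [zero_mul]; positivity
    · rw [one_mul]
      exact hm _ (((h1 i).comp ι).isGen.sub ((h1 k).comp ι).isGen) (sub_ne_zero.2 e)
  have h1 := sum_le_sum fun χ (_ : χ ∈ univ) => low χ
  have h2 := sum_le_sum up
  rw [sum_comm] at h2
  have h3 := h1.trans h2
  rw [sum_const, sum_const, card_univ, ← Nat.card_eq_fintype_card, card_irr_eq_card_conjClasses,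
    Nat.card_Ico, nsmul_eq_mul, nsmul_eq_mul, Nat.cast_sub hp.out.one_le, Nat.cast_one,
    mul_left_comm] at h3
  refine le_of_mul_le_mul_left h3 ?_
  have : (1 : ℝ) < p := by exact_mod_cast hp.out.one_lt
  linarith
end H8
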