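import Cfsg.Agent.H8.Cd1

/-! S4930, pieces `I` and `E`: sums of squares of `p'`-degrees in a subgroup of `p'`-index. -/
set_option autoImplicit false
namespace H8.OdI
open Subgroup Cfsg H5 H6

theorem pIE {G : Type*} [Group G] [Finite G] (p : ℕ) [hp : Fact p.Prime] (H : Subgroup G) (hi : ¬ p ∣ H.index) :
    (∑ᶠ η : {η : IrrCharacter H // ¬ p ∣ charDegree η.1}, charDegree η.1.1 ^ 2) ≤
      (∑ᶠ η : {η : IrrCharacter G // ¬ p ∣ charDegree η.1}, charDegree η.1.1 ^ 2) ∧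
    ((∑ᶠ η : {η : IrrCharacter H // ¬ p ∣ charDegree η.1}, charDegree η.1.1 ^ 2) =
      (∑ᶠ η : {η : IrrCharacter G // ¬ p ∣ charDegree η.1}, charDegree η.1.1 ^ 2) →
      ∀ θ : IrrCharacter H, ¬ p ∣ charDegree θ.1 → ∃ χ : IrrCharacter G, ∀ x : H, χ.1 x = θ.1 x) := by
  classical
  haveI := Fintype.ofFinite G
  rw [finsum_eq_sum_of_fintype, finsum_eq_sum_of_fintype]
  have ex : ∀ η : {η : IrrCharacter H // ¬ p ∣ charDegree η.1}, ∃ χ : {η : IrrCharacter G // ¬ p ∣ charDegree η.1},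
      classInner (fun h : H => χ.1.1 h) η.1.1 ≠ 0 := fun η => by
    obtain ⟨χ, h7, h8⟩ := H8.exists_constituent_not_dvd (isCharacter_ind _ η.1.2.isCharacter) (n := p) (by
      rw [H8.deg_ind η.1.2.isCharacter]
      exact Nat.Prime.not_dvd_mul hp.out hi η.2)
    rw [inner_ind_left _ _ χ.2.isClassFunction, Ne, classInner_eq_zero_comm] at h7
    exact ⟨⟨χ, h8⟩, h7⟩
  choose f hf using ex
  have fib : ∀ χ, ∑ η ∈ Finset.univ.filter (fun η => f η = χ), charDegree η.1.1 ≤ charDegree χ.1.1 := fun χ => by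
    obtain ⟨m, h1, h2⟩ := H8.deg_eq_sum (χ.1.2.isCharacter.restrict H)
    have e : charDegree (fun h : H => χ.1.1 h) = charDegree χ.1.1 := rfl
    rw [← e, h2]
    calc _ ≤ ∑ η ∈ Finset.univ.filter (fun η => f η = χ), m η.1 * charDegree η.1.1 := by
          refine Finset.sum_le_sum fun η hη => Nat.le_mul_of_pos_left _ (Nat.pos_of_ne_zero fun h0 => ?_)
          have := hf η
          rw [(Finset.mem_filter.1 hη).2, h1, h0] at this
          simp at this
      _ = ∑ η ∈ (Finset.univ.filter (fun η => f η = χ)).map (Function.Embedding.subtype _),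
            m η * charDegree η.1 := by rw [Finset.sum_map]; rfl
      _ ≤ _ := Finset.sum_le_sum_of_subset (Finset.subset_univ _)
  have one : ∀ η, charDegree η.1.1 ≤ charDegree (f η).1.1 := fun η =>
    (Finset.single_le_sum (f := fun η : {η : IrrCharacter H // ¬ p ∣ charDegree η.1} => charDegree η.1.1)
      (fun _ _ => Nat.zero_le _) (by simp)).trans (fib (f η))
  have t1 : ∀ η ∈ (Finset.univ : Finset {η : IrrCharacter H // ¬ p ∣ charDegree η.1}),
      charDegree η.1.1 ^ 2 ≤ charDegree η.1.1 * charDegree (f η).1.1 := fun η _ => by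
    rw [sq]; exact Nat.mul_le_mul_left _ (one η)
  have s1 := Finset.sum_le_sum t1
  have s2 : ∑ η, charDegree η.1.1 * charDegree (f η).1.1 ≤
      ∑ χ : {η : IrrCharacter G // ¬ p ∣ charDegree η.1}, charDegree χ.1.1 ^ 2 := by
    rw [← Finset.sum_fiberwise Finset.univ f]
    refine Finset.sum_le_sum fun χ _ => ?_
    rw [Finset.sum_congr rfl fun η hη => by rw [(Finset.mem_filter.1 hη).2], ← Finset.sum_mul, sq]
    exact Nat.mul_le_mul_right _ (fib χ)
  refine ⟨s1.trans s2, fun e θ hθ => ⟨(f ⟨θ, hθ⟩).1, ?_⟩⟩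
  have := (Finset.sum_eq_sum_iff_of_le t1).1 (le_antisymm s1 (s2.trans e.ge)) ⟨θ, hθ⟩ (Finset.mem_univ _)
  rw [sq] at this
  have d := Nat.eq_of_mul_eq_mul_left θ.2.charDegree_pos this
  refine congrFun (eq_of_constituent_of_apply_one ((f ⟨θ, hθ⟩).1.2.isCharacter.restrict H) θ.2 (hf ⟨θ, hθ⟩) ?_)
  show (f ⟨θ, hθ⟩).1.1 1 = θ.1 1
  rw [← (f ⟨θ, hθ⟩).1.2.coe_charDegree, ← θ.2.coe_charDegree, ← d]

end H8.OdI
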