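import Cfsg.Agent.H8.PiIrr
import Cfsg.Agent.H8.PDeg
import Cfsg.Agent.H8.Gal
import Cfsg.Agent.H8.Sig
import Cfsg.Agent.H3.Tate

/-! Schur's bound: `H8.gN χ` = number of Galois conjugates, `H8.pgroup_bound` (order of a `p`-group
modulo the kernel of an irreducible character), `H8.schur_bound` (rational characters of
`p`-groups). -/

open H5 H6 Cfsg
open scoped ComplexConjugate

namespace H8

/-- number of Galois conjugates -/
noncomputable abbrev gN {X : Type*} [MulAction (RingAut ℂ) X] (x : X) : ℕ :=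
  (MulAction.stabilizer (RingAut ℂ) x).index

theorem gN_root {ζ : ℂ} {m : ℕ} (hm : 0 < m) (h : IsPrimitiveRoot ζ m) : gN ζ = m.totient := by
  rw [gN, MulAction.index_stabilizer, ← h.card_primitiveRoots, ← Set.ncard_coe_finset]
  congr 1
  ext x
  rw [Finset.mem_coe, mem_primitiveRoots hm]
  constructor
  · rintro ⟨σ, rfl⟩
    exact h.map_of_injective (f := σ) σ.injective
  · intro hx
    haveI : NeZero m := ⟨hm.ne'⟩
    obtain ⟨k, -, hk, rfl⟩ := (h.isPrimitiveRoot_iff).1 hx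
    obtain ⟨σ, hσ⟩ := exists_ringEquiv_pow hm hk
    exact ⟨σ, hσ _ h.pow_eq_one⟩

variable {G : Type*} [Group G] {χ : G → ℂ}

omit [Group G] in
theorem gal_smul (σ : RingAut ℂ) (χ : G → ℂ) : σ • χ = fun g => σ (χ g) := rfl

theorem charKer_gal (σ : RingAut ℂ) (χ : G → ℂ) : charKer (σ • χ) = charKer χ := by
  ext g
  simp only [mem_charKer_def, gal_smul, σ.injective.eq_iff]

theorem gal_ind [Fintype G] (σ : RingAut ℂ) (H : Subgroup G) (θ : H → ℂ) :
    σ • indFun H θ = indFun H (σ • θ) := by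
  classical
  ext g
  change σ _ = _
  rw [indFun_apply, indFun_apply, map_mul, map_inv₀, map_natCast, map_sum]
  congr 1
  refine Finset.sum_congr rfl fun x _ => ?_
  rw [extendByZero_apply, extendByZero_apply]
  split_ifs
  · rfl
  · exact map_zero _

variable [Finite G]

theorem isIrr_gal (hχ : IsIrrCharacter G χ) (σ : RingAut ℂ) : IsIrrCharacter G (σ • χ) :=
  hχ.map_ringHom σ.toRingHom

theorem deg_gal (hχ : IsCharacter G χ) (σ : RingAut ℂ) : charDegree (σ • χ) = charDegree χ :=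
  charDegree_eq_of_apply_one (by change σ _ = _; rw [← hχ.coe_charDegree, map_natCast])

theorem stab_root_le (hχ : IsCharacter G χ) {ζ : ℂ} (h : IsPrimitiveRoot ζ (Nat.card G)) :
    MulAction.stabilizer (RingAut ℂ) ζ ≤ MulAction.stabilizer (RingAut ℂ) χ := by
  intro σ hσ
  rw [MulAction.mem_stabilizer_iff] at hσ ⊢
  ext g
  have := hχ.ringHom_apply σ.toRingHom (m := Nat.card G) (k := 1) (fun ε hε => by
    haveI : NeZero (Nat.card G) := ⟨Nat.card_pos.ne'⟩
    obtain ⟨i, -, rfl⟩ := h.eq_pow_of_pow_eq_one hε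
    rw [map_pow, pow_one]
    exact congrArg (· ^ i) hσ) (g := g) pow_card_eq_one'
  rwa [pow_one] at this

theorem gN_dvd (hχ : IsCharacter G χ) : gN χ ∣ (Nat.card G).totient := by
  have h := Complex.isPrimitiveRoot_exp (Nat.card G) Nat.card_pos.ne'
  rw [← gN_root Nat.card_pos h]
  exact Subgroup.index_dvd_of_le (stab_root_le hχ h)

theorem gN_ne_zero (hχ : IsCharacter G χ) : gN χ ≠ 0 := fun e =>
  (Nat.totient_pos.2 (Nat.card_pos (α := G))).ne' (Nat.eq_zero_of_zero_dvd (e ▸ gN_dvd hχ))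

theorem totient_index_ker_le (lam : G →* ℂˣ) :
    lam.ker.index.totient ≤ gN fun g => (lam g : ℂ) := by
  rw [Subgroup.index_ker]
  haveI : Finite lam.range := Finite.of_surjective _ lam.rangeRestrict_surjective
  obtain ⟨⟨_, g, rfl⟩, hg⟩ := IsCyclic.exists_ofOrder_eq_natCard (α := lam.range)
  have h1 : IsPrimitiveRoot (lam g : ℂ) (Nat.card lam.range) := by
    rw [← hg, ← Subgroup.orderOf_coe, ← orderOf_units]
    exact IsPrimitiveRoot.orderOf _
  rw [← gN_root Nat.card_pos h1]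
  refine Nat.le_of_dvd (Nat.pos_of_ne_zero (gN_ne_zero (isCharacter_hom lam)))
    (Subgroup.index_dvd_of_le fun σ hσ => ?_)
  exact congrFun (MulAction.mem_stabilizer_iff.1 hσ) g

theorem index_charKer_cj {N : Subgroup G} [N.Normal] (θ : N → ℂ) (g : G) :
    (charKer (cj θ g)).index = (charKer θ).index := by
  rw [cj_eq_comp]
  have := charKer_comp (χ := θ) (MulAut.conjNormal g).toMonoidHom (MulAut.conjNormal g).surjective
  exact (congrArg Subgroup.index this).trans
    (Subgroup.index_comap_of_surjective _ (MulAut.conjNormal g).surjective)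

universe u in
theorem pgroup_bound {p : ℕ} [hp : Fact p.Prime] (P : Type u) [Group P] [Finite P] :
    IsPGroup p P → ∀ (χ : P → ℂ) (a t : ℕ), IsIrrCharacter P χ → (charKer χ).index = p ^ a →
      gN χ ≤ (p - 1) * p ^ t →
      (p - 1) * a ≤ (charDegree χ - 1) + (p - 1) * (t + 1) * charDegree χ := by
  refine H1.card_induction (P := fun P _ _ => IsPGroup p P → ∀ (χ : P → ℂ) (a t : ℕ),
    IsIrrCharacter P χ → (charKer χ).index = p ^ a → gN χ ≤ (p - 1) * p ^ t →
      (p - 1) * a ≤ (charDegree χ - 1) + (p - 1) * (t + 1) * charDegree χ) ?_ P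
  intro P _ _ ih hP χ a t hχ ha ht
  classical
  letI := Fintype.ofFinite P
  haveI := hP.isNilpotent
  have hp1 := hp.out.one_lt
  obtain ⟨U, lam, hU⟩ := monomial_of_nilpotent hχ
  by_cases hUt : U = ⊤
  · have h1 : charDegree χ = 1 := by
      rw [hU, deg_ind (isCharacter_hom _), charDegree_hom, hUt, Subgroup.index_top]
    obtain ⟨μ, rfl⟩ := hχ.isCharacter.exists_hom_of_apply_one
      (hχ.isCharacter.charDegree_eq_one_iff.1 h1)
    have h2 := (totient_index_ker_le μ).trans ht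
    rw [← charKer_hom, ha] at h2
    rw [h1]
    rcases Nat.eq_zero_or_pos a with rfl | ha0
    · simp
    · rw [Nat.totient_prime_pow hp.out ha0, mul_comm] at h2
      have h3 := (Nat.pow_le_pow_iff_right hp1).1 (Nat.le_of_mul_le_mul_left h2 (by omega))
      simpa using Nat.mul_le_mul_left _ (by omega)
  obtain ⟨H, hH, hUH⟩ := (eq_top_or_exists_le_coatom U).resolve_left hUt
  obtain ⟨hHn, hHi⟩ := H3.index_eq_prime_of_isCoatom hP hH
  obtain ⟨θ, hθdef⟩ : ∃ θ : H → ℂ, θ = indFun (U.subgroupOf H)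
    (fun x => (lam ⟨(x : H), Subgroup.mem_subgroupOf.mp x.2⟩ : ℂ)) := ⟨_, rfl⟩
  have e : indFun H θ = χ := by
    rw [hθdef, hU]; exact indFun_indFun U (fun h => (lam h : ℂ)) H hUH
  have hθ : IsIrrCharacter H θ := irr_of_ind_irr H
    (hθdef ▸ (isCharacter_sOf (isCharacter_hom lam) H).indFun) (e ▸ hχ)
  have hin : inertia θ = H := le_antisymm (inertia_le_of_isIrr_ind hθ (e ▸ hχ))
    (le_inertia hθ.isClassFunction)
  have hdeg : charDegree χ = p * charDegree θ := by rw [← e, deg_ind hθ.isCharacter, hHi]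
  obtain ⟨b, hb⟩ := (hP.to_subgroup H).index (charKer θ)
  have hle : MulAction.stabilizer (RingAut ℂ) θ ≤ MulAction.stabilizer (RingAut ℂ) χ := by
    intro σ hσ
    rw [MulAction.mem_stabilizer_iff] at hσ ⊢
    rw [← e, gal_ind, hσ]
  have hcj : ∀ σ ∈ MulAction.stabilizer (RingAut ℂ) χ, ∃ g, σ • θ = cj θ g := by
    intro σ hσ
    refine exists_cj_of_inner_ind_ne_zero hθ (isIrr_gal hθ σ) ?_
    rw [← gal_ind, e, MulAction.mem_stabilizer_iff.1 hσ, hχ.classInner_self]
    exact one_ne_zero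
  have hcard := card_image_cj θ hθ.apply_one_ne_zero
  rw [hin, hHi] at hcard
  have hd := hθ.charDegree_pos
  obtain ⟨q, rfl⟩ : ∃ q, p = q + 1 := ⟨p - 1, by omega⟩
  obtain ⟨g, hg⟩ : ∃ g, charDegree θ = g + 1 := ⟨charDegree θ - 1, by omega⟩
  have hq : 1 ≤ q := by omega
  simp only [add_tsub_cancel_right] at ht ih ⊢
  have e1 : (q + 1) * (g + 1) - 1 = q * g + q + g := by
    rw [show (q + 1) * (g + 1) = q * g + q + g + 1 by ring, add_tsub_cancel_right]
  by_cases hc : MulAction.stabilizer (RingAut ℂ) χ ≤ MulAction.stabilizer (RingAut ℂ) θ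
  · have h1 := ih H (H6.card_lt_of_ne_top hH.1) (hP.to_subgroup H) θ b t hθ hb
      (by rw [gN, le_antisymm hle hc]; exact ht)
    have h2 : (⨅ φ : Finset.univ.image (cj θ : P → H → ℂ), charKer φ.1).map H.subtype ≤
        charKer χ := by
      rintro _ ⟨n, hn, rfl⟩
      refine hχ.mem_charKer.2 ?_
      rw [← e]
      refine (indFun_apply_of_normal H θ n).trans (Eq.trans ?_ (indFun_apply_of_normal H θ 1).symm)
      congr 1
      refine Finset.sum_congr rfl fun x _ => ?_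
      exact apply_eq_of_mem_charKer (Subgroup.mem_iInf.1 hn
        ⟨_, Finset.mem_image_of_mem _ (Finset.mem_univ x)⟩)
    have h3 := Nat.le_of_dvd (Nat.pos_of_ne_zero Subgroup.index_ne_zero_of_finite)
      (Subgroup.index_dvd_of_le h2)
    rw [Subgroup.index_map_subtype, hHi, ha] at h3
    have h4 := Subgroup.index_iInf_le fun φ : Finset.univ.image (cj θ : P → H → ℂ) => charKer φ.1
    rw [Finset.prod_congr rfl (g := fun _ => (q + 1) ^ b) fun φ _ => by
      obtain ⟨x, -, hx⟩ := Finset.mem_image.1 φ.2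
      rw [← hx, index_charKer_cj, hb], Finset.prod_const, Finset.card_univ, Fintype.card_coe,
      hcard, ← pow_mul] at h4
    have h5 := h3.trans (Nat.mul_le_mul_right _ h4)
    rw [← pow_succ, Nat.pow_le_pow_iff_right hp1] at h5
    rw [hdeg, hg, e1]
    rw [hg, add_tsub_cancel_right] at h1
    nlinarith [Nat.mul_le_mul_left q h5, Nat.mul_le_mul_left (q + 1) h1]
  · obtain ⟨σ, hσ, hσ'⟩ := SetLike.not_le_iff_exists.1 hc
    obtain ⟨x, hx⟩ := hcj σ hσ
    have hxH : x ∉ H := fun h => hσ' (MulAction.mem_stabilizer_iff.2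
      (hx.trans (cj_of_mem hθ.isClassFunction h)))
    haveI := hθ.isCharacter.normal_charKer
    have hn : ((charKer θ).map H.subtype).Normal := by
      rw [← Subgroup.normalizer_eq_top_iff]
      refine hH.2 _ (lt_of_le_of_ne (fun y hy => H1.mem_normalizer_of_conj_mem ?_) fun e => hxH ?_)
      · rintro _ ⟨n, hn, rfl⟩
        exact ⟨_, this.conj_mem n hn ⟨y, hy⟩, rfl⟩
      · rw [e]
        refine H1.mem_normalizer_of_conj_mem ?_
        rintro _ ⟨n, hn, rfl⟩
        refine ⟨⟨_, hHn.conj_mem n n.2 x⟩, hθ.mem_charKer.2 ?_, rfl⟩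
        rw [← charKer_gal σ, hx] at hn
        exact (apply_eq_of_mem_charKer hn).trans (cj_apply_one θ x)
    have h2 := normal_le_charKer_ind H hθ.isCharacter ((charKer θ).map H.subtype)
      (Subgroup.map_subtype_le _) (by
        rintro ⟨_, n, hn, rfl⟩
        exact apply_eq_of_mem_charKer hn)
    have h3 := Nat.le_of_dvd (Nat.pos_of_ne_zero Subgroup.index_ne_zero_of_finite)
      (Subgroup.index_dvd_of_le h2)
    rw [Subgroup.index_map_subtype, hHi, e, ha, hb, ← pow_succ, Nat.pow_le_pow_iff_right hp1] at h3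
    have h4 : (MulAction.stabilizer (RingAut ℂ) θ).relIndex (MulAction.stabilizer (RingAut ℂ) χ) ≤
        q + 1 := by
      rw [← hcard, ← Set.ncard_coe_finset]
      refine le_trans (le_of_eq (MulAction.index_stabilizer (MulAction.stabilizer (RingAut ℂ) χ) θ))
        (Set.ncard_le_ncard ?_ (Finset.finite_toSet _))
      rintro _ ⟨τ, rfl⟩
      obtain ⟨y, hy⟩ := hcj τ τ.2
      exact Finset.mem_coe.2 (Finset.mem_image.2 ⟨y, Finset.mem_univ _, hy.symm⟩)
    have h1 := ih H (H6.card_lt_of_ne_top hH.1) (hP.to_subgroup H) θ b (t + 1) hθ hb (by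
      rw [gN, ← Subgroup.relIndex_mul_index hle]
      refine (Nat.mul_le_mul h4 ht).trans (le_of_eq ?_)
      ring)
    rw [hdeg, hg, e1]
    rw [hg, add_tsub_cancel_right] at h1
    have h6 : 1 ≤ q * ((t + 1) * (g + 1)) := Nat.mul_pos hq (by positivity)
    nlinarith [Nat.mul_le_mul_left q h3, Nat.mul_le_mul_left q h6]

theorem gN_le_finrank (hχ : IsCharacter G χ) :
    gN χ ≤ Module.finrank ℚ (IntermediateField.adjoin ℚ (Set.range χ)) := by
  haveI : FiniteDimensional ℚ (IntermediateField.adjoin ℚ (Set.range χ)) :=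
    IntermediateField.finiteDimensional_adjoin fun x ⟨g, hg⟩ =>
      (isAlgebraic_rat_of_isIntegral (hg ▸ hχ.isIntegral g)).isIntegral
  rw [← AlgHom.card ℚ _ ℂ, gN, MulAction.index_stabilizer, ← Nat.card_coe_set_eq,
    ← Nat.card_eq_fintype_card]
  refine Nat.card_le_card_of_injective (fun ψ => (ψ.2.choose.toRingHom.comp
    (algebraMap (IntermediateField.adjoin ℚ (Set.range χ)) ℂ)).toRatAlgHom) fun ψ ψ' h => ?_
  refine Subtype.ext (ψ.2.choose_spec.symm.trans (Eq.trans ?_ ψ'.2.choose_spec))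
  ext g
  exact DFunLike.congr_fun h ⟨χ g, IntermediateField.subset_adjoin _ _ ⟨g, rfl⟩⟩

theorem exists_gN_eq {p : ℕ} [hp : Fact p.Prime] (hP : IsPGroup p G) (hχ : IsIrrCharacter G χ)
    (h : charKer χ ≠ ⊤) : ∃ t, gN χ = (p - 1) * p ^ t := by
  haveI := hχ.isCharacter.normal_charKer
  obtain ⟨χ', h1, h2, h3⟩ := hχ.exists_faithful_deflate
  haveI : Nontrivial (G ⧸ charKer χ) := QuotientGroup.nontrivial_iff.2 h
  obtain ⟨z, -, hz, ho⟩ := exists_central_of_normal (hP.to_quotient (charKer χ)) (N := ⊤)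
    top_ne_bot
  obtain ⟨lam, l1, l2⟩ := exists_centerHom (χ := χ') h1.apply_one_ne_zero
  have hz' := h1.center_le_charCenter hz
  have hprim : IsPrimitiveRoot (lam ⟨z, hz'⟩ : ℂ) p := by
    have e : orderOf (lam ⟨z, hz'⟩) = p := by
      rw [orderOf_injective lam ((injective_iff_map_eq_one _).2 fun x hx =>
        Subtype.ext (Subgroup.mem_bot.1 (h2 ▸ (l2 x).1 hx))), ← ho, Subgroup.orderOf_mk]
    rw [← e, ← orderOf_units]
    exact IsPrimitiveRoot.orderOf _
  have d1 : p - 1 ∣ gN χ := by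
    rw [← Nat.totient_prime hp.out, ← gN_root hp.out.pos hprim]
    refine Subgroup.index_dvd_of_le fun σ hσ => ?_
    obtain ⟨g, rfl⟩ := QuotientGroup.mk_surjective z
    have e1 := l1 ⟨_, hz'⟩ 1
    have e2 : σ (χ g) = χ g := congrFun (MulAction.mem_stabilizer_iff.1 hσ) g
    rw [mul_one] at e1
    rw [← h3, e1, map_mul, ← h1.coe_charDegree, map_natCast] at e2
    exact mul_right_cancel₀ (h1.coe_charDegree ▸ h1.apply_one_ne_zero) e2
  obtain ⟨c, hc⟩ := d1
  have d2 := gN_dvd hχ.isCharacter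
  obtain ⟨k, hk⟩ := IsPGroup.iff_card.1 hP
  have hk0 : 0 < k := Nat.pos_of_ne_zero fun e => by
    rw [e, pow_zero] at hk
    haveI := (Nat.card_eq_one_iff_unique.1 hk).1
    exact h (Subsingleton.elim _ _)
  rw [hk, Nat.totient_prime_pow hp.out hk0, hc, mul_comm] at d2
  obtain ⟨t, -, rfl⟩ := (Nat.dvd_prime_pow hp.out).1
    (Nat.dvd_of_mul_dvd_mul_right (by have := hp.out.one_lt; omega) d2)
  exact ⟨t, hc⟩

/-- Schur's function -/
def schurF (p N n : ℕ) : ℕ := ∑ i ∈ Finset.range N, n / ((p - 1) * p ^ i)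

theorem schurF_add (p N a b : ℕ) : schurF p N a + schurF p N b ≤ schurF p N (a + b) := by
  rw [schurF, schurF, schurF, ← Finset.sum_add_distrib]
  exact Finset.sum_le_sum fun i _ => Nat.add_div_le_add_div _ _ _

theorem schurF_mono (p N : ℕ) {a b : ℕ} (h : a ≤ b) : schurF p N a ≤ schurF p N b :=
  Finset.sum_le_sum fun _ _ => Nat.div_le_div_right h

theorem le_schurF {p N m a : ℕ} (hp : 1 < p) (hN : m < N) (h : (p - 1) * a + 1 ≤ p ^ (m + 1)) :
    a ≤ schurF p N ((p - 1) * p ^ m) := by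
  have h1 : ∑ i ∈ Finset.range (m + 1), p ^ i ≤ schurF p N ((p - 1) * p ^ m) := by
    rw [← Finset.sum_range_reflect]
    refine le_trans (le_of_eq (Finset.sum_congr rfl fun i hi => ?_))
      (Finset.sum_le_sum_of_subset (Finset.range_subset_range.2 hN))
    rw [Nat.mul_div_mul_left _ _ (by omega),
      Nat.pow_div (Nat.lt_succ_iff.1 (Finset.mem_range.1 hi)) (by omega), add_tsub_cancel_right]
  refine le_trans ?_ h1
  have h2 := Nat.geomSum_eq hp (m + 1)
  rw [h2, Nat.le_div_iff_mul_le (by omega), mul_comm]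
  omega

theorem irr_le_schurF {p : ℕ} [hp : Fact p.Prime] (hP : IsPGroup p G) (hχ : IsIrrCharacter G χ)
    {a N : ℕ} (ha : (charKer χ).index = p ^ a) (hN : gN χ * charDegree χ < N) :
    a ≤ schurF p N (gN χ * charDegree χ) := by
  have hp1 := hp.out.one_lt
  by_cases h : charKer χ = ⊤
  · rw [h, Subgroup.index_top, eq_comm, Nat.pow_eq_one] at ha
    rw [ha.resolve_left hp1.ne']; exact Nat.zero_le _
  obtain ⟨t, ht⟩ := exists_gN_eq hP hχ h
  obtain ⟨s, hs⟩ := deg_eq_pow hP hχ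
  have h1 := pgroup_bound G hP χ a t hχ ha ht.le
  rw [ht, hs, mul_assoc, ← pow_add] at hN ⊢
  rw [hs] at h1
  refine le_schurF hp1 (lt_of_le_of_lt ?_ hN) ?_
  · exact (Nat.lt_pow_self hp1).le.trans (Nat.le_mul_of_pos_left _ (by omega))
  · have h2 : 1 + (t + 1) * (p - 1) ≤ p ^ (t + 1) := by
      have := one_add_mul_le_pow (a := ((p - 1 : ℕ) : ℤ)) (by omega) (t + 1)
      rw [show (1 : ℤ) + ((p - 1 : ℕ) : ℤ) = p by omega] at this
      exact_mod_cast this
    have h3 : 0 < p ^ s := by positivity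
    have h4 := Nat.mul_le_mul_right (p ^ s) h2
    rw [show t + s + 1 = t + 1 + s by ring, pow_add]
    have : p ^ s - 1 + 1 = p ^ s := by omega
    nlinarith

theorem schur_finset {p : ℕ} [hp : Fact p.Prime] (hP : IsPGroup p G) (N : ℕ)
    (S : Finset (G → ℂ)) : (∀ χ ∈ S, IsIrrCharacter G χ) → (∀ χ ∈ S, ∀ σ : RingAut ℂ, σ • χ ∈ S) →
    ∑ χ ∈ S, charDegree χ < N → ∀ a, (⨅ χ ∈ S, charKer χ).index = p ^ a →
    a ≤ schurF p N (∑ χ ∈ S, charDegree χ) := by
  classical
  induction S using Finset.strongInduction with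
  | H S ih =>
  intro h1 h2 h3 a ha
  rcases S.eq_empty_or_nonempty with rfl | ⟨θ, hθ⟩
  · simp only [Finset.notMem_empty, iInf_false, iInf_top, Subgroup.index_top] at ha
    rw [eq_comm, Nat.pow_eq_one] at ha
    rw [ha.resolve_left hp.out.one_lt.ne']; exact Nat.zero_le _
  let O := S.filter fun ψ => ψ ∈ MulAction.orbit (RingAut ℂ) θ
  let T := S.filter fun ψ => ψ ∉ MulAction.orbit (RingAut ℂ) θ
  have e1 : ∑ χ ∈ O, charDegree χ + ∑ χ ∈ T, charDegree χ = ∑ χ ∈ S, charDegree χ :=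
    Finset.sum_filter_add_sum_filter_not _ _ _
  have e2 : ∑ χ ∈ O, charDegree χ = gN θ * charDegree θ := by
    rw [Finset.sum_congr rfl (g := fun _ => charDegree θ) fun ψ hψ => by
      obtain ⟨σ, rfl⟩ := (Finset.mem_filter.1 hψ).2
      exact deg_gal (h1 θ hθ).isCharacter σ, Finset.sum_const, smul_eq_mul, gN,
      MulAction.index_stabilizer, ← Set.ncard_coe_finset]
    congr 2
    ext ψ
    simp only [O, Finset.coe_filter, Set.mem_ofPred_eq, and_iff_right_iff_imp]
    rintro ⟨σ, rfl⟩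
    exact h2 θ hθ σ
  obtain ⟨b, hb⟩ := hP.index (charKer θ)
  obtain ⟨c, hc⟩ := hP.index (⨅ χ ∈ T, charKer χ)
  have k1 := irr_le_schurF hP (h1 θ hθ) hb (N := N) (by omega)
  have k2 := ih T (Finset.filter_ssubset.2 ⟨θ, hθ, not_not.2 (MulAction.mem_orbit_self θ)⟩)
    (fun χ hχ => h1 χ (Finset.mem_filter.1 hχ).1) (fun χ hχ σ => Finset.mem_filter.2
      ⟨h2 χ (Finset.mem_filter.1 hχ).1 σ, fun h => (Finset.mem_filter.1 hχ).2 (by
        obtain ⟨τ, hτ⟩ := h
        exact ⟨σ⁻¹ * τ, by simp only [mul_smul]; rw [show τ • θ = σ • χ from hτ, inv_smul_smul]⟩)⟩)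
    (by omega) c hc
  have k3 : charKer θ ⊓ ⨅ χ ∈ T, charKer χ ≤ ⨅ χ ∈ S, charKer χ := by
    refine le_iInf₂ fun χ hχ => ?_
    by_cases h : χ ∈ MulAction.orbit (RingAut ℂ) θ
    · obtain ⟨σ, rfl⟩ := h
      exact inf_le_left.trans (charKer_gal σ θ).ge
    · exact inf_le_right.trans (iInf₂_le χ (Finset.mem_filter.2 ⟨hχ, h⟩))
  have k4 := (Nat.le_of_dvd (Nat.pos_of_ne_zero Subgroup.index_ne_zero_of_finite)
    (Subgroup.index_dvd_of_le k3)).trans Subgroup.index_inf_le
  rw [ha, hb, hc, ← pow_add, Nat.pow_le_pow_iff_right hp.out.one_lt] at k4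
  rw [← e1, e2]
  exact k4.trans ((add_le_add k1 k2).trans (schurF_add _ _ _ _))

theorem schur_bound {p : ℕ} [hp : Fact p.Prime] (hP : IsPGroup p G) (hχ : IsCharacter G χ)
    (hr : ∀ σ : RingAut ℂ, σ • χ = χ) {a N : ℕ} (ha : (charKer χ).index = p ^ a)
    (hN : charDegree χ < N) : a ≤ schurF p N (charDegree χ) := by
  classical
  letI := Fintype.ofFinite G
  obtain ⟨m, hm, hs⟩ := hχ.exists_nat
  obtain ⟨m', hm', hd⟩ := deg_eq_sum hχ
  let S := (Finset.univ.filter fun ψ : IrrCharacter G => m ψ ≠ 0).image Subtype.val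
  have hS : ∀ ψ, ψ ∈ S ↔ IsIrrCharacter G ψ ∧ classInner χ ψ ≠ 0 := by
    intro ψ
    simp only [S, Finset.mem_image, Finset.mem_filter, Finset.mem_univ, true_and]
    constructor
    · rintro ⟨ψ, h, rfl⟩
      exact ⟨ψ.2, by rw [hm]; exact_mod_cast h⟩
    · rintro ⟨h1, h2⟩
      exact ⟨⟨ψ, h1⟩, fun e => h2 (by rw [hm ⟨ψ, h1⟩, e, Nat.cast_zero]), rfl⟩
  have h1 : ∑ ψ ∈ S, charDegree ψ ≤ charDegree χ := by
    rw [hd, Finset.sum_image Subtype.val_injective.injOn, Finset.sum_filter]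
    refine Finset.sum_le_sum fun ψ _ => ?_
    have : m' ψ = m ψ := by exact_mod_cast (hm' ψ).symm.trans (hm ψ)
    split_ifs with h
    · exact Nat.le_mul_of_pos_left _ (by omega)
    · exact Nat.zero_le _
  obtain ⟨b, hb⟩ := hP.index (⨅ χ ∈ S, charKer χ)
  have h2 := schur_finset hP N S (fun ψ h => ((hS ψ).1 h).1) (fun ψ h σ => (hS _).2
    ⟨isIrr_gal ((hS ψ).1 h).1 σ, by
      obtain ⟨k, hk, hσ⟩ := exists_pow_ringHom_char G σ.toRingHom
      have e1 : σ • ψ = pw k ψ := funext (hσ ψ ((hS ψ).1 h).1.isCharacter)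
      have e2 : pw k χ = χ := (funext (hσ χ hχ)).symm.trans (hr σ)
      rw [e1, ← e2, inner_pw hk]
      exact ((hS ψ).1 h).2⟩) (by omega) b hb
  have h3 : ⨅ ψ ∈ S, charKer ψ ≤ charKer χ := by
    intro g hg
    rw [hχ.mem_charKer, hs]
    simp only [Finset.sum_apply, Pi.smul_apply]
    refine Finset.sum_congr rfl fun ψ _ => ?_
    by_cases h : m ψ = 0
    · simp [h]
    · rw [apply_eq_of_mem_charKer (Subgroup.mem_iInf.1 (Subgroup.mem_iInf.1 hg ψ.1)
        (Finset.mem_image_of_mem _ (Finset.mem_filter.2 ⟨Finset.mem_univ _, h⟩)))]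
  have h4 := Nat.le_of_dvd (Nat.pos_of_ne_zero Subgroup.index_ne_zero_of_finite)
    (Subgroup.index_dvd_of_le h3)
  rw [ha, hb, Nat.pow_le_pow_iff_right hp.out.one_lt] at h4
  exact h4.trans (h2.trans (schurF_mono _ _ h1))

end H8
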